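import Mathlib
import Cfsg.Agent.Lib.Helper65.MonoDefs

/-!
S5634 (m = 1), piece MONO-P4: `p4star`.
-/

set_option autoImplicit false
set_option linter.unusedSectionVars false
set_option linter.unusedVariables false

namespace Cfsg.Agent.Lib.Helper65.Mono

open Matrix

variable {F : Type*} [Field F] {κ : Type} [Fintype κ] [DecidableEq κ]

/-- (P4): proportionality of two columns of `x` at two rows forces proportionality of the
corresponding rows of `x⁻¹` at every other column where both are nonzero. -/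
theorem p4star_aux1 {X : Subgroup (GL κ F)} (hX : MonIn X) (h3 : P3col X) (hrk : RKP X)
    (x : GL κ F) (hx : x ∈ X) (hnm : ¬ IsMono (x : Matrix κ κ F)) (a b j j' : κ) (hab : a ≠ b)
    (hjj : j ≠ j') (hja : (x : Matrix κ κ F) j a ≠ 0) (hjb : (x : Matrix κ κ F) j b ≠ 0)
    (hj'a : (x : Matrix κ κ F) j' a ≠ 0) (hj'b : (x : Matrix κ κ F) j' b ≠ 0)
    (hrat : (x : Matrix κ κ F) j b * (x : Matrix κ κ F) j' a =
      (x : Matrix κ κ F) j a * (x : Matrix κ κ F) j' b)
    (k : κ) (hkj : k ≠ j) (hkj' : k ≠ j')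
    (hak : ((x⁻¹ : GL κ F) : Matrix κ κ F) a k ≠ 0)
    (hbk : ((x⁻¹ : GL κ F) : Matrix κ κ F) b k ≠ 0) :
    ((x⁻¹ : GL κ F) : Matrix κ κ F) a k * (x : Matrix κ κ F) j a =
      (x : Matrix κ κ F) j b * ((x⁻¹ : GL κ F) : Matrix κ κ F) b k := by
  by_contra hne
  set xja := (x : Matrix κ κ F) j a with hxja
  set xjb := (x : Matrix κ κ F) j b with hxjb
  set xj'a := (x : Matrix κ κ F) j' a with hxj'a
  set xj'b := (x : Matrix κ κ F) j' b with hxj'b
  set pa := ((x⁻¹ : GL κ F) : Matrix κ κ F) a k with hpa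
  set pb := ((x⁻¹ : GL κ F) : Matrix κ κ F) b k with hpb
  have hA : xja * pa ≠ 0 := mul_ne_zero hja hak
  have hB : xjb * pb ≠ 0 := mul_ne_zero hjb hbk
  have ht0 : xjb * pb / (xja * pa) ≠ 0 := div_ne_zero hB hA
  have ht1 : Units.mk0 (xjb * pb / (xja * pa)) ht0 ≠ 1 := by
    intro h
    have h1 : xjb * pb / (xja * pa) = 1 := by
      have := congrArg Units.val h
      simpa using this
    rw [div_eq_one_iff_eq hA] at h1
    apply hne
    rw [h1, mul_comm]
  set t : Fˣ := Units.mk0 (xjb * pb / (xja * pa)) ht0 with ht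
  have htv : (t : F) = xjb * pb / (xja * pa) := rfl
  have htiv : ((t⁻¹ : Fˣ) : F) = (xjb * pb / (xja * pa))⁻¹ := by
    rw [Units.val_inv_eq_inv_val, htv]
  have hy : x * dg a b t * x⁻¹ ∈ X := X.mul_mem (X.mul_mem hx (dg_mem hX hab t)) (X.inv_mem hx)
  have hynm := hrk x hx hnm a b hab t ht1
  have hj'b' : xj'b = xjb * xj'a / xja := by
    rw [eq_div_iff hja, hrat]
    ring
  apply h3 _ hy hynm k j j' hjj
  · rw [conj_dg_apply x hab t j k, if_neg (Ne.symm hkj), htv, htiv, ← hxja, ← hxjb, ← hpa, ← hpb]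
    field_simp
    ring
  · rw [conj_dg_apply x hab t j' k, if_neg (Ne.symm hkj'), htv, htiv, ← hxj'a, ← hxj'b, ← hpa,
      ← hpb, hj'b']
    field_simp
    ring

/-- (P4'): proportionality of two rows of `x⁻¹` at two columns forces proportionality of the
corresponding columns of `x` at every other row where both are nonzero. -/
theorem p4star_aux2 {X : Subgroup (GL κ F)} (hX : MonIn X) (h3r : P3row X) (hrk : RKP X)
    (x : GL κ F) (hx : x ∈ X) (hnm : ¬ IsMono (x : Matrix κ κ F)) (a b : κ) (hab : a ≠ b)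
    (c d : F) (hc : c ≠ 0) (hd : d ≠ 0) (k k' : κ) (hkk : k ≠ k')
    (hbk : ((x⁻¹ : GL κ F) : Matrix κ κ F) b k ≠ 0)
    (hbk' : ((x⁻¹ : GL κ F) : Matrix κ κ F) b k' ≠ 0)
    (hk : ((x⁻¹ : GL κ F) : Matrix κ κ F) a k * c = d * ((x⁻¹ : GL κ F) : Matrix κ κ F) b k)
    (hk' : ((x⁻¹ : GL κ F) : Matrix κ κ F) a k' * c =
      d * ((x⁻¹ : GL κ F) : Matrix κ κ F) b k')
    (i : κ) (hik : i ≠ k) (hik' : i ≠ k') (hia : (x : Matrix κ κ F) i a ≠ 0)
    (hib : (x : Matrix κ κ F) i b ≠ 0) :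
    (x : Matrix κ κ F) i b * c = (x : Matrix κ κ F) i a * d := by
  by_contra hne
  set xia := (x : Matrix κ κ F) i a with hxia
  set xib := (x : Matrix κ κ F) i b with hxib
  set pak := ((x⁻¹ : GL κ F) : Matrix κ κ F) a k with hpak
  set pbk := ((x⁻¹ : GL κ F) : Matrix κ κ F) b k with hpbk
  set pak' := ((x⁻¹ : GL κ F) : Matrix κ κ F) a k' with hpak'
  set pbk' := ((x⁻¹ : GL κ F) : Matrix κ κ F) b k' with hpbk'
  have hA : xia * d ≠ 0 := mul_ne_zero hia hd
  have hB : xib * c ≠ 0 := mul_ne_zero hib hc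
  have ht0 : xib * c / (xia * d) ≠ 0 := div_ne_zero hB hA
  have ht1 : Units.mk0 (xib * c / (xia * d)) ht0 ≠ 1 := by
    intro h
    have h1 : xib * c / (xia * d) = 1 := by
      have := congrArg Units.val h
      simpa using this
    rw [div_eq_one_iff_eq hA] at h1
    exact hne h1
  set t : Fˣ := Units.mk0 (xib * c / (xia * d)) ht0 with ht
  have htv : (t : F) = xib * c / (xia * d) := rfl
  have htiv : ((t⁻¹ : Fˣ) : F) = (xib * c / (xia * d))⁻¹ := by
    rw [Units.val_inv_eq_inv_val, htv]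
  have hy : x * dg a b t * x⁻¹ ∈ X := X.mul_mem (X.mul_mem hx (dg_mem hX hab t)) (X.inv_mem hx)
  have hynm := hrk x hx hnm a b hab t ht1
  have hpak_eq : pak = d * pbk / c := by
    rw [eq_div_iff hc]
    exact hk
  have hpak'_eq : pak' = d * pbk' / c := by
    rw [eq_div_iff hc]
    exact hk'
  apply h3r _ hy hynm i k k' hkk
  · rw [conj_dg_apply x hab t i k, if_neg hik, htv, htiv, ← hxia, ← hxib, ← hpak, ← hpbk, hpak_eq]
    field_simp
    ring
  · rw [conj_dg_apply x hab t i k', if_neg hik', htv, htiv, ← hxia, ← hxib, ← hpak', ← hpbk',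
      hpak'_eq]
    field_simp
    ring

/-- P4 -/
theorem p4star (hn : 7 ≤ Fintype.card κ) {X : Subgroup (GL κ F)} (hX : MonIn X)
    (h3 : P3col X) (h3r : P3row X) (hrk : RKP X) : P4starP X := by
  classical
  intro x hx hnm a b j j' hab hjj hja hjb hj'a hj'b hrat i hia hib
  have hψ : x⁻¹ ∈ X := X.inv_mem hx
  have hψnm : ¬ IsMono ((x⁻¹ : GL κ F) : Matrix κ κ F) := by
    rw [isMono_inv_iff]
    exact hnm
  -- the zero sets of the rows `a`, `b` of `x⁻¹`
  have hZ : ∀ r : κ, (Finset.univ.filter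
      (fun k => ((x⁻¹ : GL κ F) : Matrix κ κ F) r k = 0)).card ≤ 1 := by
    intro r
    rw [Finset.card_le_one]
    intro k hk k' hk'
    by_contra hne
    exact h3r _ hψ hψnm r k k' hne (Finset.mem_filter.mp hk).2 (Finset.mem_filter.mp hk').2
  set Zs : Finset κ := ({j, j', i} : Finset κ) ∪
    Finset.univ.filter (fun k => ((x⁻¹ : GL κ F) : Matrix κ κ F) a k = 0) ∪
    Finset.univ.filter (fun k => ((x⁻¹ : GL κ F) : Matrix κ κ F) b k = 0) with hZs
  have hcard : Zs.card ≤ 5 := by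
    rw [hZs]
    refine le_trans (Finset.card_union_le _ _) ?_
    have h1 : ({j, j', i} : Finset κ).card ≤ 3 := Finset.card_le_three
    have h3' := Finset.card_union_le ({j, j', i} : Finset κ)
      (Finset.univ.filter (fun k => ((x⁻¹ : GL κ F) : Matrix κ κ F) a k = 0))
    have h4 := hZ a
    have h5 := hZ b
    omega
  have hcompl : 1 < Zsᶜ.card := by
    rw [Finset.card_compl]
    omega
  obtain ⟨k, hk, k', hk', hkk⟩ := Finset.one_lt_card.mp hcompl
  have hmem : ∀ l : κ, l ∈ Zsᶜ → l ≠ j ∧ l ≠ j' ∧ l ≠ i ∧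
      ((x⁻¹ : GL κ F) : Matrix κ κ F) a l ≠ 0 ∧ ((x⁻¹ : GL κ F) : Matrix κ κ F) b l ≠ 0 := by
    intro l hl
    rw [Finset.mem_compl, hZs, Finset.mem_union, Finset.mem_union] at hl
    push Not at hl
    obtain ⟨⟨h1, h2⟩, h3'⟩ := hl
    simp only [Finset.mem_insert, Finset.mem_singleton, not_or] at h1
    simp only [Finset.mem_filter, Finset.mem_univ, true_and] at h2 h3'
    exact ⟨h1.1, h1.2.1, h1.2.2, h2, h3'⟩
  obtain ⟨hkj, hkj', hki, hak, hbk⟩ := hmem k hk
  obtain ⟨hk'j, hk'j', hk'i, hak', hbk'⟩ := hmem k' hk'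
  have e1 := p4star_aux1 hX h3 hrk x hx hnm a b j j' hab hjj hja hjb hj'a hj'b hrat k hkj hkj'
    hak hbk
  have e2 := p4star_aux1 hX h3 hrk x hx hnm a b j j' hab hjj hja hjb hj'a hj'b hrat k' hk'j
    hk'j' hak' hbk'
  exact p4star_aux2 hX h3r hrk x hx hnm a b hab _ _ hja hjb k k' hkk hbk hbk' e1 e2 i
    (Ne.symm hki) (Ne.symm hk'i) hia hib

end Cfsg.Agent.Lib.Helper65.Mono
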