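import Mathlib
import Cfsg.Agent.Lib.Helper48.CPa

/-!
# S0892 (project ALT-MULT, helper13), piece ODD

Lifting the Carmichael relations through a central extension with kernel of odd order
(`m = 3`, i.e. `A₅`, or `m ≥ 6`, i.e. `Aₙ` with `n ≥ 8`).
-/

set_option autoImplicit false

namespace Cfsg.Agent.Lib.Helper13.AM

open Cfsg.Agent.Lib.Helper48

section odd

variable {Γ G : Type*} [Group Γ] [Group G]

theorem odd_pow_card (π : Γ →* G) [Finite π.ker] {z : Γ} (hz : z ∈ π.ker) :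
    z ^ Nat.card π.ker = 1 := by
  have h1 : (⟨z, hz⟩ : π.ker) ^ Nat.card π.ker = 1 := pow_card_eq_one'
  have := congrArg Subtype.val h1
  simpa using this

/-- an element of the odd kernel with trivial square is trivial -/
theorem odd_eq_one_of_sq (π : Γ →* G) [Finite π.ker] (hodd : Odd (Nat.card π.ker)) {z : Γ}
    (hz : z ∈ π.ker) (h2 : z * z = 1) : z = 1 := by
  obtain ⟨j, hj⟩ := hodd
  have h3 := odd_pow_card π hz
  rw [hj, pow_succ, pow_mul, pow_two, h2, one_pow, one_mul] at h3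
  exact h3

/-- square roots in the odd kernel -/
theorem odd_exists_sqrt (π : Γ →* G) [Finite π.ker] (hodd : Odd (Nat.card π.ker)) {z : Γ}
    (hz : z ∈ π.ker) : ∃ w ∈ π.ker, w * w = z := by
  obtain ⟨j, hj⟩ := hodd
  have h3 := odd_pow_card π hz
  refine ⟨z ^ (j + 1), π.ker.pow_mem hz _, ?_⟩
  rw [← pow_add]
  have e : j + 1 + (j + 1) = Nat.card π.ker + 1 := by omega
  rw [e, pow_succ, h3, one_mul]

/-- (B1) existence of involutive lifts -/
theorem odd_exists_lift (π : Γ →* G) (hc : π.ker ≤ Subgroup.center Γ) [Finite π.ker]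
    (hodd : Odd (Nat.card π.ker)) {a : G} (ha : a ∈ π.range) (h2 : a * a = 1) :
    ∃ A : Γ, π A = a ∧ A * A = 1 := by
  obtain ⟨g, rfl⟩ := ha
  have hk : (g * g)⁻¹ ∈ π.ker := by
    rw [MonoidHom.mem_ker, map_inv, map_mul, h2, inv_one]
  obtain ⟨w, hw, hww⟩ := odd_exists_sqrt π hodd hk
  have hwc : ∀ y : Γ, y * w = w * y := fun y => Subgroup.mem_center_iff.1 (hc hw) y
  refine ⟨g * w, ?_, ?_⟩
  · rw [map_mul, MonoidHom.mem_ker.1 hw, mul_one]
  · calc g * w * (g * w) = g * (w * g) * w := by group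
      _ = g * (g * w) * w := by rw [hwc g]
      _ = (g * g) * (w * w) := by group
      _ = 1 := by rw [hww]; group

/-- (B1) uniqueness of involutive lifts -/
theorem odd_lift_unique (π : Γ →* G) (hc : π.ker ≤ Subgroup.center Γ) [Finite π.ker]
    (hodd : Odd (Nat.card π.ker)) {A A' : Γ} (h : π A = π A') (hA : A * A = 1)
    (hA' : A' * A' = 1) : A = A' := by
  have hz : A⁻¹ * A' ∈ π.ker := by
    rw [MonoidHom.mem_ker, map_mul, map_inv, h, inv_mul_cancel]
  have hzc := Subgroup.mem_center_iff.1 (hc hz)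
  have h2 : (A⁻¹ * A') * (A⁻¹ * A') = 1 := by
    calc (A⁻¹ * A') * (A⁻¹ * A') = A⁻¹ * (A' * (A⁻¹ * A')) := by group
      _ = A⁻¹ * ((A⁻¹ * A') * A') := by rw [hzc A']
      _ = (A * A)⁻¹ * (A' * A') := by group
      _ = 1 := by rw [hA, hA']; group
  exact inv_mul_eq_one.1 (odd_eq_one_of_sq π hodd hz h2)

/-- (B3) commuting images, an involution and an element of order dividing 3 -/
theorem odd_comm_of_sq_cube (π : Γ →* G) (hc : π.ker ≤ Subgroup.center Γ) {R S : Γ}
    (h : π R * π S = π S * π R) (hR : R * R = 1) (hS : S ^ 3 = 1) : R * S = S * R := by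
  have hy : R * S * R⁻¹ * S⁻¹ ∈ π.ker := by
    rw [MonoidHom.mem_ker, map_mul, map_mul, map_mul, map_inv, map_inv, h]
    group
  have hyc := Subgroup.mem_center_iff.1 (hc hy)
  obtain ⟨y, hydef⟩ : ∃ y, y = R * S * R⁻¹ * S⁻¹ := ⟨_, rfl⟩
  rw [← hydef] at hyc
  have e1 : R * S * R⁻¹ = y * S := by rw [hydef]; group
  have hRinv : R⁻¹ = R := inv_eq_of_mul_eq_one_left hR
  have e2 : S = y * (y * S) := by
    calc S = R * (R * S * R⁻¹) * R⁻¹ := by
          rw [hRinv]
          calc S = (R * R) * S * (R * R) := by rw [hR]; group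
            _ = R * (R * S * R) * R := by group
      _ = R * (y * S) * R⁻¹ := by rw [e1]
      _ = (R * y) * S * R⁻¹ := by group
      _ = (y * R) * S * R⁻¹ := by rw [hyc R]
      _ = y * (R * S * R⁻¹) := by group
      _ = y * (y * S) := by rw [e1]
  have hy2 : y * y = 1 := by
    have : y * y * S = 1 * S := by rw [one_mul, mul_assoc]; exact e2.symm
    exact mul_right_cancel this
  have hy3 : y ^ 3 = 1 := by
    have h1 : (R * S * R⁻¹) ^ 3 = 1 := by rw [conj_pow, hS]; group
    have hcomm : Commute y S := (hyc S).symm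
    rw [e1, hcomm.mul_pow, hS, mul_one] at h1
    exact h1
  have hy1 : y = 1 := by
    rw [pow_succ, pow_two, hy2, one_mul] at hy3
    exact hy3
  rw [hy1] at e1
  rw [one_mul] at e1
  exact mul_inv_eq_iff_eq_mul.1 e1

end odd

/-- ODD -/
theorem carRel_lift_odd {Γ G : Type*} [Group Γ] [Group G] (π : Γ →* G)
    (hc : π.ker ≤ Subgroup.center Γ) [Finite π.ker] (hodd : Odd (Nat.card π.ker))
    (m : ℕ) (hm : m = 3 ∨ 6 ≤ m) (x : ℕ → G) (hx : CarRel m x)
    (hlift : ∀ i, i < m → x i ∈ π.range) :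
    ∃ Y : ℕ → Γ, (∀ i, i < m → π (Y i) = x i) ∧ CarRel m Y := by
  classical
  have hm3 : 3 ≤ m := by omega
  have hex : ∀ a : G, ∃ A : Γ, (a ∈ π.range → a * a = 1 → π A = a ∧ A * A = 1) := by
    intro a
    by_cases h : a ∈ π.range ∧ a * a = 1
    · obtain ⟨A, h1, h2⟩ := odd_exists_lift π hc hodd h.1 h.2
      exact ⟨A, fun _ _ => ⟨h1, h2⟩⟩
    · exact ⟨1, fun h1 h2 => absurd ⟨h1, h2⟩ h⟩
  choose L hL using hex
  -- uniqueness
  have hU : ∀ A : Γ, A * A = 1 → L (π A) = A := by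
    intro A hA
    have h1 : π A * π A = 1 := by rw [← map_mul, hA, map_one]
    obtain ⟨h2, h3⟩ := hL (π A) ⟨A, rfl⟩ h1
    exact odd_lift_unique π hc hodd h2 h3 hA
  -- (C1) equivariance
  have hconj : ∀ (g : Γ) (a : G), a ∈ π.range → a * a = 1 →
      g * L a * g⁻¹ = L (π g * a * (π g)⁻¹) := by
    intro g a ha haa
    obtain ⟨h1, h2⟩ := hL a ha haa
    have h3 : (g * L a * g⁻¹) * (g * L a * g⁻¹) = 1 := by
      calc (g * L a * g⁻¹) * (g * L a * g⁻¹) = g * (L a * L a) * g⁻¹ := by group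
        _ = 1 := by rw [h2]; group
    have h4 := hU _ h3
    rw [map_mul, map_mul, map_inv, h1] at h4
    exact h4.symm
  -- (C2) commuting involutions
  have hcomm : ∀ a b : G, a ∈ π.range → a * a = 1 → b ∈ π.range → b * b = 1 → a * b = b * a →
      L a * L b = L b * L a ∧ L a * L b = L (a * b) := by
    intro a b ha haa hb hbb hab
    obtain ⟨hA1, hA2⟩ := hL a ha haa
    obtain ⟨hB1, hB2⟩ := hL b hb hbb
    have h1 : L b * L a * (L b)⁻¹ = L a := by
      refine odd_lift_unique π hc hodd ?_ ?_ hA2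
      · rw [map_mul, map_mul, map_inv, hA1, hB1, ← hab]; group
      · calc (L b * L a * (L b)⁻¹) * (L b * L a * (L b)⁻¹) = L b * (L a * L a) * (L b)⁻¹ := by
              group
          _ = 1 := by rw [hA2]; group
    have h2 : L a * L b = L b * L a := (mul_inv_eq_iff_eq_mul.1 h1).symm
    refine ⟨h2, ?_⟩
    have h3 : (L a * L b) * (L a * L b) = 1 := by
      calc (L a * L b) * (L a * L b) = L a * (L b * L a) * L b := by group
        _ = L a * (L a * L b) * L b := by rw [h2]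
        _ = (L a * L a) * (L b * L b) := by group
        _ = 1 := by rw [hA2, hB2]; group
    have h4 := hU _ h3
    rw [map_mul, hA1, hB1] at h4
    exact h4.symm
  -- (B2) dihedral relations
  have hdih : ∀ (a b : G), a ∈ π.range → a * a = 1 → b ∈ π.range → b * b = 1 → ∀ n : ℕ,
      (a * b) ^ n = 1 → (L a * L b) ^ n = 1 := by
    intro a b ha haa hb hbb n hn
    obtain ⟨hA1, hA2⟩ := hL a ha haa
    obtain ⟨hB1, hB2⟩ := hL b hb hbb
    have hAinv : (L a)⁻¹ = L a := inv_eq_of_mul_eq_one_left hA2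
    have hBinv : (L b)⁻¹ = L b := inv_eq_of_mul_eq_one_left hB2
    have hz : (L a * L b) ^ n ∈ π.ker := by
      rw [MonoidHom.mem_ker, map_pow, map_mul, hA1, hB1, hn]
    have hzc := Subgroup.mem_center_iff.1 (hc hz)
    have h1 : L a * (L a * L b) ^ n * (L a)⁻¹ = ((L a * L b) ^ n)⁻¹ := by
      rw [← conj_pow, ← inv_pow]
      congr 1
      rw [mul_inv_rev, hAinv, hBinv]
      calc L a * (L a * L b) * L a = (L a * L a) * L b * L a := by group
        _ = L b * L a := by rw [hA2, one_mul]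
    have h2 : L a * (L a * L b) ^ n * (L a)⁻¹ = (L a * L b) ^ n := by
      rw [hzc (L a)]; group
    have h3 : (L a * L b) ^ n * (L a * L b) ^ n = 1 := by
      have : (L a * L b) ^ n = ((L a * L b) ^ n)⁻¹ := h2.symm.trans h1
      calc (L a * L b) ^ n * (L a * L b) ^ n = (L a * L b) ^ n * ((L a * L b) ^ n)⁻¹ := by
            rw [← this]
        _ = 1 := mul_inv_cancel _
    exact odd_eq_one_of_sq π hodd hz h3
  -- the basic data
  have hr : ∀ i, i < m → x i ∈ π.range := hlift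
  have hinv : ∀ i, 1 ≤ i → i < m → x i * x i = 1 := fun i h1 h2 => hx.mul_self h1 h2
  have hLi : ∀ i, 1 ≤ i → i < m → π (L (x i)) = x i ∧ L (x i) * L (x i) = 1 :=
    fun i h1 h2 => hL _ (hr i h2) (hinv i h1 h2)
  have hLinv : ∀ i, 1 ≤ i → i < m → (L (x i))⁻¹ = L (x i) :=
    fun i h1 h2 => inv_eq_of_mul_eq_one_left (hLi i h1 h2).2
  obtain ⟨b, hbdef⟩ : ∃ b, b = x 2 * x 0 := ⟨_, rfl⟩
  have hb_range : b ∈ π.range := by
    rw [hbdef]; exact π.range.mul_mem (hr 2 (by omega)) (hr 0 (by omega))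
  have hbb : b * b = 1 := by
    rw [hbdef]
    calc x 2 * x 0 * (x 2 * x 0) = x 2 * (x 0 * x 2) * x 0 := by group
      _ = x 2 * (x 2 * (x 0)⁻¹) * x 0 := by rw [hx.zero_mul (le_refl 2) (by omega)]
      _ = (x 2 * x 2) := by group
      _ = 1 := hinv 2 (by omega) (by omega)
  obtain ⟨hLb1, hLb2⟩ := hL b hb_range hbb
  have hLbinv : (L b)⁻¹ = L b := inv_eq_of_mul_eq_one_left hLb2
  obtain ⟨Y, hYdef⟩ : ∃ Y : ℕ → Γ, Y = fun i => if i = 0 then L (x 2) * L b else L (x i) :=
    ⟨_, rfl⟩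
  have hY0 : Y 0 = L (x 2) * L b := by rw [hYdef]; simp
  have hYi : ∀ i, 1 ≤ i → Y i = L (x i) := by
    intro i hi
    rw [hYdef]
    have : i ≠ 0 := by omega
    simp [this]
  have hx2b : x 2 * b = x 0 := by
    rw [hbdef, ← mul_assoc, hinv 2 (by omega) (by omega), one_mul]
  have hπ0 : π (Y 0) = x 0 := by
    rw [hY0, map_mul, (hLi 2 (by omega) (by omega)).1, hLb1, hx2b]
  have hcube : Y 0 ^ 3 = 1 := by
    rw [hY0]
    refine hdih (x 2) b (hr 2 (by omega)) (hinv 2 (by omega) (by omega)) hb_range hbb 3 ?_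
    rw [hx2b]; exact hx.cube
  -- `Y 2` inverts `Y 0`
  have h2 : L (x 2) * Y 0 * (L (x 2))⁻¹ = (Y 0)⁻¹ := by
    rw [hY0, mul_inv_rev, hLbinv, hLinv 2 (by omega) (by omega)]
    calc L (x 2) * (L (x 2) * L b) * L (x 2) = (L (x 2) * L (x 2)) * L b * L (x 2) := by group
      _ = L b * L (x 2) := by rw [(hLi 2 (by omega) (by omega)).2, one_mul]
  -- transfer of the inversion along a commuting pair
  have hgen : ∀ j k, 2 ≤ j → j < m → 2 ≤ k → k < m → x j * x k = x k * x j →
      L (x k) * Y 0 * (L (x k))⁻¹ = (Y 0)⁻¹ → L (x j) * Y 0 * (L (x j))⁻¹ = (Y 0)⁻¹ := by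
    intro j k hj hjm hk hkm hjk hkinv
    have hrr : (x j * x k) * (x j * x k) = 1 := by
      calc (x j * x k) * (x j * x k) = x j * (x k * x j) * x k := by group
        _ = x j * (x j * x k) * x k := by rw [hjk]
        _ = (x j * x j) * (x k * x k) := by group
        _ = 1 := by rw [hinv j (by omega) hjm, hinv k (by omega) hkm]; group
    have hrrange : x j * x k ∈ π.range := π.range.mul_mem (hr j hjm) (hr k hkm)
    have hr0 : (x j * x k) * x 0 = x 0 * (x j * x k) := by
      calc (x j * x k) * x 0 = x j * (x k * x 0) := by group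
        _ = x j * ((x 0)⁻¹ * x k) := by rw [hx.zero_inv_mul hk hkm]
        _ = (x j * (x 0)⁻¹) * x k := by group
        _ = (x 0 * x j) * x k := by rw [hx.zero_mul hj hjm]
        _ = x 0 * (x j * x k) := by group
    obtain ⟨-, hprod⟩ := hcomm (x j) (x k) (hr j hjm) (hinv j (by omega) hjm) (hr k hkm)
      (hinv k (by omega) hkm) hjk
    obtain ⟨hLr1, hLr2⟩ := hL (x j * x k) hrrange hrr
    have hcm : L (x j * x k) * Y 0 = Y 0 * L (x j * x k) := by
      refine odd_comm_of_sq_cube π hc ?_ hLr2 hcube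
      rw [hLr1, hπ0, hr0]
    have hj' : L (x j) = L (x j * x k) * L (x k) := by
      rw [← hprod, mul_assoc, (hLi k (by omega) hkm).2, mul_one]
    have hkinv' : L (x k) * Y 0 * L (x k) = (Y 0)⁻¹ := by
      have := hkinv
      rw [hLinv k (by omega) hkm] at this
      exact this
    have hcm' : L (x j * x k) * (Y 0)⁻¹ = (Y 0)⁻¹ * L (x j * x k) := by
      have : (Y 0)⁻¹ * (L (x j * x k) * Y 0) * (Y 0)⁻¹ = (Y 0)⁻¹ * (Y 0 * L (x j * x k)) * (Y 0)⁻¹ := by
        rw [hcm]
      calc L (x j * x k) * (Y 0)⁻¹ = ((Y 0)⁻¹ * Y 0) * L (x j * x k) * (Y 0)⁻¹ := by group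
        _ = (Y 0)⁻¹ * (Y 0 * L (x j * x k)) * (Y 0)⁻¹ := by group
        _ = (Y 0)⁻¹ * (L (x j * x k) * Y 0) * (Y 0)⁻¹ := by rw [hcm]
        _ = (Y 0)⁻¹ * L (x j * x k) := by group
    rw [hj', mul_inv_rev, hLinv k (by omega) hkm]
    calc L (x j * x k) * L (x k) * Y 0 * (L (x k) * (L (x j * x k))⁻¹)
        = L (x j * x k) * (L (x k) * Y 0 * L (x k)) * (L (x j * x k))⁻¹ := by group
      _ = L (x j * x k) * (Y 0)⁻¹ * (L (x j * x k))⁻¹ := by rw [hkinv']
      _ = (Y 0)⁻¹ * L (x j * x k) * (L (x j * x k))⁻¹ := by rw [hcm']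
      _ = (Y 0)⁻¹ := by group
  have h4 : ∀ j, 4 ≤ j → j < m → L (x j) * Y 0 * (L (x j))⁻¹ = (Y 0)⁻¹ := by
    intro j hj hjm
    exact hgen j 2 (by omega) hjm (le_refl 2) (by omega)
      (hx.comm (by omega : 1 ≤ 2) (by omega) hjm).symm h2
  have hinvert : ∀ j, 2 ≤ j → j < m → L (x j) * Y 0 * (L (x j))⁻¹ = (Y 0)⁻¹ := by
    intro j hj hjm
    rcases Nat.lt_or_ge j 4 with hlt | hge
    · rcases Nat.lt_or_ge j 3 with hlt3 | hge3
      · have : j = 2 := by omega
        rw [this]; exact h2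
      · have hj3 : j = 3 := by omega
        have h6 : 6 ≤ m := by omega
        rw [hj3]
        exact hgen 3 5 (by omega) (by omega) (by omega) (by omega)
          (hx.comm (by omega : 1 ≤ 3) (by omega) (by omega)) (h4 5 (by omega) (by omega))
    · exact h4 j hge hjm
  refine ⟨Y, ?_, ?_⟩
  · intro i hi
    rcases Nat.eq_zero_or_pos i with h0 | hpos
    · rw [h0]; exact hπ0
    · rw [hYi i hpos]; exact (hLi i hpos hi).1
  · refine ⟨hcube, ?_, ?_, ?_⟩
    · intro i h1 h2'
      rw [hYi i h1, pow_two]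
      exact (hLi i h1 h2').2
    · intro i hi
      rcases Nat.eq_zero_or_pos i with h0 | hpos
      · -- adj 0
        subst h0
        have hY1 : Y (0 + 1) = L (x 1) := hYi 1 (le_refl 1)
        have hx0sq : x 0 * x 0 = (x 0)⁻¹ := hx.zero_sq
        have hx0isq : (x 0)⁻¹ * (x 0)⁻¹ = x 0 := by
          have := congrArg (fun g => g⁻¹) hx0sq
          simpa [mul_inv_rev] using this
        have hx11 : x 1 * x 1 = 1 := hinv 1 (le_refl 1) (by omega)
        obtain ⟨g, hgdef⟩ : ∃ g, g = (x 0)⁻¹ * x 1 * x 0 := ⟨_, rfl⟩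
        obtain ⟨u, hudef⟩ : ∃ u, u = x 0 * x 1 * (x 0)⁻¹ := ⟨_, rfl⟩
        have hg_range : g ∈ π.range := by
          rw [hgdef]
          exact π.range.mul_mem (π.range.mul_mem (π.range.inv_mem (hr 0 (by omega)))
            (hr 1 (by omega))) (hr 0 (by omega))
        have hu_range : u ∈ π.range := by
          rw [hudef]
          exact π.range.mul_mem (π.range.mul_mem (hr 0 (by omega)) (hr 1 (by omega)))
            (π.range.inv_mem (hr 0 (by omega)))
        have hgg : g * g = 1 := by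
          rw [hgdef]
          calc (x 0)⁻¹ * x 1 * x 0 * ((x 0)⁻¹ * x 1 * x 0) = (x 0)⁻¹ * (x 1 * x 1) * x 0 := by
                group
            _ = 1 := by rw [hx11]; group
        have huu : u * u = 1 := by
          rw [hudef]
          calc x 0 * x 1 * (x 0)⁻¹ * (x 0 * x 1 * (x 0)⁻¹) = x 0 * (x 1 * x 1) * (x 0)⁻¹ := by
                group
            _ = 1 := by rw [hx11]; group
        have hug : u * g = x 1 := by
          have hadj := hx.adj 0 (by omega)
          have e1 : (x 0 * x 1) ^ 3 = (x 0 * x 1 * x 0 * x 1 * x 0) * x 1 := by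
            simp only [pow_succ, pow_zero, one_mul, mul_assoc]
          rw [zero_add, e1] at hadj
          have e2 : x 0 * x 1 * x 0 * x 1 * x 0 = (x 1)⁻¹ := eq_inv_of_mul_eq_one_left hadj
          have e3 : (x 1)⁻¹ = x 1 := inv_eq_of_mul_eq_one_left hx11
          rw [hudef, hgdef]
          calc x 0 * x 1 * (x 0)⁻¹ * ((x 0)⁻¹ * x 1 * x 0)
              = x 0 * x 1 * ((x 0)⁻¹ * (x 0)⁻¹) * x 1 * x 0 := by group
            _ = x 0 * x 1 * x 0 * x 1 * x 0 := by rw [hx0isq]
            _ = x 1 := by rw [e2, e3]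
        have hugc : u * g = g * u := by
          apply car_comm_of_invol huu hgg
          rw [hug, hx11]
        obtain ⟨hLg1, hLg2⟩ := hL g hg_range hgg
        have hLginv : (L g)⁻¹ = L g := inv_eq_of_mul_eq_one_left hLg2
        have hc1 := hconj (Y 0)⁻¹ g hg_range hgg
        have hconj_g : (x 0)⁻¹ * g * x 0 = u := by
          rw [hgdef, hudef]
          calc (x 0)⁻¹ * ((x 0)⁻¹ * x 1 * x 0) * x 0 = ((x 0)⁻¹ * (x 0)⁻¹) * x 1 * (x 0 * x 0) := by
                group
            _ = x 0 * x 1 * (x 0)⁻¹ := by rw [hx0isq, hx0sq]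
        rw [map_inv, hπ0, inv_inv, inv_inv, hconj_g] at hc1
        obtain ⟨-, hprod⟩ := hcomm u g hu_range huu hg_range hgg hugc
        rw [hug] at hprod
        have hkey : L g * Y 0 * (L g)⁻¹ = Y 0 * Y (0 + 1) := by
          rw [hY1, ← hprod, ← hc1, hLginv]
          group
        rw [← hkey, conj_pow, hcube]
        group
      · rw [hYi i hpos, hYi (i + 1) (by omega)]
        exact hdih (x i) (x (i + 1)) (hr i (by omega)) (hinv i hpos (by omega)) (hr (i + 1) hi)
          (hinv (i + 1) (by omega) hi) 3 (hx.adj i hi)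
    · intro i j hij hj
      rcases Nat.eq_zero_or_pos i with h0 | hpos
      · subst h0
        rw [hYi j (by omega)]
        have hA := hinvert j (by omega) hj
        have hAA := (hLi j (by omega) hj).2
        rw [hLinv j (by omega) hj] at hA
        rw [pow_two]
        calc Y 0 * L (x j) * (Y 0 * L (x j)) = Y 0 * (L (x j) * Y 0 * L (x j)) * 1 := by group
          _ = 1 := by rw [hA]; group
      · rw [hYi i hpos, hYi j (by omega)]
        exact hdih (x i) (x j) (hr i (by omega)) (hinv i hpos (by omega)) (hr j hj)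
          (hinv j (by omega) hj) 2 (hx.far i j hij hj)

end Cfsg.Agent.Lib.Helper13.AM
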