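import Mathlib

/-!
# S0892 (project ALT-MULT, helper13), piece SPLIT

A central extension whose kernel lies in the commutator subgroup and which has a "small"
supplement is trivial.
-/

set_option autoImplicit false

namespace Cfsg.Agent.Lib.Helper13.AM

open scoped commutatorElement

/-- If `K ≤ Γ` maps onto `G` and has at most `|G|` elements, and the kernel of `π` is central and
contained in the commutator subgroup, then the kernel is trivial. -/
theorem ker_eq_bot_of_complement {Γ G : Type*} [Group Γ] [Finite Γ] [Group G] (π : Γ →* G)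
    (hc : π.ker ≤ Subgroup.center Γ) (hd : π.ker ≤ commutator Γ)
    (K : Subgroup Γ) (hK : ∀ g : G, ∃ k ∈ K, π k = g) (hcard : Nat.card K ≤ Nat.card G) :
    π.ker = ⊥ := by
  classical
  have hsurj : Function.Surjective (π.comp K.subtype) := by
    intro g
    obtain ⟨k, hk, hkg⟩ := hK g
    exact ⟨⟨k, hk⟩, hkg⟩
  have : Finite G := Finite.of_surjective _ hsurj
  have hbij : Function.Bijective (π.comp K.subtype) := by
    rw [Nat.bijective_iff_surjective_and_card]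
    exact ⟨hsurj, le_antisymm hcard (Nat.card_le_card_of_surjective _ hsurj)⟩
  -- every element is `k * z`
  have hdec : ∀ g : Γ, ∃ k ∈ K, ∃ z ∈ π.ker, g = k * z := by
    intro g
    obtain ⟨k, hk, hkg⟩ := hK (π g)
    refine ⟨k, hk, k⁻¹ * g, ?_, by group⟩
    rw [MonoidHom.mem_ker, map_mul, map_inv, hkg, inv_mul_cancel]
  have hcomm : commutator Γ ≤ K := by
    rw [commutator_def, Subgroup.commutator_le]
    intro g _ h _
    obtain ⟨k₁, hk₁, z₁, hz₁, rfl⟩ := hdec g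
    obtain ⟨k₂, hk₂, z₂, hz₂, rfl⟩ := hdec h
    have c1 := Subgroup.mem_center_iff.mp (hc hz₁)
    have c2 := Subgroup.mem_center_iff.mp (hc hz₂)
    have e : ⁅k₁ * z₁, k₂ * z₂⁆ = ⁅k₁, k₂⁆ := by
      rw [commutatorElement_def, commutatorElement_def, mul_inv_rev, mul_inv_rev]
      have c1' : ∀ g : Γ, g * z₁⁻¹ = z₁⁻¹ * g := fun g => by
        rw [eq_inv_mul_iff_mul_eq, ← mul_assoc, ← c1 g, mul_assoc, mul_inv_cancel, mul_one]
      have c2' : ∀ g : Γ, g * z₂⁻¹ = z₂⁻¹ * g := fun g => by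
        rw [eq_inv_mul_iff_mul_eq, ← mul_assoc, ← c2 g, mul_assoc, mul_inv_cancel, mul_one]
      calc k₁ * z₁ * (k₂ * z₂) * (z₁⁻¹ * k₁⁻¹) * (z₂⁻¹ * k₂⁻¹)
          = k₁ * (z₁ * k₂) * (z₂ * z₁⁻¹) * k₁⁻¹ * z₂⁻¹ * k₂⁻¹ := by simp only [mul_assoc]
        _ = k₁ * (k₂ * z₁) * (z₁⁻¹ * z₂) * k₁⁻¹ * z₂⁻¹ * k₂⁻¹ := by rw [c1 k₂, c1' z₂]
        _ = k₁ * k₂ * (z₂ * k₁⁻¹) * z₂⁻¹ * k₂⁻¹ := by
            simp only [mul_assoc, mul_inv_cancel_left]
        _ = k₁ * k₂ * (k₁⁻¹ * z₂) * z₂⁻¹ * k₂⁻¹ := by rw [c2 k₁⁻¹]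
        _ = k₁ * k₂ * k₁⁻¹ * k₂⁻¹ := by simp only [mul_assoc, mul_inv_cancel_left]
    rw [e]
    exact K.mul_mem (K.mul_mem (K.mul_mem hk₁ hk₂) (K.inv_mem hk₁)) (K.inv_mem hk₂)
  rw [eq_bot_iff]
  intro z hz
  rw [Subgroup.mem_bot]
  have hzK : z ∈ K := hcomm (hd hz)
  have h1 : (π.comp K.subtype) ⟨z, hzK⟩ = (π.comp K.subtype) 1 := by
    rw [map_one]
    exact hz
  have h2 := hbij.1 h1
  exact congrArg Subtype.val h2

end Cfsg.Agent.Lib.Helper13.AM
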