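import Mathlib
import Cfsg.Agent.Lib.Helper48.CPa
import Cfsg.Agent.Lib.Helper48.CPb
import Cfsg.Agent.Lib.Helper13.AMSplit
import Cfsg.Agent.Lib.Helper13.AMOdd

/-!
# S0892 (project ALT-MULT, helper13), piece ASM-O

A central extension of `Aₙ` (`n = 5` or `n ≥ 8`) with kernel of odd order contained in the
commutator subgroup is trivial.
-/

set_option autoImplicit false

namespace Cfsg.Agent.Lib.Helper13.AM

open Equiv Cfsg.Agent.Lib.Helper48

/-- a subgroup contained in a finset has at most that many elements -/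
theorem asmO_card_le {Γ : Type*} [Group Γ] (K : Subgroup Γ) (S : Finset Γ)
    (h : ∀ g ∈ K, g ∈ S) : Nat.card K ≤ S.card := by
  classical
  have h1 : Nat.card K = (K : Set Γ).ncard := (Nat.card_coe_set_eq (K : Set Γ))
  rw [h1, ← Set.ncard_coe_finset S]
  exact Set.ncard_le_ncard (fun g hg => h g hg) (Finset.finite_toSet S)

/-- ASM-O -/
theorem ker_eq_bot_of_odd {Γ : Type*} [Group Γ] [Finite Γ] (n : ℕ) (hn : n = 5 ∨ 8 ≤ n)
    (π : Γ →* Perm (Fin n)) (hr : π.range = alternatingGroup (Fin n))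
    (hc : π.ker ≤ Subgroup.center Γ) (hd : π.ker ≤ commutator Γ)
    (hodd : Odd (Nat.card π.ker)) : π.ker = ⊥ := by
  classical
  have hn5 : 5 ≤ n := by omega
  have hm : n - 2 = 3 ∨ 6 ≤ n - 2 := by omega
  have hlift : ∀ i, i < n - 2 → carY n i ∈ π.range := by
    intro i _
    rw [hr]
    exact carY_mem n i
  obtain ⟨Y, hY, hYrel⟩ := carRel_lift_odd π hc hodd (n - 2) hm (carY n) (carY_rel n) hlift
  obtain ⟨S, hS, hSK⟩ := CarRel.bound Y (n - 2) hYrel
  have hn2 : n - 2 + 2 = n := by omega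
  rw [hn2] at hS
  -- the codomain restriction
  have hmem : ∀ g : Γ, π g ∈ alternatingGroup (Fin n) := by
    intro g
    rw [← hr]
    exact ⟨g, rfl⟩
  have hker : (π.codRestrict (alternatingGroup (Fin n)) hmem).ker = π.ker :=
    MonoidHom.ker_codRestrict _ _ _
  have hnt : Nontrivial (Fin n) := Fin.nontrivial_iff_two_le.mpr (by omega)
  have hcardA : 2 * Nat.card (alternatingGroup (Fin n)) = n.factorial := by
    rw [two_mul_nat_card_alternatingGroup, Nat.card_perm, Nat.card_eq_fintype_card,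
      Fintype.card_fin]
  have hfin := ker_eq_bot_of_complement (π.codRestrict (alternatingGroup (Fin n)) hmem)
    (by rw [hker]; exact hc) (by rw [hker]; exact hd)
    (Subgroup.closure (Y '' Set.Iio (n - 2))) ?_ ?_
  · rw [← hker]; exact hfin
  · intro g
    have h1 : (g : Perm (Fin n)) ∈ Subgroup.closure (carY n '' Set.Iio (n - 2)) :=
      carY_alt_le n (by omega) g.2
    have h2 : Subgroup.closure (carY n '' Set.Iio (n - 2)) ≤
        (Subgroup.closure (Y '' Set.Iio (n - 2))).map π := by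
      rw [MonoidHom.map_closure]
      apply Subgroup.closure_mono
      rintro _ ⟨i, hi, rfl⟩
      exact ⟨Y i, ⟨i, hi, rfl⟩, hY i hi⟩
    obtain ⟨k, hk, hkg⟩ := h2 h1
    exact ⟨k, hk, Subtype.ext hkg⟩
  · have h1 := asmO_card_le (Subgroup.closure (Y '' Set.Iio (n - 2))) S hSK
    omega

end Cfsg.Agent.Lib.Helper13.AM
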