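import Mathlib

/-!
# S0892 (project ALT-MULT, helper13), piece TRANSPORT

If the lifts of one pair of commuting double transpositions with common support commute, then so
do the lifts of every such pair (conjugate by an even permutation).
-/

set_option autoImplicit false

namespace Cfsg.Agent.Lib.Helper13.AM

open Equiv

theorem trans_V1 {α : Type*} [DecidableEq α] (a b c d : α) (h : [a, b, c, d].Nodup) :
    swap a b * swap c d * (swap a c * swap b d) = swap b c * swap a d := by
  simp only [List.nodup_cons, List.mem_cons, List.not_mem_nil, or_false, not_or,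
    List.nodup_nil, and_true, not_false_eq_true] at h
  obtain ⟨⟨hab, hac, had⟩, ⟨hbc, hbd⟩, hcd⟩ := h
  refine Equiv.ext fun x => ?_
  simp only [Perm.mul_apply, swap_apply_def]
  split_ifs <;> simp_all

theorem trans_key {Γ G : Type*} [Group Γ] [Group G] (π : Γ →* G)
    (hc : π.ker ≤ Subgroup.center Γ)
    (u v R S : Γ) (huv : u * v = v * u) (hR : π R = π u)
    (hS : π S = π v ∨ π S = π (u * v)) :
    R * S = S * R := by
  have hz : ∀ x y : Γ, π x = π y → ∃ z ∈ Subgroup.center Γ, x = y * z := by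
    intro x y h
    refine ⟨y⁻¹ * x, hc ?_, by group⟩
    rw [MonoidHom.mem_ker, map_mul, map_inv, h, inv_mul_cancel]
  obtain ⟨z, hz1, rfl⟩ := hz R u hR
  have hzc : ∀ g, g * z = z * g := fun g => Subgroup.mem_center_iff.mp hz1 g
  rcases hS with hS | hS
  · obtain ⟨w, hw1, rfl⟩ := hz S v hS
    have hwc : ∀ g, g * w = w * g := fun g => Subgroup.mem_center_iff.mp hw1 g
    calc u * z * (v * w) = u * (v * w * z) := by rw [mul_assoc u z, ← hzc (v * w)]
      _ = u * v * w * z := by simp only [mul_assoc]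
      _ = v * u * w * z := by rw [huv]
      _ = v * (w * u) * z := by rw [← hwc u]; simp only [mul_assoc]
      _ = v * w * (u * z) := by simp only [mul_assoc]
  · obtain ⟨w, hw1, rfl⟩ := hz S (u * v) hS
    have hwc : ∀ g, g * w = w * g := fun g => Subgroup.mem_center_iff.mp hw1 g
    calc u * z * (u * v * w) = u * (u * v * w * z) := by
          rw [mul_assoc u z, ← hzc (u * v * w)]
      _ = u * (u * v) * w * z := by simp only [mul_assoc]
      _ = u * (v * u) * w * z := by rw [huv]
      _ = u * v * (w * u) * z := by rw [← hwc u]; simp only [mul_assoc]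
      _ = u * v * w * (u * z) := by simp only [mul_assoc]

theorem trans_conj {Γ : Type*} [Group Γ] {n : ℕ} (π : Γ →* Perm (Fin n))
    (hr : ∀ g ∈ alternatingGroup (Fin n), g ∈ π.range)
    (a b c d : Fin n) (A₀ B₀ : Γ) (hA : π A₀ = swap a b * swap c d)
    (hB : π B₀ = swap a c * swap b d)
    (hAB : A₀ * B₀ = B₀ * A₀) (σ : Perm (Fin n)) (hσ : σ ∈ alternatingGroup (Fin n)) :
    ∃ u v : Γ, u * v = v * u ∧ π u = swap (σ a) (σ b) * swap (σ c) (σ d) ∧
      π v = swap (σ a) (σ c) * swap (σ b) (σ d) := by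
  obtain ⟨g, rfl⟩ := MonoidHom.mem_range.mp (hr σ hσ)
  refine ⟨g * A₀ * g⁻¹, g * B₀ * g⁻¹, ?_, ?_, ?_⟩
  · calc g * A₀ * g⁻¹ * (g * B₀ * g⁻¹) = g * (A₀ * B₀) * g⁻¹ := by group
      _ = g * (B₀ * A₀) * g⁻¹ := by rw [hAB]
      _ = g * B₀ * g⁻¹ * (g * A₀ * g⁻¹) := by group
  · rw [map_mul, map_mul, map_inv, hA, Equiv.swap_apply_apply, Equiv.swap_apply_apply]; group
  · rw [map_mul, map_mul, map_inv, hB, Equiv.swap_apply_apply, Equiv.swap_apply_apply]; group

/-- TRANSPORT -/
theorem dtrans_comm {Γ : Type*} [Group Γ] {n : ℕ} (π : Γ →* Perm (Fin n))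
    (hr : ∀ g ∈ alternatingGroup (Fin n), g ∈ π.range) (hc : π.ker ≤ Subgroup.center Γ)
    (a b c d : Fin n) (habcd : [a, b, c, d].Nodup)
    (A₀ B₀ : Γ) (hA : π A₀ = swap a b * swap c d) (hB : π B₀ = swap a c * swap b d)
    (hAB : A₀ * B₀ = B₀ * A₀)
    (p q r s : Fin n) (hpqrs : [p, q, r, s].Nodup) (R S : Γ)
    (hR : π R = swap p q * swap r s)
    (hS : π S = swap p r * swap q s ∨ π S = swap p s * swap q r) :
    R * S = S * R := by
  classical
  have core : ∀ (p q r s : Fin n), [p, q, r, s].Nodup → ∀ (R S : Γ),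
      π R = swap p q * swap r s → π S = swap p r * swap q s → R * S = S * R := by
    intro p q r s hpqrs R S hR hS
    have hx : Function.Injective ![a, b, c, d] := by
      rw [← List.nodup_ofFn]; simpa using habcd
    have hy : Function.Injective ![p, q, r, s] := by
      rw [← List.nodup_ofFn]; simpa using hpqrs
    have := Equiv.Perm.isMultiplyPretransitive (Fin n) 4
    obtain ⟨σ, hσ⟩ := MulAction.exists_smul_eq (Perm (Fin n))
      (⟨_, hx⟩ : Fin 4 ↪ Fin n) ⟨_, hy⟩
    have hσa : σ a = p := by simpa using DFunLike.congr_fun hσ 0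
    have hσb : σ b = q := by simpa using DFunLike.congr_fun hσ 1
    have hσc : σ c = r := by simpa using DFunLike.congr_fun hσ 2
    have hσd : σ d = s := by simpa using DFunLike.congr_fun hσ 3
    have habcd' := habcd
    simp only [List.nodup_cons, List.mem_cons, List.not_mem_nil, or_false, not_or,
      List.nodup_nil, and_true, not_false_eq_true] at habcd'
    obtain ⟨⟨hab, hac, had⟩, ⟨hbc, hbd⟩, hcd⟩ := habcd'
    by_cases hev : σ ∈ alternatingGroup (Fin n)
    · obtain ⟨u, v, huv, hu, hv⟩ := trans_conj π hr a b c d A₀ B₀ hA hB hAB σ hev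
      rw [hσa, hσb, hσc, hσd] at hu hv
      exact trans_key π hc u v R S huv (hR.trans hu.symm) (Or.inl (hS.trans hv.symm))
    · have hev' : σ * swap a b ∈ alternatingGroup (Fin n) := by
        rw [Equiv.Perm.mem_alternatingGroup] at hev ⊢
        rw [map_mul, Equiv.Perm.sign_swap hab]
        rcases Int.units_eq_one_or (Equiv.Perm.sign σ) with h | h
        · exact absurd h hev
        · rw [h]; rfl
      obtain ⟨u, v, huv, hu, hv⟩ := trans_conj π hr a b c d A₀ B₀ hA hB hAB _ hev'
      have e1 : (σ * swap a b) a = q := by rw [Perm.mul_apply, swap_apply_left, hσb]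
      have e2 : (σ * swap a b) b = p := by rw [Perm.mul_apply, swap_apply_right, hσa]
      have e3 : (σ * swap a b) c = r := by
        rw [Perm.mul_apply, swap_apply_of_ne_of_ne (Ne.symm hac) (Ne.symm hbc), hσc]
      have e4 : (σ * swap a b) d = s := by
        rw [Perm.mul_apply, swap_apply_of_ne_of_ne (Ne.symm had) (Ne.symm hbd), hσd]
      rw [e1, e2, e3, e4] at hu hv
      have hqprs : [q, p, r, s].Nodup := (List.Perm.swap p q [r, s]).nodup_iff.mpr hpqrs
      refine trans_key π hc u v R S huv (hR.trans ?_) (Or.inr (hS.trans ?_))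
      · rw [hu, swap_comm q p]
      · rw [map_mul, hu, hv, trans_V1 q p r s hqprs]
  rcases hS with hS | hS
  · exact core p q r s hpqrs R S hR hS
  · refine core p q s r ?_ R S ?_ hS
    · exact (((List.Perm.swap r s []).cons q).cons p).nodup_iff.mpr hpqrs
    · rw [hR, swap_comm s r]

end Cfsg.Agent.Lib.Helper13.AM
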