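import Mathlib
import Cfsg.Agent.Lib.Helper48.CPa

/-!
# S0892 (project ALT-MULT, helper13), piece TWO

Lifting the Carmichael relations through a central extension whose kernel is a 2-group, when
the lifts of the relevant commuting pairs of involutions commute.
-/

set_option autoImplicit false

namespace Cfsg.Agent.Lib.Helper13.AM

open Cfsg.Agent.Lib.Helper48

section TwoAux

variable {Γ G : Type*} [Group Γ] [Group G]

/-- in a kernel of 2-power order, only the identity has cube one -/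
theorem two_cube_eq_one (π : Γ →* G) [Finite π.ker] (h2 : ∃ k, Nat.card π.ker = 2 ^ k)
    {z : Γ} (hz : z ∈ π.ker) (h3 : z ^ 3 = 1) : z = 1 := by
  obtain ⟨k, hk⟩ := h2
  have h4 : (⟨z, hz⟩ : π.ker) ^ 2 ^ k = 1 := by
    rw [← hk]
    exact pow_card_eq_one'
  have h5 : z ^ 2 ^ k = 1 := by
    have h := congrArg Subtype.val h4
    simpa using h
  have h6 : orderOf z ∣ 3 := orderOf_dvd_of_pow_eq_one h3
  have h7 : orderOf z ∣ 2 ^ k := orderOf_dvd_of_pow_eq_one h5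
  have h8 : orderOf z ∣ Nat.gcd 3 (2 ^ k) := Nat.dvd_gcd h6 h7
  have h9 : Nat.gcd 3 (2 ^ k) = 1 := Nat.Coprime.pow_right k (by norm_num)
  rw [h9, Nat.dvd_one, orderOf_eq_one_iff] at h8
  exact h8

/-- two lifts with cube one of the same element coincide -/
theorem two_unique (π : Γ →* G) (hc : π.ker ≤ Subgroup.center Γ) [Finite π.ker]
    (h2 : ∃ k, Nat.card π.ker = 2 ^ k) {L L' : Γ} (h : π L = π L') (h3 : L ^ 3 = 1)
    (h3' : L' ^ 3 = 1) : L = L' := by
  have hz : L⁻¹ * L' ∈ π.ker := by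
    rw [MonoidHom.mem_ker, map_mul, map_inv, h, inv_mul_cancel]
  have hcz : Commute L (L⁻¹ * L') := Subgroup.mem_center_iff.1 (hc hz) L
  have e : L' = L * (L⁻¹ * L') := by group
  have h4 : (L⁻¹ * L') ^ 3 = 1 := by
    have h5 : L' ^ 3 = L ^ 3 * (L⁻¹ * L') ^ 3 := by
      conv_lhs => rw [e]
      exact hcz.mul_pow 3
    rw [h3', h3, one_mul] at h5
    exact h5.symm
  exact inv_mul_eq_one.1 (two_cube_eq_one π h2 hz h4)

theorem two_exists_cube_root (π : Γ →* G) (hc : π.ker ≤ Subgroup.center Γ) [Finite π.ker]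
    (h2 : ∃ k, Nat.card π.ker = 2 ^ k) {z : Γ} (hz : z ∈ π.ker) :
    ∃ r ∈ π.ker, r ^ 3 = z := by
  have hinj : Function.Injective (fun r : π.ker => r ^ 3) := by
    intro a b hab
    apply Subtype.ext
    have hab' : (a : Γ) ^ 3 = (b : Γ) ^ 3 := by
      have h := congrArg Subtype.val hab
      simpa using h
    have hcomm : Commute ((a : Γ)⁻¹) (b : Γ) := Subgroup.mem_center_iff.1 (hc b.2) _
    have h4 : ((a : Γ)⁻¹ * b) ^ 3 = 1 := by
      rw [hcomm.mul_pow, inv_pow, hab', inv_mul_cancel]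
    exact inv_mul_eq_one.1
      (two_cube_eq_one π h2 (Subgroup.mul_mem _ (Subgroup.inv_mem _ a.2) b.2) h4)
  obtain ⟨r, hr⟩ := Finite.injective_iff_surjective.1 hinj ⟨z, hz⟩
  refine ⟨r, r.2, ?_⟩
  have h := congrArg Subtype.val hr
  simpa using h

/-- lifts with cube one exist -/
theorem two_exists_lift (π : Γ →* G) (hc : π.ker ≤ Subgroup.center Γ) [Finite π.ker]
    (h2 : ∃ k, Nat.card π.ker = 2 ^ k) {t : G} (ht : t ∈ π.range) (h3 : t ^ 3 = 1) :
    ∃ L : Γ, π L = t ∧ L ^ 3 = 1 := by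
  obtain ⟨g, rfl⟩ := ht
  have hz : (g ^ 3)⁻¹ ∈ π.ker := by
    rw [MonoidHom.mem_ker, map_inv, map_pow, h3, inv_one]
  obtain ⟨r, hr, hr3⟩ := two_exists_cube_root π hc h2 hz
  refine ⟨g * r, ?_, ?_⟩
  · rw [map_mul, MonoidHom.mem_ker.1 hr, mul_one]
  · have hcomm : Commute g r := Subgroup.mem_center_iff.1 (hc hr) g
    rw [hcomm.mul_pow, hr3, mul_inv_cancel]

theorem two_comm_of_cube (π : Γ →* G) (hc : π.ker ≤ Subgroup.center Γ) [Finite π.ker]
    (h2 : ∃ k, Nat.card π.ker = 2 ^ k) {R S : Γ} (hRS : π R * π S = π S * π R)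
    (hS : S ^ 3 = 1) : R * S = S * R := by
  have h : R * S * R⁻¹ = S := by
    apply two_unique π hc h2
    · rw [map_mul, map_mul, map_inv, hRS, mul_inv_cancel_right]
    · rw [conj_pow, hS, mul_one, mul_inv_cancel]
    · exact hS
  calc R * S = R * S * R⁻¹ * R := by group
    _ = S * R := by rw [h]

theorem two_K0 (π : Γ →* G) (hc : π.ker ≤ Subgroup.center Γ) {P S R : Γ}
    (h1 : π (P * S * P⁻¹) = π S * π R) (hRS : R * S = S * R) (hS : S * S ∈ π.ker) :
    (P * S * P⁻¹ * S⁻¹) ^ 2 = 1 := by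
  obtain ⟨z, hz⟩ : ∃ z, z = (S * R)⁻¹ * (P * S * P⁻¹) := ⟨_, rfl⟩
  have hzk : z ∈ π.ker := by
    rw [hz, MonoidHom.mem_ker, map_mul, map_inv, h1, map_mul, inv_mul_cancel]
  have hzc : ∀ g : Γ, g * z = z * g := fun g => Subgroup.mem_center_iff.1 (hc hzk) g
  have hS2c : ∀ g : Γ, g * (S * S) = (S * S) * g := fun g => Subgroup.mem_center_iff.1 (hc hS) g
  have e1 : P * S * P⁻¹ = S * R * z := by
    rw [hz]
    group
  have hcomm : (P * S * P⁻¹) * S = S * (P * S * P⁻¹) := by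
    rw [e1]
    calc S * R * z * S = S * R * (z * S) := by group
      _ = S * R * (S * z) := by rw [← hzc S]
      _ = S * (R * S) * z := by group
      _ = S * (S * R) * z := by rw [hRS]
      _ = S * (S * R * z) := by group
  have hsq : (P * S * P⁻¹) * (P * S * P⁻¹) = S * S := by
    calc (P * S * P⁻¹) * (P * S * P⁻¹) = P * (S * S) * P⁻¹ := by group
      _ = (S * S) * P * P⁻¹ := by rw [hS2c P]
      _ = S * S := by group
  have hcomm' : S⁻¹ * (P * S * P⁻¹) = (P * S * P⁻¹) * S⁻¹ := by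
    calc S⁻¹ * (P * S * P⁻¹) = S⁻¹ * ((P * S * P⁻¹) * S) * S⁻¹ := by group
      _ = S⁻¹ * (S * (P * S * P⁻¹)) * S⁻¹ := by rw [hcomm]
      _ = (P * S * P⁻¹) * S⁻¹ := by group
  rw [pow_two]
  calc (P * S * P⁻¹ * S⁻¹) * (P * S * P⁻¹ * S⁻¹)
      = (P * S * P⁻¹) * (S⁻¹ * (P * S * P⁻¹)) * S⁻¹ := by group
    _ = (P * S * P⁻¹) * ((P * S * P⁻¹) * S⁻¹) * S⁻¹ := by rw [hcomm']
    _ = ((P * S * P⁻¹) * (P * S * P⁻¹)) * S⁻¹ * S⁻¹ := by group
    _ = (S * S) * S⁻¹ * S⁻¹ := by rw [hsq]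
    _ = 1 := by group

/-- identities in a group with `a ^ 3 = c ^ 3 = (a * c) ^ 2 = 1` -/
theorem two_ids {a c : G} (ha : a ^ 3 = 1) (hcc : c ^ 3 = 1) (hac : (a * c) ^ 2 = 1) :
    (a * (a * c) * a⁻¹) * a⁻¹ * (a * (a * c) * a⁻¹)⁻¹ = c ∧
    a * (a * (a * c) * a⁻¹) * a⁻¹ = (a * (a * c) * a⁻¹) * (a * c) ∧
    (a * (a * c) * a⁻¹) * (a * (a * c) * a⁻¹) = 1 := by
  have haaa : a * a * a = 1 := by
    rw [← ha]
    simp [pow_succ]
  have hccc : c * c * c = 1 := by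
    rw [← hcc]
    simp [pow_succ]
  have hpp : a * a = a⁻¹ := eq_inv_of_mul_eq_one_left haaa
  have hqq : c * c = c⁻¹ := eq_inv_of_mul_eq_one_left hccc
  have hacac : a * c * (a * c) = 1 := by
    rw [← pow_two]
    exact hac
  have hR2 : a * c * a = c⁻¹ := by
    apply eq_inv_of_mul_eq_one_left
    rw [← hacac]
    group
  have hca : c * a * (c * a) = 1 := by
    calc c * a * (c * a) = a⁻¹ * (a * c * (a * c)) * a := by group
      _ = 1 := by rw [hacac]; group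
  have hca' : a⁻¹ * c⁻¹ = c * a := by
    have h := eq_inv_of_mul_eq_one_left hca
    rw [mul_inv_rev] at h
    exact h.symm
  refine ⟨?_, ?_, ?_⟩
  · calc (a * (a * c) * a⁻¹) * a⁻¹ * (a * (a * c) * a⁻¹)⁻¹
        = (a * a) * c * a⁻¹ * c⁻¹ * (a * a)⁻¹ := by group
      _ = a⁻¹ * c * a⁻¹ * c⁻¹ * (a⁻¹)⁻¹ := by rw [hpp]
      _ = a⁻¹ * c * a⁻¹ * (a * c * a) * (a⁻¹)⁻¹ := by rw [hR2]
      _ = a⁻¹ * (c * c) * (a * a) := by group
      _ = a⁻¹ * c⁻¹ * a⁻¹ := by rw [hqq, hpp]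
      _ = (a * c * a)⁻¹ := by group
      _ = c := by rw [hR2, inv_inv]
  · calc a * (a * (a * c) * a⁻¹) * a⁻¹ = (a * a * a) * c * (a * a)⁻¹ := by group
      _ = c * a := by rw [haaa, hpp, inv_inv, one_mul]
      _ = a⁻¹ * c⁻¹ := hca'.symm
      _ = (a * a) * (c * c) := by rw [hpp, hqq]
      _ = (a * (a * c) * a⁻¹) * (a * c) := by group
  · calc (a * (a * c) * a⁻¹) * (a * (a * c) * a⁻¹) = a * (a * c * (a * c)) * a⁻¹ := by group
      _ = 1 := by rw [hacac]; group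

theorem two_K (π : Γ →* G) (hc : π.ker ≤ Subgroup.center Γ) [Finite π.ker]
    (h2 : ∃ k, Nat.card π.ker = 2 ^ k) {p q : G} (hp : p ^ 3 = 1) (hq : q ^ 3 = 1)
    (hpq : (p * q) ^ 2 = 1) {P Q R S : Γ} (hP : π P = p) (hQ : π Q = q) (hP3 : P ^ 3 = 1)
    (hQ3 : Q ^ 3 = 1) (hR : π R = p * q) (hS : π S = p * (p * q) * p⁻¹)
    (hRS : R * S = S * R) : (P * Q) ^ 2 = 1 := by
  obtain ⟨id1, id2, id3⟩ := two_ids hp hq hpq
  have hQeq : Q = S * P⁻¹ * S⁻¹ := by
    apply two_unique π hc h2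
    · rw [hQ, map_mul, map_mul, map_inv, map_inv, hS, hP, id1]
    · exact hQ3
    · rw [conj_pow, inv_pow, hP3, inv_one, mul_one, mul_inv_cancel]
  have hK0 := two_K0 π hc (P := P) (S := S) (R := R)
    (by rw [map_mul, map_mul, map_inv, hS, hP, hR, id2]) hRS
    (by rw [MonoidHom.mem_ker, map_mul, hS, id3])
  have e : P * Q = P * S * P⁻¹ * S⁻¹ := by
    rw [hQeq]
    group
  rw [e]
  exact hK0

/-- the sequence of lifts -/
def two_seq {Γ : Type*} [Group Γ] (Y0 Y1 : Γ) (T : ℕ → Γ) : ℕ → Γ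
  | 0 => Y0
  | 1 => Y1
  | (n + 2) => T (n + 1) * two_seq Y0 Y1 T (n + 1) * (T (n + 1))⁻¹

theorem two_seq_succ (Y0 Y1 : Γ) (T : ℕ → Γ) {i : ℕ} (hi : 1 ≤ i) :
    two_seq Y0 Y1 T (i + 1) = T i * two_seq Y0 Y1 T i * (T i)⁻¹ := by
  obtain ⟨n, rfl⟩ : ∃ n, i = n + 1 := ⟨i - 1, by omega⟩
  rfl

end TwoAux

/-- TWO -/
theorem carRel_lift_two {Γ G : Type*} [Group Γ] [Group G] (π : Γ →* G)
    (hc : π.ker ≤ Subgroup.center Γ) [Finite π.ker] (h2 : ∃ k, Nat.card π.ker = 2 ^ k)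
    (m : ℕ) (hm : 2 ≤ m) (x : ℕ → G) (hx : CarRel m x) (hlift : ∀ i, i < m → x i ∈ π.range)
    (h0 : ∃ A B : Γ, π A = x 1 ∧ π B = x 0 * x 1 * (x 0)⁻¹ ∧ A * B = B * A)
    (hi : ∀ i, 1 ≤ i → i + 2 < m → ∃ R S : Γ, π R = x i * x (i + 2) ∧
        π S = (x i * x (i + 1)) * (x i * x (i + 2)) * (x i * x (i + 1))⁻¹ ∧ R * S = S * R) :
    ∃ Y : ℕ → Γ, (∀ i, i < m → π (Y i) = x i) ∧ CarRel m Y := by
  obtain ⟨A, B, hA, hB, hAB⟩ := h0
  obtain ⟨Y0, hY0, hY03⟩ := two_exists_lift π hc h2 (hlift 0 (by omega)) hx.cube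
  have hT : ∀ i, ∃ t : Γ, 1 ≤ i → i + 1 < m → π t = x i * x (i + 1) ∧ t ^ 3 = 1 := by
    intro i
    by_cases h : 1 ≤ i ∧ i + 1 < m
    · obtain ⟨t, ht, ht3⟩ := two_exists_lift π hc h2
        (Subgroup.mul_mem _ (hlift i (by omega)) (hlift (i + 1) h.2)) (hx.adj i h.2)
      exact ⟨t, fun _ _ => ⟨ht, ht3⟩⟩
    · exact ⟨1, fun h1 h2 => absurd ⟨h1, h2⟩ h⟩
  choose T hT using hT
  obtain ⟨Y, hYdef⟩ : ∃ Y : ℕ → Γ, Y = two_seq Y0 (Y0 * B * Y0⁻¹ * B⁻¹) T := ⟨_, rfl⟩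
  have hYz : Y 0 = Y0 := by rw [hYdef]; rfl
  have hYo : Y 1 = Y0 * B * Y0⁻¹ * B⁻¹ := by rw [hYdef]; rfl
  have hYs : ∀ i, 1 ≤ i → Y (i + 1) = T i * Y i * (T i)⁻¹ := by
    intro i h1
    rw [hYdef]
    exact two_seq_succ _ _ _ h1
  -- basic relations in G
  have hxx : ∀ i, 1 ≤ i → i < m → x i * x i = 1 := fun i h1 h2 => hx.mul_self h1 h2
  have hxinv : ∀ i, 1 ≤ i → i < m → (x i)⁻¹ = x i := fun i h1 h2 =>
    inv_eq_of_mul_eq_one_left (hxx i h1 h2)
  have hozio := hx.one_zero_inv_one (by omega : 1 < m)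
  have hzsq := hx.zero_sq
  -- the lifts
  have hπ1 : π (Y 1) = x 1 := by
    rw [hYo, map_mul, map_mul, map_mul, map_inv, map_inv, hY0, hB]
    calc x 0 * (x 0 * x 1 * (x 0)⁻¹) * (x 0)⁻¹ * (x 0 * x 1 * (x 0)⁻¹)⁻¹
        = (x 0 * x 0) * x 1 * (x 0)⁻¹ * (x 1)⁻¹ * (x 0)⁻¹ := by group
      _ = (x 0)⁻¹ * x 1 * (x 0)⁻¹ * x 1 * (x 0)⁻¹ := by rw [hzsq, hxinv 1 le_rfl (by omega)]
      _ = (x 0)⁻¹ * (x 1 * (x 0)⁻¹ * x 1) * (x 0)⁻¹ := by group
      _ = (x 0)⁻¹ * (x 0 * x 1 * x 0) * (x 0)⁻¹ := by rw [hozio]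
      _ = x 1 := by group
  have hπ : ∀ i, 1 ≤ i → i < m → π (Y i) = x i := by
    intro i h1
    induction i, h1 using Nat.le_induction with
    | base => intro _; exact hπ1
    | succ i h1 ih =>
      intro him
      rw [hYs i h1, map_mul, map_mul, map_inv, ih (by omega), (hT i h1 him).1]
      calc x i * x (i + 1) * x i * (x i * x (i + 1))⁻¹
          = (x i * x (i + 1) * x i) * (x (i + 1))⁻¹ * (x i)⁻¹ := by group
        _ = (x (i + 1) * x i * x (i + 1)) * (x (i + 1))⁻¹ * (x i)⁻¹ := by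
          rw [hx.braid h1 him]
        _ = x (i + 1) := by group
  -- squares
  have hsq1 : Y 1 * Y 1 = 1 := by
    have hK0 := two_K0 π hc (P := Y0) (S := B) (R := A)
      (by
        rw [map_mul, map_mul, map_inv, hY0, hB, hA]
        calc x 0 * (x 0 * x 1 * (x 0)⁻¹) * (x 0)⁻¹ = (x 0 * x 0) * x 1 * (x 0 * x 0)⁻¹ := by group
          _ = (x 0)⁻¹ * x 1 * x 0 := by rw [hzsq, inv_inv]
          _ = (x 0 * x 0) * x 1 * x 0 := by rw [hzsq]
          _ = x 0 * (x 0 * x 1 * x 0) := by group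
          _ = x 0 * (x 1 * (x 0)⁻¹ * x 1) := by rw [hozio]
          _ = x 0 * x 1 * (x 0)⁻¹ * x 1 := by group)
      hAB
      (by
        rw [MonoidHom.mem_ker, map_mul, hB]
        calc x 0 * x 1 * (x 0)⁻¹ * (x 0 * x 1 * (x 0)⁻¹) = x 0 * (x 1 * x 1) * (x 0)⁻¹ := by group
          _ = 1 := by rw [hxx 1 le_rfl (by omega)]; group)
    rw [hYo, ← pow_two]
    exact hK0
  have hsq : ∀ i, 1 ≤ i → Y i * Y i = 1 := by
    intro i h1
    induction i, h1 using Nat.le_induction with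
    | base => exact hsq1
    | succ i h1 ih =>
      rw [hYs i h1]
      calc T i * Y i * (T i)⁻¹ * (T i * Y i * (T i)⁻¹) = T i * (Y i * Y i) * (T i)⁻¹ := by group
        _ = 1 := by rw [ih]; group
  have hYinv : ∀ i, 1 ≤ i → (Y i)⁻¹ = Y i := fun i h1 => inv_eq_of_mul_eq_one_left (hsq i h1)
  -- `Y i * Y (i + 1) = T i`
  have hYT : ∀ i, 1 ≤ i → i + 1 < m → Y i * Y (i + 1) = T i := by
    intro i h1 him
    obtain ⟨hTπ, hT3⟩ := hT i h1 him
    have hconj : Y i * T i * (Y i)⁻¹ = (T i)⁻¹ := by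
      apply two_unique π hc h2
      · rw [map_mul, map_mul, map_inv, map_inv, hπ i h1 (by omega), hTπ]
        calc x i * (x i * x (i + 1)) * (x i)⁻¹ = (x i * x i) * x (i + 1) * (x i)⁻¹ := by group
          _ = (x (i + 1))⁻¹ * (x i)⁻¹ := by
            rw [hxx i h1 (by omega), one_mul, hxinv (i + 1) (by omega) him]
          _ = (x i * x (i + 1))⁻¹ := by group
      · rw [conj_pow, hT3, mul_one, mul_inv_cancel]
      · rw [inv_pow, hT3, inv_one]
    have hTTT : T i * T i * T i = 1 := by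
      rw [← hT3]
      simp [pow_succ]
    rw [hYs i h1]
    calc Y i * (T i * Y i * (T i)⁻¹) = (Y i * T i * (Y i)⁻¹) * (Y i * Y i) * (T i)⁻¹ := by group
      _ = (T i)⁻¹ * (T i)⁻¹ := by rw [hconj, hsq i h1, mul_one]
      _ = (T i)⁻¹ * (T i)⁻¹ * (T i * T i * T i) := by rw [hTTT, mul_one]
      _ = T i := by group
  -- commutation of far lifts
  have hfar : ∀ i, 1 ≤ i → ∀ j, i + 2 ≤ j → j < m → Y i * Y j = Y j * Y i := by
    intro i h1 j hij
    induction j, hij using Nat.le_induction with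
    | base =>
      intro him
      obtain ⟨R, S, hR, hS, hRS⟩ := hi i h1 him
      have hpq : x i * x (i + 1) * (x (i + 1) * x (i + 2)) = x i * x (i + 2) := by
        calc x i * x (i + 1) * (x (i + 1) * x (i + 2))
            = x i * (x (i + 1) * x (i + 1)) * x (i + 2) := by group
          _ = x i * x (i + 2) := by rw [hxx (i + 1) (by omega) (by omega), mul_one]
      have hK := two_K π hc h2 (p := x i * x (i + 1)) (q := x (i + 1) * x (i + 2))
        (hx.adj i (by omega)) (hx.adj (i + 1) him)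
        (by rw [hpq]; exact hx.far i (i + 2) (by omega) him)
        (hT i h1 (by omega)).1 (hT (i + 1) (by omega) him).1
        (hT i h1 (by omega)).2 (hT (i + 1) (by omega) him).2
        (by rw [hR, hpq]) (by rw [hS, hpq]) hRS
      have e : T i * T (i + 1) = Y i * Y (i + 2) := by
        rw [← hYT i h1 (by omega), ← hYT (i + 1) (by omega) him]
        calc Y i * Y (i + 1) * (Y (i + 1) * Y (i + 1 + 1))
            = Y i * (Y (i + 1) * Y (i + 1)) * Y (i + 1 + 1) := by group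
          _ = Y i * Y (i + 2) := by rw [hsq (i + 1) (by omega), mul_one]
      rw [e, pow_two] at hK
      exact car_comm_of_invol (hsq i h1) (hsq (i + 2) (by omega)) hK
    | succ j hij ih =>
      intro hjm
      have hcomm := ih (by omega)
      have hTj := hT j (by omega) hjm
      have hc1 : x i * x j = x j * x i := hx.comm h1 (by omega) (by omega)
      have hc2 : x i * x (j + 1) = x (j + 1) * x i := hx.comm h1 (by omega) hjm
      have hYiT : Y i * T j = T j * Y i := by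
        apply two_comm_of_cube π hc h2 _ hTj.2
        rw [hπ i h1 (by omega), hTj.1]
        calc x i * (x j * x (j + 1)) = (x i * x j) * x (j + 1) := by group
          _ = x j * (x i * x (j + 1)) := by rw [hc1]; group
          _ = x j * x (j + 1) * x i := by rw [hc2]; group
      rw [hYs j (by omega)]
      calc Y i * (T j * Y j * (T j)⁻¹) = (Y i * T j) * Y j * (T j)⁻¹ := by group
        _ = T j * (Y i * Y j) * (T j)⁻¹ := by rw [hYiT]; group
        _ = T j * (Y j * Y i) * (T j)⁻¹ := by rw [hcomm]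
        _ = T j * Y j * ((T j)⁻¹ * (T j * Y i) * (T j)⁻¹) := by group
        _ = T j * Y j * ((T j)⁻¹ * (Y i * T j) * (T j)⁻¹) := by rw [hYiT]
        _ = T j * Y j * (T j)⁻¹ * Y i := by group
  refine ⟨Y, ?_, ?_⟩
  · intro i him
    rcases Nat.eq_zero_or_pos i with rfl | hpos
    · rw [hYz]; exact hY0
    · exact hπ i hpos him
  · refine ⟨?_, ?_, ?_, ?_⟩
    · rw [hYz]; exact hY03
    · intro i h1 _
      rw [pow_two]
      exact hsq i h1
    · intro i him
      rcases Nat.eq_zero_or_pos i with rfl | hpos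
      · have e : Y 0 * Y (0 + 1) = (Y0 * B * Y0⁻¹) * Y0 * (Y0 * B * Y0⁻¹)⁻¹ := by
          rw [hYz]
          have h1 : Y (0 + 1) = (Y (0 + 1))⁻¹ := (hYinv 1 le_rfl).symm
          rw [h1, hYo]
          group
        rw [e, conj_pow, hY03, mul_one, mul_inv_cancel]
      · rw [hYT i hpos him]
        exact (hT i hpos him).2
    · intro i j hij hjm
      rcases Nat.eq_zero_or_pos i with rfl | hpos
      · have hconj : Y j * Y0 * (Y j)⁻¹ = Y0⁻¹ := by
          apply two_unique π hc h2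
          · rw [map_mul, map_mul, map_inv, map_inv, hπ j (by omega) hjm, hY0]
            have hzim := hx.zero_inv_mul (by omega : 2 ≤ j) hjm
            calc x j * x 0 * (x j)⁻¹ = (x j * x 0) * (x j)⁻¹ := by group
              _ = ((x 0)⁻¹ * x j) * (x j)⁻¹ := by rw [hzim]
              _ = (x 0)⁻¹ := by group
          · rw [conj_pow, hY03, mul_one, mul_inv_cancel]
          · rw [inv_pow, hY03, inv_one]
        rw [hYz, pow_two]
        calc Y0 * Y j * (Y0 * Y j) = Y0 * (Y j * Y0 * (Y j)⁻¹) * (Y j * Y j) := by group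
          _ = 1 := by rw [hconj, hsq j (by omega), mul_one, mul_inv_cancel]
      · have hcomm := hfar i hpos j (by omega) hjm
        rw [pow_two]
        calc Y i * Y j * (Y i * Y j) = Y i * (Y j * Y i) * Y j := by group
          _ = Y i * (Y i * Y j) * Y j := by rw [hcomm]
          _ = (Y i * Y i) * (Y j * Y j) := by group
          _ = 1 := by rw [hsq i hpos, hsq j (by omega), mul_one]

end Cfsg.Agent.Lib.Helper13.AM
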