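import Mathlib
import Cfsg.Agent.Lib.Helper48.CPa
import Cfsg.Agent.Lib.Helper48.CPb
import Cfsg.Agent.Lib.Helper13.AMSplit
import Cfsg.Agent.Lib.Helper13.AMTwo
import Cfsg.Agent.Lib.Helper13.AMTransport

/-!
# S0892 (project ALT-MULT, helper13), piece ASM-T

A central extension of `Aₙ` (`n ≥ 4`) whose kernel is a 2-group contained in the commutator
subgroup has kernel of order at most 2.
-/

set_option autoImplicit false

namespace Cfsg.Agent.Lib.Helper13.AM

open Equiv Cfsg.Agent.Lib.Helper48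

theorem asmT_conj2 {α : Type*} [DecidableEq α] (g : Perm α) (u v w z : α) :
    g * (swap u v * swap w z) * g⁻¹ = swap (g u) (g v) * swap (g w) (g z) := by
  rw [Equiv.swap_apply_apply g u v, Equiv.swap_apply_apply g w z]
  group

/-- the values of the 3-cycle `(a b)(b c)` -/
theorem asmT_three {α : Type*} [DecidableEq α] {a b c : α} (ab : a ≠ b) (ac : a ≠ c)
    (bc : b ≠ c) :
    (swap a b * swap b c) a = b ∧ (swap a b * swap b c) b = c ∧ (swap a b * swap b c) c = a ∧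
    ∀ d, d ≠ a → d ≠ b → d ≠ c → (swap a b * swap b c) d = d := by
  refine ⟨?_, ?_, ?_, ?_⟩
  · rw [Perm.mul_apply, swap_apply_of_ne_of_ne ab ac, swap_apply_left]
  · rw [Perm.mul_apply, swap_apply_left, swap_apply_of_ne_of_ne ac.symm bc.symm]
  · rw [Perm.mul_apply, swap_apply_right, swap_apply_right]
  · intro d da db dc
    rw [Perm.mul_apply, swap_apply_of_ne_of_ne db dc, swap_apply_of_ne_of_ne da db]

/-- conjugating `(a b)(c d)` by the 3-cycle `(a b)(b c)` -/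
theorem asmT_conj_three {n : ℕ} {a b c d : Fin n} (ab : a ≠ b) (ac : a ≠ c) (ad : a ≠ d)
    (bc : b ≠ c) (bd : b ≠ d) (cd : c ≠ d) :
    (swap a b * swap b c) * (swap a b * swap c d) * (swap a b * swap b c)⁻¹ =
      swap a d * swap b c := by
  obtain ⟨t1, t2, t3, t4⟩ := asmT_three ab ac bc
  rw [asmT_conj2, t1, t2, t3, t4 d ad.symm bd.symm cd.symm]
  exact car_swap_comm (by simp [ab, ac, ad, bc, bd, cd, ab.symm, ac.symm, ad.symm, bc.symm,
    bd.symm, cd.symm])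

/-- the double transpositions `(a b)(c d)` and `(a c)(b d)` commute -/
theorem asmT_klein_comm {n : ℕ} {a b c d : Fin n} (ab : a ≠ b) (ac : a ≠ c) (ad : a ≠ d)
    (bc : b ≠ c) (bd : b ≠ d) (cd : c ≠ d) :
    (swap a b * swap c d) * (swap a c * swap b d) =
      (swap a c * swap b d) * (swap a b * swap c d) := by
  have ha : (swap a c * swap b d) a = c := by
    rw [Perm.mul_apply, swap_apply_of_ne_of_ne ab ad, swap_apply_left]
  have hb : (swap a c * swap b d) b = d := by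
    rw [Perm.mul_apply, swap_apply_left, swap_apply_of_ne_of_ne ad.symm cd.symm]
  have hc : (swap a c * swap b d) c = a := by
    rw [Perm.mul_apply, swap_apply_of_ne_of_ne bc.symm cd, swap_apply_right]
  have hd : (swap a c * swap b d) d = b := by
    rw [Perm.mul_apply, swap_apply_right, swap_apply_of_ne_of_ne ab.symm bc]
  have h := asmT_conj2 (swap a c * swap b d) a b c d
  rw [ha, hb, hc, hd] at h
  have h' : swap c d * swap a b = swap a b * swap c d :=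
    car_swap_comm (by simp [ab, ac, ad, bc, bd, cd, ab.symm, ac.symm, ad.symm, bc.symm,
      bd.symm, cd.symm])
  rw [h'] at h
  exact (mul_inv_eq_iff_eq_mul.mp h).symm

theorem asmT_mem_alt {n : ℕ} {a b c d : Fin n} (ab : a ≠ b) (cd : c ≠ d) :
    swap a b * swap c d ∈ alternatingGroup (Fin n) := by
  rw [Equiv.Perm.mem_alternatingGroup, map_mul, Equiv.Perm.sign_swap ab, Equiv.Perm.sign_swap cd]
  rfl

theorem asmT_carY_one (n : ℕ) (hn : 4 ≤ n) :
    carY n 1 = swap (⟨0, by omega⟩ : Fin n) ⟨1, by omega⟩ * swap ⟨2, by omega⟩ ⟨3, by omega⟩ := by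
  unfold carY
  rw [dif_pos (by omega)]

theorem asmT_carY_conj0 (n : ℕ) (hn : 4 ≤ n) :
    carY n 0 * carY n 1 * (carY n 0)⁻¹ =
      swap (⟨0, by omega⟩ : Fin n) ⟨3, by omega⟩ * swap ⟨1, by omega⟩ ⟨2, by omega⟩ := by
  have e0 : carY n 0 = swap (⟨0, by omega⟩ : Fin n) ⟨1, by omega⟩ *
      swap ⟨1, by omega⟩ ⟨2, by omega⟩ := by
    unfold carY
    rw [dif_pos (by omega)]
  rw [asmT_carY_one n hn, e0]
  exact asmT_conj_three (by simp [Fin.ext_iff]) (by simp [Fin.ext_iff]) (by simp [Fin.ext_iff])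
    (by simp [Fin.ext_iff]) (by simp [Fin.ext_iff]) (by simp [Fin.ext_iff])

theorem asmT_carY_step (n i : ℕ) (h1 : 1 ≤ i) (hi : i + 4 < n) :
    carY n i * carY n (i + 2) = swap (⟨i + 1, by omega⟩ : Fin n) ⟨i + 2, by omega⟩ *
      swap ⟨i + 3, by omega⟩ ⟨i + 4, by omega⟩ ∧
    (carY n i * carY n (i + 1)) * (carY n i * carY n (i + 2)) * (carY n i * carY n (i + 1))⁻¹ =
      swap (⟨i + 1, by omega⟩ : Fin n) ⟨i + 4, by omega⟩ *
        swap ⟨i + 2, by omega⟩ ⟨i + 3, by omega⟩ := by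
  have e1 : carY n i * carY n (i + 2) = swap (⟨i + 1, by omega⟩ : Fin n) ⟨i + 2, by omega⟩ *
      swap ⟨i + 3, by omega⟩ ⟨i + 4, by omega⟩ :=
    carY_mul n (by omega : i + 2 < n) (by omega : i + 2 + 2 < n) h1
  have e2 : carY n i * carY n (i + 1) = swap (⟨i + 1, by omega⟩ : Fin n) ⟨i + 2, by omega⟩ *
      swap ⟨i + 2, by omega⟩ ⟨i + 3, by omega⟩ :=
    carY_mul n (by omega : i + 2 < n) (by omega : i + 1 + 2 < n) h1
  refine ⟨e1, ?_⟩
  rw [e1, e2]
  exact asmT_conj_three (by simp [Fin.ext_iff]) (by simp [Fin.ext_iff]) (by simp [Fin.ext_iff])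
    (by simp [Fin.ext_iff]) (by simp [Fin.ext_iff]) (by simp [Fin.ext_iff])

/-- ASM-T -/
theorem card_ker_le_two_of_two {Γ : Type*} [Group Γ] [Finite Γ] (n : ℕ) (hn : 4 ≤ n)
    (π : Γ →* Perm (Fin n)) (hr : π.range = alternatingGroup (Fin n))
    (hc : π.ker ≤ Subgroup.center Γ) (hd : π.ker ≤ commutator Γ)
    (h2 : ∃ k, Nat.card π.ker = 2 ^ k) : Nat.card π.ker ≤ 2 := by
  classical
  have q01 : (⟨0, by omega⟩ : Fin n) ≠ ⟨1, by omega⟩ := by simp [Fin.ext_iff]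
  have q02 : (⟨0, by omega⟩ : Fin n) ≠ ⟨2, by omega⟩ := by simp [Fin.ext_iff]
  have q03 : (⟨0, by omega⟩ : Fin n) ≠ ⟨3, by omega⟩ := by simp [Fin.ext_iff]
  have q12 : (⟨1, by omega⟩ : Fin n) ≠ ⟨2, by omega⟩ := by simp [Fin.ext_iff]
  have q13 : (⟨1, by omega⟩ : Fin n) ≠ ⟨3, by omega⟩ := by simp [Fin.ext_iff]
  have q23 : (⟨2, by omega⟩ : Fin n) ≠ ⟨3, by omega⟩ := by simp [Fin.ext_iff]
  have hlift : ∀ g ∈ alternatingGroup (Fin n), ∃ γ : Γ, π γ = g := by
    intro g hg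
    rw [← hr] at hg
    exact hg
  obtain ⟨A₀, hA₀⟩ := hlift _ (asmT_mem_alt q01 q23)
  obtain ⟨B₀, hB₀⟩ := hlift _ (asmT_mem_alt q02 q13)
  obtain ⟨e, he⟩ : ∃ e : Γ, e = A₀ * B₀ * A₀⁻¹ * B₀⁻¹ := ⟨_, rfl⟩
  have heker : e ∈ π.ker := by
    rw [MonoidHom.mem_ker, he, map_mul, map_mul, map_mul, map_inv, map_inv, hA₀, hB₀,
      asmT_klein_comm q01 q02 q03 q12 q13 q23]
    group
  have hecen := Subgroup.mem_center_iff.mp (hc heker)
  have hA2 : A₀ * A₀ ∈ π.ker := by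
    rw [MonoidHom.mem_ker, map_mul, hA₀, ← pow_two]
    exact car_swap2 (by simp [Fin.ext_iff])
  have hA2c := Subgroup.mem_center_iff.mp (hc hA2)
  have he2 : e * e = 1 := by
    have h1 : A₀ * B₀ * A₀⁻¹ = e * B₀ := by rw [he]; group
    have h3 : (A₀ * A₀) * B₀ * (A₀ * A₀)⁻¹ = e * e * B₀ := by
      calc (A₀ * A₀) * B₀ * (A₀ * A₀)⁻¹ = A₀ * (A₀ * B₀ * A₀⁻¹) * A₀⁻¹ := by group
        _ = A₀ * (e * B₀) * A₀⁻¹ := by rw [h1]
        _ = (A₀ * e) * B₀ * A₀⁻¹ := by group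
        _ = (e * A₀) * B₀ * A₀⁻¹ := by rw [hecen A₀]
        _ = e * (A₀ * B₀ * A₀⁻¹) := by group
        _ = e * (e * B₀) := by rw [h1]
        _ = e * e * B₀ := by group
    have h4 : (A₀ * A₀) * B₀ * (A₀ * A₀)⁻¹ = B₀ := by
      rw [← hA2c B₀, mul_inv_cancel_right]
    rw [h4] at h3
    have h5 : 1 * B₀ = e * e * B₀ := by rw [one_mul]; exact h3
    exact (mul_right_cancel h5).symm
  -- the quotient by `E = ⟨e⟩`
  obtain ⟨E, hEdef⟩ : ∃ E : Subgroup Γ, E = Subgroup.zpowers e := ⟨_, rfl⟩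
  have heE : e ∈ E := by rw [hEdef]; exact Subgroup.mem_zpowers e
  have hEle : E ≤ π.ker := by rw [hEdef, Subgroup.zpowers_le]; exact heker
  have hEn : E.Normal := ⟨fun q hq g => by
    have h1 := Subgroup.mem_center_iff.mp (hc (hEle hq)) g
    rw [h1, mul_inv_cancel_right]
    exact hq⟩
  have hEcard : Nat.card E ≤ 2 := by
    rw [hEdef, Nat.card_zpowers]
    exact Nat.le_of_dvd (by norm_num) (orderOf_dvd_of_pow_eq_one (by rw [pow_two]; exact he2))
  let π₁ : Γ ⧸ E →* Perm (Fin n) := QuotientGroup.lift E π hEle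
  have hπ₁ : ∀ g : Γ, π₁ (QuotientGroup.mk g) = π g := fun g => rfl
  have hr₁ : π₁.range = alternatingGroup (Fin n) := by
    rw [← hr]
    ext y
    constructor
    · rintro ⟨g, rfl⟩
      obtain ⟨g, rfl⟩ := QuotientGroup.mk_surjective g
      exact ⟨g, rfl⟩
    · rintro ⟨g, rfl⟩
      exact ⟨QuotientGroup.mk g, rfl⟩
  have hker₁ : ∀ g : Γ, (QuotientGroup.mk g : Γ ⧸ E) ∈ π₁.ker ↔ g ∈ π.ker := fun g => by
    rw [MonoidHom.mem_ker, MonoidHom.mem_ker, hπ₁]
  have hc₁ : π₁.ker ≤ Subgroup.center (Γ ⧸ E) := by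
    intro z hz
    obtain ⟨z, rfl⟩ := QuotientGroup.mk_surjective z
    rw [Subgroup.mem_center_iff]
    intro g
    obtain ⟨g, rfl⟩ := QuotientGroup.mk_surjective g
    rw [← QuotientGroup.mk_mul, ← QuotientGroup.mk_mul,
      Subgroup.mem_center_iff.mp (hc ((hker₁ z).mp hz)) g]
  have hd₁ : π₁.ker ≤ commutator (Γ ⧸ E) := by
    intro z hz
    obtain ⟨z, rfl⟩ := QuotientGroup.mk_surjective z
    have h1 : z ∈ commutator Γ := hd ((hker₁ z).mp hz)
    have h3 : (commutator Γ).map (QuotientGroup.mk' E) ≤ commutator (Γ ⧸ E) := by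
      rw [commutator_def, Subgroup.map_commutator, commutator_def]
      exact Subgroup.commutator_mono le_top le_top
    exact h3 ⟨z, h1, rfl⟩
  have h2₁ : ∃ k, Nat.card π₁.ker = 2 ^ k := by
    haveI : Fact (Nat.Prime 2) := ⟨Nat.prime_two⟩
    obtain ⟨k, hk⟩ := h2
    have hp : IsPGroup 2 π₁.ker := by
      rintro ⟨w, hw⟩
      obtain ⟨z, rfl⟩ := QuotientGroup.mk_surjective w
      have hz : z ∈ π.ker := (hker₁ z).mp hw
      have h3 : (⟨z, hz⟩ : π.ker) ^ 2 ^ k = 1 := by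
        rw [← hk]
        exact pow_card_eq_one'
      have h4 : z ^ 2 ^ k = 1 := by
        have := congrArg Subtype.val h3
        simpa using this
      refine ⟨k, Subtype.ext ?_⟩
      show (QuotientGroup.mk z : Γ ⧸ E) ^ 2 ^ k = 1
      rw [← QuotientGroup.mk_pow, h4]
      rfl
    exact IsPGroup.iff_card.mp hp
  have hrange₁ : ∀ g ∈ alternatingGroup (Fin n), g ∈ π₁.range := fun g hg => by
    rw [hr₁]; exact hg
  -- the images of `A₀`, `B₀` commute
  have hAB : (QuotientGroup.mk A₀ : Γ ⧸ E) * QuotientGroup.mk B₀ =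
      QuotientGroup.mk B₀ * QuotientGroup.mk A₀ := by
    have h1 : (QuotientGroup.mk e : Γ ⧸ E) = 1 := (QuotientGroup.eq_one_iff e).mpr heE
    rw [he] at h1
    have h3 : (QuotientGroup.mk A₀ : Γ ⧸ E) * QuotientGroup.mk B₀ * (QuotientGroup.mk A₀)⁻¹ *
        (QuotientGroup.mk B₀)⁻¹ = 1 := h1
    calc (QuotientGroup.mk A₀ : Γ ⧸ E) * QuotientGroup.mk B₀
        = ((QuotientGroup.mk A₀ : Γ ⧸ E) * QuotientGroup.mk B₀ * (QuotientGroup.mk A₀)⁻¹ *
          (QuotientGroup.mk B₀)⁻¹) * (QuotientGroup.mk B₀ * QuotientGroup.mk A₀) := by group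
      _ = QuotientGroup.mk B₀ * QuotientGroup.mk A₀ := by rw [h3, one_mul]
  have hD : ∀ (p q r s : Fin n), [p, q, r, s].Nodup → ∀ R S : Γ ⧸ E,
      π₁ R = swap p q * swap r s → (π₁ S = swap p r * swap q s ∨ π₁ S = swap p s * swap q r) →
      R * S = S * R :=
    fun p q r s hpqrs R S hR hS =>
      dtrans_comm π₁ hrange₁ hc₁ ⟨0, by omega⟩ ⟨1, by omega⟩ ⟨2, by omega⟩ ⟨3, by omega⟩
        (by simp [Fin.ext_iff]) (QuotientGroup.mk A₀) (QuotientGroup.mk B₀)
        ((hπ₁ A₀).trans hA₀) ((hπ₁ B₀).trans hB₀) hAB p q r s hpqrs R S hR hS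
  -- the hypotheses of the lifting theorem
  have h0 : ∃ A B : Γ ⧸ E, π₁ A = carY n 1 ∧ π₁ B = carY n 0 * carY n 1 * (carY n 0)⁻¹ ∧
      A * B = B * A := by
    obtain ⟨A, hA⟩ := hrange₁ (carY n 1) (carY_mem n 1)
    obtain ⟨B, hB⟩ := hrange₁ (carY n 0 * carY n 1 * (carY n 0)⁻¹)
      (Subgroup.mul_mem _ (Subgroup.mul_mem _ (carY_mem n 0) (carY_mem n 1))
        (Subgroup.inv_mem _ (carY_mem n 0)))
    refine ⟨A, B, hA, hB, ?_⟩
    exact hD ⟨0, by omega⟩ ⟨1, by omega⟩ ⟨2, by omega⟩ ⟨3, by omega⟩ (by simp [Fin.ext_iff]) A B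
      (hA.trans (asmT_carY_one n hn)) (Or.inr (hB.trans (asmT_carY_conj0 n hn)))
  have hi : ∀ i, 1 ≤ i → i + 2 < n - 2 → ∃ R S : Γ ⧸ E, π₁ R = carY n i * carY n (i + 2) ∧
      π₁ S = (carY n i * carY n (i + 1)) * (carY n i * carY n (i + 2)) *
        (carY n i * carY n (i + 1))⁻¹ ∧ R * S = S * R := by
    intro i h1 hi2
    have hi4 : i + 4 < n := by omega
    obtain ⟨e1, e2⟩ := asmT_carY_step n i h1 hi4
    obtain ⟨R, hR⟩ := hrange₁ (carY n i * carY n (i + 2))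
      (Subgroup.mul_mem _ (carY_mem n i) (carY_mem n (i + 2)))
    obtain ⟨S, hS⟩ := hrange₁ ((carY n i * carY n (i + 1)) * (carY n i * carY n (i + 2)) *
        (carY n i * carY n (i + 1))⁻¹)
      (Subgroup.mul_mem _ (Subgroup.mul_mem _
        (Subgroup.mul_mem _ (carY_mem n i) (carY_mem n (i + 1)))
        (Subgroup.mul_mem _ (carY_mem n i) (carY_mem n (i + 2))))
        (Subgroup.inv_mem _ (Subgroup.mul_mem _ (carY_mem n i) (carY_mem n (i + 1)))))
    refine ⟨R, S, hR, hS, ?_⟩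
    exact hD ⟨i + 1, by omega⟩ ⟨i + 2, by omega⟩ ⟨i + 3, by omega⟩ ⟨i + 4, by omega⟩
      (by simp [Fin.ext_iff]) R S (hR.trans e1) (Or.inr (hS.trans e2))
  obtain ⟨Y, hYlift, hYrel⟩ := carRel_lift_two π₁ hc₁ h2₁ (n - 2) (by omega) (carY n)
    (carY_rel n) (fun i _ => hrange₁ _ (carY_mem n i)) h0 hi
  -- the subgroup generated by the lifts
  obtain ⟨S, hS, hmem⟩ := CarRel.bound Y (n - 2) hYrel
  have hfact : (n - 2 + 2).factorial = n.factorial := by rw [Nat.sub_add_cancel (by omega)]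
  rw [hfact] at hS
  have hKcard : 2 * Nat.card (Subgroup.closure (Y '' Set.Iio (n - 2))) ≤ n.factorial := by
    have h1 : Nat.card (Subgroup.closure (Y '' Set.Iio (n - 2))) ≤ S.card := by
      have h3 : ((Subgroup.closure (Y '' Set.Iio (n - 2)) : Subgroup (Γ ⧸ E)) : Set (Γ ⧸ E)) ⊆
          (S : Set (Γ ⧸ E)) := fun g hg => hmem g hg
      have h4 := Set.ncard_le_ncard h3 (Finset.finite_toSet S)
      rw [Set.ncard_coe_finset] at h4
      rw [← Nat.card_coe_set_eq] at h4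
      exact h4
    omega
  have hnt : Nontrivial (Fin n) := Fin.nontrivial_iff_two_le.mpr (by omega)
  have hAcard : 2 * Nat.card (alternatingGroup (Fin n)) = n.factorial := by
    rw [two_mul_nat_card_alternatingGroup, Nat.card_perm, Nat.card_eq_fintype_card,
      Fintype.card_fin]
  have hmem₁ : ∀ g : Γ ⧸ E, π₁ g ∈ alternatingGroup (Fin n) := fun g => by
    rw [← hr₁]; exact ⟨g, rfl⟩
  have hker' : (π₁.codRestrict (alternatingGroup (Fin n)) hmem₁).ker = π₁.ker :=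
    MonoidHom.ker_codRestrict π₁ _ hmem₁
  have hbot' := ker_eq_bot_of_complement (π₁.codRestrict (alternatingGroup (Fin n)) hmem₁)
    (by rw [hker']; exact hc₁) (by rw [hker']; exact hd₁)
    (Subgroup.closure (Y '' Set.Iio (n - 2)))
    (by
      intro g
      have h1 : (g : Perm (Fin n)) ∈ Subgroup.closure (carY n '' Set.Iio (n - 2)) :=
        carY_alt_le n (by omega) g.2
      have h3 : carY n '' Set.Iio (n - 2) = π₁ '' (Y '' Set.Iio (n - 2)) := by
        rw [Set.image_image]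
        apply Set.image_congr
        intro i hi
        exact (hYlift i hi).symm
      rw [h3, ← MonoidHom.map_closure] at h1
      obtain ⟨k, hk, hkg⟩ := h1
      exact ⟨k, hk, Subtype.ext hkg⟩)
    (by omega)
  rw [hker'] at hbot'
  have hkE : π.ker ≤ E := by
    intro z hz
    have h1 : (QuotientGroup.mk z : Γ ⧸ E) ∈ π₁.ker := (hker₁ z).mpr hz
    rw [hbot', Subgroup.mem_bot, QuotientGroup.eq_one_iff] at h1
    exact h1
  exact (Subgroup.card_le_of_le hkE).trans hEcard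

end Cfsg.Agent.Lib.Helper13.AM
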