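import Mathlib

/-!
# S0892 (project ALT-MULT, helper13), piece FOUR

A central extension of `A₄` with kernel of odd order contained in the commutator subgroup is
trivial.
-/

set_option autoImplicit false

namespace Cfsg.Agent.Lib.Helper13.AM

open Equiv

/-- elements of order at most two of `A₄` commute -/
theorem four_dec1 : ∀ a b : Perm (Fin 4), Perm.sign a = 1 →
    Perm.sign b = 1 → a * a = 1 → b * b = 1 → a * b = b * a := by decide

/-- a three-cycle -/
def four_t : Perm (Fin 4) := swap 0 1 * swap 1 2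

theorem four_t_mem : four_t ∈ alternatingGroup (Fin 4) := by
  rw [Perm.mem_alternatingGroup]
  decide

/-- every element of `A₄` is an element of order at most two times a power of the three-cycle -/
theorem four_dec2 : ∀ σ : Perm (Fin 4), Perm.sign σ = 1 →
    ∃ j : Fin 3, (σ * (four_t ^ (j : ℕ))⁻¹) * (σ * (four_t ^ (j : ℕ))⁻¹) = 1 := by decide

/-- products of a central element and a power of `y` commute -/
theorem four_qcomm {Γ : Type*} [Group Γ] {c c' a b : Γ} (hc : ∀ x : Γ, x * c = c * x)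
    (hc' : ∀ x : Γ, x * c' = c' * x) (hab : a * b = b * a) :
    (c * a) * (c' * b) = (c' * b) * (c * a) := by
  calc (c * a) * (c' * b) = c * (a * c') * b := by group
    _ = c * (c' * a) * b := by rw [hc' a]
    _ = (c * c') * (a * b) := by group
    _ = (c' * c) * (b * a) := by rw [hc' c, hab]
    _ = c' * (c * b) * a := by group
    _ = c' * (b * c) * a := by rw [hc b]
    _ = (c' * b) * (c * a) := by group

/-- the commutator of `w q` and `w' q'` when `q`, `q'` commute -/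
theorem four_comm_eq {Γ : Type*} [Group Γ] {w w' q q' : Γ} (hqq : q * q' = q' * q) :
    w * q * (w' * q') * (w * q)⁻¹ * (w' * q')⁻¹ =
      w * (q * w' * q⁻¹) * (q' * w⁻¹ * q'⁻¹) * w'⁻¹ := by
  have hq' : q' * q⁻¹ = q⁻¹ * q' := (Commute.inv_right (show Commute q' q from hqq.symm)).eq
  calc w * q * (w' * q') * (w * q)⁻¹ * (w' * q')⁻¹
      = w * q * w' * (q' * q⁻¹) * w⁻¹ * q'⁻¹ * w'⁻¹ := by group
    _ = w * q * w' * (q⁻¹ * q') * w⁻¹ * q'⁻¹ * w'⁻¹ := by rw [hq']
    _ = w * (q * w' * q⁻¹) * (q' * w⁻¹ * q'⁻¹) * w'⁻¹ := by group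

/-- FOUR -/
theorem ker_eq_bot_four_odd {Γ : Type*} [Group Γ] [Finite Γ] (π : Γ →* Perm (Fin 4))
    (hr : π.range = alternatingGroup (Fin 4)) (hc : π.ker ≤ Subgroup.center Γ)
    (hd : π.ker ≤ commutator Γ) (hodd : Odd (Nat.card π.ker)) : π.ker = ⊥ := by
  classical
  -- the kernel has odd order
  have hsq : ∀ z ∈ π.ker, z * z = 1 → z = 1 := by
    intro z hz hzz
    have h1 : orderOf z ∣ 2 := orderOf_dvd_of_pow_eq_one (by rw [pow_two]; exact hzz)
    have h2 : orderOf z ∣ Nat.card π.ker := by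
      have h := orderOf_dvd_natCard (⟨z, hz⟩ : π.ker)
      rwa [Subgroup.orderOf_mk] at h
    have h3 : orderOf z ∣ Nat.gcd 2 (Nat.card π.ker) := Nat.dvd_gcd h1 h2
    have h4 : Nat.gcd 2 (Nat.card π.ker) = 1 := Nat.coprime_two_left.mpr hodd
    rw [h4] at h3
    exact orderOf_eq_one_iff.mp (Nat.dvd_one.mp h3)
  have hcen : ∀ z ∈ π.ker, ∀ x : Γ, x * z = z * x := fun z hz x =>
    Subgroup.mem_center_iff.mp (hc hz) x
  have hA : ∀ g : Γ, Perm.sign (π g) = 1 := fun g => by
    rw [← Perm.mem_alternatingGroup, ← hr]; exact ⟨g, rfl⟩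
  -- involutions commute
  have hcomm : ∀ w₁ w₂ : Γ, w₁ * w₁ = 1 → w₂ * w₂ = 1 → w₁ * w₂ = w₂ * w₁ := by
    intro w₁ w₂ h1 h2
    have hab := four_dec1 (π w₁) (π w₂) (hA w₁) (hA w₂) (by rw [← map_mul, h1, map_one])
      (by rw [← map_mul, h2, map_one])
    obtain ⟨c, hcdef⟩ : ∃ c : Γ, c = w₂ * w₁ * w₂⁻¹ * w₁⁻¹ := ⟨_, rfl⟩
    have hcK : c ∈ π.ker := by
      rw [MonoidHom.mem_ker, hcdef]
      simp only [map_mul, map_inv]
      rw [← hab]
      group
    have e1 : c * w₁ = w₂ * w₁ * w₂⁻¹ := by rw [hcdef]; group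
    have e2 : (c * w₁) * (c * w₁) = 1 := by
      rw [e1]
      calc w₂ * w₁ * w₂⁻¹ * (w₂ * w₁ * w₂⁻¹) = w₂ * (w₁ * w₁) * w₂⁻¹ := by group
        _ = 1 := by rw [h1]; group
    have e3 : (c * w₁) * (c * w₁) = c * c := by
      calc (c * w₁) * (c * w₁) = c * (w₁ * c) * w₁ := by group
        _ = c * (c * w₁) * w₁ := by rw [hcen c hcK w₁]
        _ = c * c * (w₁ * w₁) := by group
        _ = c * c := by rw [h1, mul_one]
    have hc1 : c = 1 := hsq c hcK (by rw [← e3, e2])
    rw [hc1, one_mul] at e1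
    have e4 : w₁ * w₂ = w₂ * w₁ * w₂⁻¹ * w₂ := congrArg (fun x => x * w₂) e1
    rw [e4]
    group
  -- the subgroup of the elements of order at most two
  let W : Subgroup Γ :=
    { carrier := {w | w * w = 1}
      mul_mem' := by
        intro a b ha hb
        have ha' : a * a = 1 := ha
        have hb' : b * b = 1 := hb
        show a * b * (a * b) = 1
        calc a * b * (a * b) = a * (b * a) * b := by group
          _ = a * (a * b) * b := by rw [hcomm b a hb' ha']
          _ = (a * a) * (b * b) := by group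
          _ = 1 := by rw [ha', hb', one_mul]
      one_mem' := by
        show (1 : Γ) * 1 = 1
        exact one_mul 1
      inv_mem' := by
        intro a ha
        have ha' : a * a = 1 := ha
        show a⁻¹ * a⁻¹ = 1
        rw [← mul_inv_rev, ha', inv_one] }
  have hWmem : ∀ w : Γ, w ∈ W ↔ w * w = 1 := fun w => Iff.rfl
  have hWconj : ∀ g w : Γ, w ∈ W → g * w * g⁻¹ ∈ W := by
    intro g w hw
    rw [hWmem] at hw ⊢
    calc g * w * g⁻¹ * (g * w * g⁻¹) = g * (w * w) * g⁻¹ := by group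
      _ = 1 := by rw [hw]; group
  -- a lift of the three-cycle
  obtain ⟨y, hy⟩ : ∃ y : Γ, π y = four_t := by
    have h : four_t ∈ π.range := by rw [hr]; exact four_t_mem
    exact h
  have hdec : ∀ g : Γ, ∃ w c : Γ, ∃ j : ℕ, w ∈ W ∧ c ∈ π.ker ∧ g = w * (c * y ^ j) := by
    intro g
    obtain ⟨j, hj⟩ := four_dec2 (π g) (hA g)
    obtain ⟨u, hu⟩ : ∃ u : Γ, u = g * (y ^ (j : ℕ))⁻¹ := ⟨_, rfl⟩
    have hπu : π u = π g * (four_t ^ (j : ℕ))⁻¹ := by
      rw [hu, map_mul, map_inv, map_pow, hy]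
    have huK : u * u ∈ π.ker := by
      rw [MonoidHom.mem_ker, map_mul, hπu]; exact hj
    have hpow : (u * u) ^ Nat.card π.ker = 1 := by
      have h := pow_card_eq_one' (G := π.ker) (x := ⟨u * u, huK⟩)
      have h' := congrArg Subtype.val h
      simpa using h'
    obtain ⟨m, hm⟩ := hodd
    obtain ⟨c, hcdef⟩ : ∃ c : Γ, c = (u * u) ^ (m + 1) := ⟨_, rfl⟩
    have hcK : c ∈ π.ker := by rw [hcdef]; exact Subgroup.pow_mem _ huK _
    have hcc : c * c = u * u := by
      rw [hcdef, ← pow_add]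
      have e : m + 1 + (m + 1) = Nat.card π.ker + 1 := by omega
      rw [e, pow_succ, hpow, one_mul]
    refine ⟨u * c⁻¹, c, j, ?_, hcK, ?_⟩
    · rw [hWmem]
      have hci : c⁻¹ ∈ π.ker := inv_mem hcK
      calc u * c⁻¹ * (u * c⁻¹) = u * (c⁻¹ * u) * c⁻¹ := by group
        _ = u * (u * c⁻¹) * c⁻¹ := by rw [← hcen c⁻¹ hci u]
        _ = (u * u) * (c * c)⁻¹ := by group
        _ = 1 := by rw [hcc, mul_inv_cancel]
    · rw [hu]; group
  -- commutators are in `W`
  have hcomW : commutator Γ ≤ W := by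
    rw [commutator_def, Subgroup.commutator_le]
    intro g _ h _
    obtain ⟨w, c, i, hw, hcK, rfl⟩ := hdec g
    obtain ⟨w', c', j, hw', hcK', rfl⟩ := hdec h
    have hqq : (c * y ^ i) * (c' * y ^ j) = (c' * y ^ j) * (c * y ^ i) :=
      four_qcomm (hcen c hcK) (hcen c' hcK') (pow_mul_comm y i j)
    rw [commutatorElement_def, four_comm_eq hqq]
    exact W.mul_mem (W.mul_mem (W.mul_mem hw (hWconj _ w' hw'))
      (hWconj _ w⁻¹ (W.inv_mem hw))) (W.inv_mem hw')
  rw [eq_bot_iff]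
  intro z hz
  have hzW : z ∈ W := hcomW (hd hz)
  exact Subgroup.mem_bot.mpr (hsq z hz ((hWmem z).mp hzW))

end Cfsg.Agent.Lib.Helper13.AM
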