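import Mathlib
import Cfsg.Agent.Lib.Helper13.AMAsmO
import Cfsg.Agent.Lib.Helper13.AMAsmT
import Cfsg.Agent.Lib.Helper13.AMFour

/-!
# S0892 (project ALT-MULT, helper13): assembly

A central extension of `Aₙ` (`n ≥ 4`, `n ≠ 6, 7`) with kernel contained in the commutator
subgroup has kernel of order at most 2: split off the 2-part of the kernel, kill the odd part
(pieces ASM-O / FOUR), then bound the 2-part (piece ASM-T).
-/

set_option autoImplicit false

namespace Cfsg.Agent.Lib.Helper13.AM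

open Equiv

theorem card_ker_le_two {Γ : Type*} [Group Γ] [Finite Γ] (n : ℕ) (hn : 4 ≤ n) (h6 : n ≠ 6)
    (h7 : n ≠ 7) (π : Γ →* Perm (Fin n)) (hr : π.range = alternatingGroup (Fin n))
    (hc : π.ker ≤ Subgroup.center Γ) (hd : π.ker ≤ commutator Γ) : Nat.card π.ker ≤ 2 := by
  classical
  -- the 2-part of the kernel
  let Q : Subgroup Γ :=
    { carrier := {z | z ∈ π.ker ∧ ∃ k : ℕ, z ^ 2 ^ k = 1}
      one_mem' := ⟨π.ker.one_mem, 0, one_pow _⟩
      mul_mem' := by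
        rintro a b ⟨ha, k, hk⟩ ⟨hb, l, hl⟩
        refine ⟨π.ker.mul_mem ha hb, k + l, ?_⟩
        have hcomm : Commute a b := (Subgroup.mem_center_iff.mp (hc ha) b).symm
        rw [hcomm.mul_pow, pow_add, pow_mul, hk, one_pow, one_mul, mul_comm (2 ^ k), pow_mul, hl,
          one_pow]
      inv_mem' := by
        rintro a ⟨ha, k, hk⟩
        exact ⟨π.ker.inv_mem ha, k, by rw [inv_pow, hk, inv_one]⟩ }
  have hQmem : ∀ z : Γ, z ∈ Q ↔ z ∈ π.ker ∧ ∃ k : ℕ, z ^ 2 ^ k = 1 := fun z => Iff.rfl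
  have hQle : Q ≤ π.ker := fun z hz => hz.1
  have hQn : Q.Normal := ⟨fun q hq g => by
    have h1 := Subgroup.mem_center_iff.mp (hc hq.1) g
    rw [h1, mul_inv_cancel_right]
    exact hq⟩
  let π₁ : Γ ⧸ Q →* Perm (Fin n) := QuotientGroup.lift Q π hQle
  have hπ₁ : ∀ g : Γ, π₁ (QuotientGroup.mk g) = π g := fun g => rfl
  have hr₁ : π₁.range = alternatingGroup (Fin n) := by
    rw [← hr]
    ext y
    constructor
    · rintro ⟨g, rfl⟩
      obtain ⟨g, rfl⟩ := QuotientGroup.mk_surjective g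
      exact ⟨g, rfl⟩
    · rintro ⟨g, rfl⟩
      exact ⟨QuotientGroup.mk g, rfl⟩
  have hker₁ : ∀ g : Γ, (QuotientGroup.mk g : Γ ⧸ Q) ∈ π₁.ker ↔ g ∈ π.ker := fun g => by
    rw [MonoidHom.mem_ker, MonoidHom.mem_ker, hπ₁]
  have hc₁ : π₁.ker ≤ Subgroup.center (Γ ⧸ Q) := by
    intro z hz
    obtain ⟨z, rfl⟩ := QuotientGroup.mk_surjective z
    rw [Subgroup.mem_center_iff]
    intro g
    obtain ⟨g, rfl⟩ := QuotientGroup.mk_surjective g
    rw [← QuotientGroup.mk_mul, ← QuotientGroup.mk_mul,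
      Subgroup.mem_center_iff.mp (hc ((hker₁ z).mp hz)) g]
  have hd₁ : π₁.ker ≤ commutator (Γ ⧸ Q) := by
    intro z hz
    obtain ⟨z, rfl⟩ := QuotientGroup.mk_surjective z
    have h1 : z ∈ commutator Γ := hd ((hker₁ z).mp hz)
    have h2 : (commutator Γ).map (QuotientGroup.mk' Q) ≤ commutator (Γ ⧸ Q) := by
      rw [commutator_def, Subgroup.map_commutator, commutator_def]
      exact Subgroup.commutator_mono le_top le_top
    exact h2 ⟨z, h1, rfl⟩
  have hodd₁ : Odd (Nat.card π₁.ker) := by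
    rw [← Nat.not_even_iff_odd]
    intro hev
    haveI : Fact (Nat.Prime 2) := ⟨Nat.prime_two⟩
    obtain ⟨w, hw⟩ := exists_prime_orderOf_dvd_card' 2 hev.two_dvd
    obtain ⟨w, hwk⟩ := w
    obtain ⟨z, rfl⟩ := QuotientGroup.mk_surjective w
    have hzk : z ∈ π.ker := (hker₁ z).mp hwk
    have h1 : (⟨(QuotientGroup.mk z : Γ ⧸ Q), hwk⟩ : π₁.ker) ^ 2 = 1 := by
      rw [← hw]
      exact pow_orderOf_eq_one _
    have h2 : (QuotientGroup.mk (z ^ 2) : Γ ⧸ Q) = 1 := by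
      have := congrArg Subtype.val h1
      simpa using this
    rw [QuotientGroup.eq_one_iff] at h2
    obtain ⟨_, k, hk⟩ := (hQmem _).mp h2
    have hzQ : z ∈ Q := (hQmem z).mpr ⟨hzk, k + 1, by rw [pow_succ', pow_mul]; exact hk⟩
    have h3 : (⟨(QuotientGroup.mk z : Γ ⧸ Q), hwk⟩ : π₁.ker) = 1 := by
      apply Subtype.ext
      exact (QuotientGroup.eq_one_iff z).mpr hzQ
    rw [h3, orderOf_one] at hw
    omega
  have hbot : π₁.ker = ⊥ := by
    rcases Nat.lt_or_ge n 5 with h | h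
    · have h4 : n = 4 := by omega
      subst h4
      exact ker_eq_bot_four_odd π₁ hr₁ hc₁ hd₁ hodd₁
    · exact ker_eq_bot_of_odd n (by omega) π₁ hr₁ hc₁ hd₁ hodd₁
  have hkQ : π.ker ≤ Q := by
    intro z hz
    have h1 : (QuotientGroup.mk z : Γ ⧸ Q) ∈ π₁.ker := (hker₁ z).mpr hz
    rw [hbot, Subgroup.mem_bot, QuotientGroup.eq_one_iff] at h1
    exact h1
  have h2 : ∃ k, Nat.card π.ker = 2 ^ k := by
    haveI : Fact (Nat.Prime 2) := ⟨Nat.prime_two⟩
    have hp : IsPGroup 2 π.ker := by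
      intro z
      obtain ⟨k, hk⟩ := (hkQ z.2).2
      exact ⟨k, Subtype.ext (by simpa using hk)⟩
    exact IsPGroup.iff_card.mp hp
  exact card_ker_le_two_of_two n hn π hr hc hd h2

end Cfsg.Agent.Lib.Helper13.AM
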