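import Mathlib
import Cfsg.Agent.Lib.Helper13.Basic

set_option autoImplicit false

namespace Cfsg.Agent.Lib.Helper13

open scoped Pointwise

/-- Two `q`-subgroups of `L` whose indices in `L` are prime to `q` are conjugate by an element
of `L` (Sylow's theorem inside the subgroup `L`). -/
theorem conj_of_sylow_in {G : Type*} [Group G] [Finite G] {q : ℕ} [Fact q.Prime]
    (L Q₁ Q₂ : Subgroup G) (h₁ : Q₁ ≤ L) (h₂ : Q₂ ≤ L) (hq₁ : IsPGroup q Q₁) (hq₂ : IsPGroup q Q₂)
    (hi₁ : ¬ q ∣ Q₁.relIndex L) (hi₂ : ¬ q ∣ Q₂.relIndex L) :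
    ∃ x ∈ L, MulAut.conj x • Q₁ = Q₂ := by
  have hP1 : IsPGroup q (Q₁.subgroupOf L) :=
    hq₁.comap_of_injective L.subtype L.subtype_injective
  have hP2 : IsPGroup q (Q₂.subgroupOf L) :=
    hq₂.comap_of_injective L.subtype L.subtype_injective
  obtain ⟨t, ht⟩ := MulAction.exists_smul_eq ↥L (hP1.toSylow hi₁) (hP2.toSylow hi₂)
  refine ⟨t, t.2, ?_⟩
  have ht' : MulAut.conj t • Q₁.subgroupOf L = Q₂.subgroupOf L :=
    congrArg (fun P : Sylow q ↥L => (P : Subgroup ↥L)) ht
  ext y
  constructor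
  · intro hy
    rw [Subgroup.mem_smul_pointwise_iff_exists] at hy
    obtain ⟨z, hz, rfl⟩ := hy
    have h1 : (⟨z, h₁ hz⟩ : ↥L) ∈ Q₁.subgroupOf L := by
      rw [Subgroup.mem_subgroupOf]; exact hz
    have h2 : MulAut.conj t • (⟨z, h₁ hz⟩ : ↥L) ∈ MulAut.conj t • Q₁.subgroupOf L :=
      Subgroup.smul_mem_pointwise_smul _ _ _ h1
    rw [ht', Subgroup.mem_subgroupOf] at h2
    exact h2
  · intro hy
    have h1 : (⟨y, h₂ hy⟩ : ↥L) ∈ Q₂.subgroupOf L := by
      rw [Subgroup.mem_subgroupOf]; exact hy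
    rw [← ht', Subgroup.mem_smul_pointwise_iff_exists] at h1
    obtain ⟨z, hz, hzy⟩ := h1
    rw [Subgroup.mem_subgroupOf] at hz
    rw [Subgroup.mem_smul_pointwise_iff_exists]
    refine ⟨(z : G), hz, ?_⟩
    have := congrArg Subtype.val hzy
    exact this

/-- `|M X| = |M| |X|` for `M` normal with `M ∩ X = 1`. -/
theorem card_sup_of_normal_of_disjoint {G : Type*} [Group G] (M X : Subgroup G) [M.Normal]
    (h : M ⊓ X = ⊥) : Nat.card ↥(M ⊔ X) = Nat.card M * Nat.card X := by
  have h1 := Subgroup.relIndex_mul_relIndex (H := (⊥ : Subgroup G)) (K := M) (L := M ⊔ X)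
    bot_le le_sup_left
  rw [Subgroup.relIndex_bot_left, Subgroup.relIndex_bot_left, Subgroup.relIndex_sup_left,
    ← Subgroup.inf_relIndex_right, h, Subgroup.relIndex_bot_left] at h1
  exact h1.symm

/-- `|M X : X| = |M|` for `M` normal with `M ∩ X = 1`. -/
theorem relIndex_sup_of_normal_of_disjoint {G : Type*} [Group G] [Finite G] (M X : Subgroup G)
    [M.Normal] (h : M ⊓ X = ⊥) : X.relIndex (M ⊔ X) = Nat.card M := by
  have h1 := Subgroup.relIndex_mul_relIndex (H := (⊥ : Subgroup G)) (K := X) (L := M ⊔ X)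
    bot_le le_sup_right
  rw [Subgroup.relIndex_bot_left, Subgroup.relIndex_bot_left,
    card_sup_of_normal_of_disjoint M X h, mul_comm] at h1
  exact Nat.eq_of_mul_eq_mul_right Nat.card_pos h1

/-- Dedekind's law for a normal subgroup `M ≤ L` supplemented by `V`. -/
theorem dedekind_eq {G : Type*} [Group G] (M V L : Subgroup G) [M.Normal] (hML : M ≤ L)
    (htop : M ⊔ V = ⊤) : L = M ⊔ (L ⊓ V) := by
  apply le_antisymm
  · intro x hx
    obtain ⟨m, hm, v, hv, rfl⟩ := exists_mul_of_sup_eq_top M V htop x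
    have hvL : v ∈ L := by
      have : v = m⁻¹ * (m * v) := by group
      rw [this]; exact L.mul_mem (L.inv_mem (hML hm)) hx
    exact Subgroup.mul_mem _ (Subgroup.mem_sup_left hm)
      (Subgroup.mem_sup_right (Subgroup.mem_inf.mpr ⟨hvL, hv⟩))
  · exact sup_le hML inf_le_left

/-- Conjugation commutes with taking normalizers. -/
theorem conj_smul_normalizer {G : Type*} [Group G] (t : G) (H : Subgroup G) :
    MulAut.conj t • Subgroup.normalizer (H : Set G) =
      Subgroup.normalizer ((MulAut.conj t • H : Subgroup G) : Set G) := by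
  rw [Subgroup.pointwise_smul_def, Subgroup.pointwise_smul_def]
  exact Subgroup.map_equiv_normalizer_eq H (MulAut.conj t)

/-- A maximal subgroup normalizing a non-normal subgroup is its normalizer. -/
theorem normalizer_eq_of_isCoatom {G : Type*} [Group G] (U X : Subgroup G) (hU : IsCoatom U)
    (hle : U ≤ Subgroup.normalizer (X : Set G)) (hX : ¬ X.Normal) :
    Subgroup.normalizer (X : Set G) = U := by
  by_contra hne
  exact hX (Subgroup.normalizer_eq_top_iff.mp (hU.2 _ (lt_of_le_of_ne hle (Ne.symm hne))))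

end Cfsg.Agent.Lib.Helper13
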