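import Mathlib
import Cfsg.Prelude.Def_SolvableStructure
import Cfsg.Agent.Lib.Helper13.Basic
import Cfsg.Agent.Lib.Helper12.HallSystem3
import Cfsg.Agent.Lib.Helper66.PAct

/-!
# System normalizers avoid eccentric minimal normal subgroups (helper13)
-/

set_option autoImplicit false

namespace Cfsg.Agent.Lib.Helper13

open Cfsg

/-- A normal `r`-subgroup lies in every subgroup of index prime to `r`. -/
theorem normal_pgroup_le {Q : Type*} [Group Q] [Finite Q] {r : ℕ} (hr : r.Prime)
    (R K : Subgroup Q) [R.Normal] (hR : IsPGroup r R) (hK : Nat.Coprime r K.index) : R ≤ K := by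
  rw [← Subgroup.relIndex_eq_one]
  have h1 : K.relIndex R ∣ K.index := by
    rw [← Subgroup.inf_relIndex_right, ← Cfsg.Agent.Lib.Helper12.relIndex_sup_eq_of_normal K R]
    exact Subgroup.relIndex_dvd_index_of_le le_sup_left
  have h2 : K.relIndex R ∣ Nat.card R := Subgroup.relIndex_dvd_card K R
  haveI : Fact r.Prime := ⟨hr⟩
  obtain ⟨n, hn⟩ := hR.exists_card_eq
  rw [hn] at h2
  exact Nat.eq_one_of_dvd_coprimes (Nat.Coprime.pow_left n hK) h2 h1

/-- Central elements lie in every system normalizer. -/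
theorem center_le_systemNormalizer {G : Type*} [Group G] (K : Nat.Primes → Subgroup G) :
    Subgroup.center G ≤ systemNormalizer K := by
  intro z hz
  refine Subgroup.mem_iInf.mpr (fun p => ?_)
  rw [Subgroup.mem_normalizer_iff]
  intro y
  have h := Subgroup.mem_center_iff.mp hz y
  rw [← h, mul_inv_cancel_right]

/-- A non-central minimal normal subgroup of a finite solvable group meets the normalizer of a
Hall `p`-complement trivially (`p` the prime of the minimal normal subgroup); in particular it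
meets every system normalizer trivially. -/
theorem minimal_normal_inf_systemNormalizer {G : Type*} [Group G] [Finite G] [Group.IsSolvable G]
    (N : Subgroup G) [hNn : N.Normal] (hN : N ≠ ⊥)
    (hmin : ∀ K : Subgroup G, K.Normal → K ≤ N → K = ⊥ ∨ K = N)
    (hnc : ¬ N ≤ Subgroup.center G)
    (K : Nat.Primes → Subgroup G) (hK : IsComplementSystem K) :
    N ⊓ systemNormalizer K = ⊥ := by
  obtain ⟨p, hp, hpd, hcomm, hexp, hNp⟩ := minimal_normal_solvable N hNn hN hmin
  haveI : Fact p.Prime := ⟨hp⟩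
  obtain ⟨H, hH⟩ : ∃ H : Subgroup G, H = K ⟨p, hp⟩ := ⟨_, rfl⟩
  have hHidx : H.index = p ^ (Nat.card G).factorization p := by
    rw [hH]
    exact hK ⟨p, hp⟩
  have hHcard : ¬ p ∣ Nat.card H := by
    rw [hH]
    exact Cfsg.Agent.Lib.Helper12.not_dvd_card_of_isComplementSystem hK ⟨p, hp⟩
  have hNH : N ⊓ H = ⊥ := by
    obtain ⟨n, hn⟩ := hNp.exists_card_eq
    refine (Subgroup.disjoint_of_coprime_natCard ?_).eq_bot
    rw [hn]
    exact Nat.Coprime.pow_left n ((Nat.Prime.coprime_iff_not_dvd hp).mpr hHcard)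
  have hcent : ∀ n ∈ N, n ∈ Subgroup.normalizer (H : Set G) → ∀ k ∈ H, n * k = k * n := by
    intro n hn hnH k hk
    have h1 : n * k * n⁻¹ * k⁻¹ ∈ N ⊓ H := by
      refine Subgroup.mem_inf.mpr ⟨?_, ?_⟩
      · have : n * k * n⁻¹ * k⁻¹ = n * (k * n⁻¹ * k⁻¹) := by group
        rw [this]
        exact N.mul_mem hn (hNn.conj_mem _ (N.inv_mem hn) k)
      · exact H.mul_mem ((Subgroup.mem_normalizer_iff.mp hnH k).mp hk) (H.inv_mem hk)
    rw [hNH, Subgroup.mem_bot] at h1
    calc n * k = (n * k * n⁻¹ * k⁻¹) * (k * n) := by group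
      _ = k * n := by rw [h1, one_mul]
  obtain ⟨C, hC⟩ : ∃ C : Subgroup G, C = Subgroup.centralizer (N : Set G) := ⟨_, rfl⟩
  haveI hCn : C.Normal := by
    rw [hC]
    exact Subgroup.normal_centralizer
  have hCmem : ∀ c ∈ C, ∀ n ∈ N, n * c = c * n := by
    intro c hc n hn
    rw [hC] at hc
    exact Subgroup.mem_centralizer_iff.mp hc n hn
  have hCtop : C ≠ ⊤ := by
    intro h
    apply hnc
    intro n hn
    rw [Subgroup.mem_center_iff]
    intro g
    have hg : g ∈ C := h ▸ Subgroup.mem_top g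
    exact (hCmem g hg n hn).symm
  haveI : Nontrivial (G ⧸ C) := QuotientGroup.nontrivial_iff.mpr hCtop
  obtain ⟨Rb, -, hRbn, hRb, hRbmin⟩ := exists_minimal_normal_le (⊤ : Subgroup (G ⧸ C))
    inferInstance top_ne_bot
  obtain ⟨r, hr, -, -, -, hRbr⟩ := minimal_normal_solvable Rb hRbn hRb hRbmin
  obtain ⟨R, hR⟩ : ∃ R : Subgroup G, R = Rb.comap (QuotientGroup.mk' C) := ⟨_, rfl⟩
  haveI hRn : R.Normal := by
    rw [hR]
    exact hRbn.comap _
  have hRC : ¬ R ≤ C := by
    intro h
    apply hRb
    rw [Subgroup.eq_bot_iff_forall]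
    intro y hy
    obtain ⟨x, rfl⟩ := QuotientGroup.mk'_surjective C y
    have hx : x ∈ R := by
      rw [hR]
      exact hy
    exact (QuotientGroup.eq_one_iff x).mpr (h hx)
  have key : ∀ L : Subgroup G, Nat.Coprime r L.index → R ≤ L ⊔ C := by
    intro L hL
    have h1 : Rb ≤ L.map (QuotientGroup.mk' C) := by
      haveI := hRbn
      apply normal_pgroup_le hr Rb _ hRbr
      exact Nat.Coprime.coprime_dvd_right
        (Subgroup.index_map_dvd _ (QuotientGroup.mk'_surjective C)) hL
    have h2 : R ≤ (L.map (QuotientGroup.mk' C)).comap (QuotientGroup.mk' C) := by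
      rw [hR]
      exact Subgroup.comap_mono h1
    rwa [Subgroup.comap_map_eq, QuotientGroup.ker_mk'] at h2
  have hNR : N ⊓ Subgroup.centralizer (R : Set G) = ⊥ := by
    haveI : (Subgroup.centralizer (R : Set G)).Normal := Subgroup.normal_centralizer
    rcases hmin (N ⊓ Subgroup.centralizer (R : Set G)) inferInstance inf_le_left with h | h
    · exact h
    · exfalso
      apply hRC
      intro x hx
      rw [hC, Subgroup.mem_centralizer_iff]
      intro n hn
      have hn' : n ∈ Subgroup.centralizer (R : Set G) := (Subgroup.mem_inf.mp (h.ge hn)).2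
      exact (Subgroup.mem_centralizer_iff.mp hn' x hx).symm
  have hfix : ∀ L : Subgroup G, R ≤ L ⊔ C → ∀ n ∈ N, (∀ k ∈ L, n * k = k * n) → n = 1 := by
    intro L hL n hn hnL
    have h0 : n ∈ N ⊓ Subgroup.centralizer (R : Set G) := by
      refine Subgroup.mem_inf.mpr ⟨hn, ?_⟩
      rw [Subgroup.mem_centralizer_iff]
      intro x hx
      have hx' := hL hx
      rw [Subgroup.mem_sup_of_normal_right] at hx'
      obtain ⟨l, hl, c, hc, rfl⟩ := hx'
      have h1 : n * c = c * n := hCmem c hc n hn
      have h2 := hnL l hl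
      calc l * c * n = l * (c * n) := by group
        _ = l * (n * c) := by rw [h1]
        _ = (l * n) * c := by group
        _ = (n * l) * c := by rw [h2]
        _ = n * (l * c) := by group
    rw [hNR, Subgroup.mem_bot] at h0
    exact h0
  by_cases hrp : r = p
  · exfalso
    subst hrp
    obtain ⟨P⟩ : Nonempty (Sylow r G) := inferInstance
    have hPidx : Nat.Coprime r (P : Subgroup G).index :=
      (Nat.Prime.coprime_iff_not_dvd hr).mpr P.not_dvd_index
    have h1 := key P hPidx
    have h2 : r ∣ Nat.card (N ⊓ Subgroup.centralizer ((P : Subgroup G) : Set G) : Subgroup G) :=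
      Cfsg.Agent.Lib.Helper66.dvd_card_inf_centralizer P.isPGroup' hpd
        (by rw [Subgroup.normalizer_eq_top]; exact le_top)
    have h3 : N ⊓ Subgroup.centralizer ((P : Subgroup G) : Set G) = ⊥ := by
      rw [Subgroup.eq_bot_iff_forall]
      intro n hn
      obtain ⟨hn1, hn2⟩ := Subgroup.mem_inf.mp hn
      apply hfix P h1 n hn1
      intro k hk
      exact (Subgroup.mem_centralizer_iff.mp hn2 k hk).symm
    rw [h3, Subgroup.card_bot] at h2
    exact hr.one_lt.ne' (Nat.dvd_one.mp h2)
  · have hHr : Nat.Coprime r H.index := by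
      rw [hHidx]
      exact Nat.Coprime.pow_right _ ((Nat.coprime_primes hr hp).mpr hrp)
    have h1 := key H hHr
    rw [Subgroup.eq_bot_iff_forall]
    intro n hn
    obtain ⟨hn1, hn2⟩ := Subgroup.mem_inf.mp hn
    have hn3 : n ∈ Subgroup.normalizer (H : Set G) := by
      rw [hH]
      exact Subgroup.mem_iInf.mp hn2 ⟨p, hp⟩
    exact hfix H h1 n hn1 (hcent n hn1 hn3)

end Cfsg.Agent.Lib.Helper13
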