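import Mathlib
import Cfsg.Agent.Lib.Helper13.Basic

set_option autoImplicit false

namespace Cfsg.Agent.Lib.Helper13

open scoped Pointwise

/-- In a finite nilpotent group, an element of order prime to `p` commutes with the Sylow
`p`-subgroup. -/
theorem commute_of_coprime_of_nilpotent {H : Type*} [Group H] [Finite H] [Group.IsNilpotent H]
    {p : ℕ} [Fact p.Prime] (P : Sylow p H) (x : H) (hx : (orderOf x).Coprime p) :
    ∀ y ∈ (P : Subgroup H), x * y = y * x := by
  classical
  haveI hPn : (P : Subgroup H).Normal := inferInstance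
  haveI hCn : (Subgroup.centralizer ((P : Subgroup H) : Set H)).Normal :=
    Subgroup.normal_centralizer
  have htop : Subgroup.centralizer ((P : Subgroup H) : Set H) ⊔ (P : Subgroup H) = ⊤ := by
    rw [← Subgroup.index_eq_one]
    by_contra hne
    obtain ⟨r, hr, hrdvd⟩ := Nat.exists_prime_and_dvd hne
    haveI : Fact r.Prime := ⟨hr⟩
    obtain ⟨R⟩ : Nonempty (Sylow r H) := inferInstance
    have hRle : (R : Subgroup H) ≤
        Subgroup.centralizer ((P : Subgroup H) : Set H) ⊔ (P : Subgroup H) := by
      by_cases hrp : r = p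
      · subst hrp
        have hRP : R = P := by
          haveI := Sylow.unique_of_normal P hPn
          exact Subsingleton.elim _ _
        rw [hRP]; exact le_sup_right
      · have hRn : (R : Subgroup H).Normal := inferInstance
        have hdis : Disjoint (R : Subgroup H) (P : Subgroup H) :=
          IsPGroup.disjoint_of_ne r p hrp _ _ R.isPGroup' P.isPGroup'
        refine le_trans ?_ le_sup_left
        intro z hz
        rw [Subgroup.mem_centralizer_iff]
        intro y hy
        exact (Subgroup.commute_of_normal_of_disjoint _ _ hRn hPn hdis z y hz hy).eq.symm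
    have h1 : (Subgroup.centralizer ((P : Subgroup H) : Set H) ⊔ (P : Subgroup H)).index ∣
        (R : Subgroup H).index := Subgroup.index_dvd_of_le hRle
    exact R.not_dvd_index (hrdvd.trans h1)
  have hxC : x ∈ Subgroup.centralizer ((P : Subgroup H) : Set H) := by
    have hx' : x ∈ Subgroup.centralizer ((P : Subgroup H) : Set H) ⊔ (P : Subgroup H) :=
      htop ▸ Subgroup.mem_top x
    rw [Subgroup.mem_sup_of_normal_left] at hx'
    obtain ⟨c, hc, y, hy, rfl⟩ := hx'
    have hyC : y ∈ Subgroup.centralizer ((P : Subgroup H) : Set H) := by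
      rw [← QuotientGroup.eq_one_iff]
      have h1 : orderOf ((y : H) : H ⧸ Subgroup.centralizer ((P : Subgroup H) : Set H)) ∣
          orderOf (c * y) := by
        have h0 : ((c * y : H) : H ⧸ Subgroup.centralizer ((P : Subgroup H) : Set H)) =
            ((y : H) : H ⧸ Subgroup.centralizer ((P : Subgroup H) : Set H)) := by
          rw [QuotientGroup.mk_mul, (QuotientGroup.eq_one_iff c).mpr hc, one_mul]
        rw [← h0]
        exact orderOf_map_dvd (QuotientGroup.mk' _) (c * y)
      obtain ⟨k, hk⟩ := P.isPGroup' ⟨y, hy⟩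
      have h2 : orderOf ((y : H) : H ⧸ Subgroup.centralizer ((P : Subgroup H) : Set H)) ∣
          p ^ k := by
        apply orderOf_dvd_of_pow_eq_one
        rw [← QuotientGroup.mk_pow]
        have h3 : y ^ p ^ k = 1 := congrArg Subtype.val hk
        rw [h3]; rfl
      have h3 := Nat.eq_one_of_dvd_coprimes (Nat.Coprime.pow_right k hx) h1 h2
      exact orderOf_eq_one_iff.mp h3
    exact Subgroup.mul_mem _ hc hyC
  intro y hy
  rw [Subgroup.mem_centralizer_iff] at hxC
  exact (hxC y hy).symm

/-- A normal maximal subgroup of a finite group has prime index. -/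
theorem index_prime_of_normal_isCoatom {K : Type*} [Group K] [Finite K] (M : Subgroup K)
    [hMn : M.Normal] (hM : IsCoatom M) : M.index.Prime := by
  classical
  have hne : M.index ≠ 1 := fun h => hM.1 (Subgroup.index_eq_one.mp h)
  obtain ⟨q, hq, hqdvd⟩ := Nat.exists_prime_and_dvd hne
  haveI : Fact q.Prime := ⟨hq⟩
  rw [Subgroup.index_eq_card] at hqdvd
  obtain ⟨g, hg⟩ := exists_prime_orderOf_dvd_card' (G := K ⧸ M) q hqdvd
  have hlt : M < (Subgroup.zpowers g).comap (QuotientGroup.mk' M) := by
    apply lt_of_le_of_ne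
    · intro x hx
      rw [Subgroup.mem_comap]
      have : QuotientGroup.mk' M x = 1 := (QuotientGroup.eq_one_iff x).mpr hx
      rw [this]; exact Subgroup.one_mem _
    · intro heq
      have h1 : (Subgroup.zpowers g).comap (QuotientGroup.mk' M) = (QuotientGroup.mk' M).ker := by
        rw [QuotientGroup.ker_mk']; exact heq.symm
      have h2 : Subgroup.zpowers g = ⊥ := by
        have h3 := congrArg (Subgroup.map (QuotientGroup.mk' M)) h1
        rw [Subgroup.map_comap_eq_self_of_surjective (QuotientGroup.mk'_surjective M)] at h3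
        rw [h3, ← MonoidHom.comap_bot, Subgroup.map_comap_eq_self_of_surjective
          (QuotientGroup.mk'_surjective M)]
      rw [Subgroup.zpowers_eq_bot] at h2
      rw [h2, orderOf_one] at hg
      exact hq.one_lt.ne hg
  have htop := hM.2 _ hlt
  have h4 : Subgroup.zpowers g = ⊤ := by
    have h3 := congrArg (Subgroup.map (QuotientGroup.mk' M)) htop
    rw [Subgroup.map_comap_eq_self_of_surjective (QuotientGroup.mk'_surjective M),
      Subgroup.map_top_of_surjective _ (QuotientGroup.mk'_surjective M)] at h3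
    exact h3
  have h5 : Nat.card (K ⧸ M) = q := by
    rw [← hg, ← Nat.card_zpowers, h4]
    exact (Nat.card_congr (Equiv.Set.univ _)).symm
  rw [Subgroup.index_eq_card, h5]
  exact hq

/-- The subgroup of `K` generated by its elements of order prime to `p`. -/
def coprimeClosure {G : Type*} [Group G] (p : ℕ) (K : Subgroup G) : Subgroup G :=
  Subgroup.closure {x : G | x ∈ K ∧ (orderOf x).Coprime p}

theorem coprimeClosure_le {G : Type*} [Group G] (p : ℕ) (K : Subgroup G) :
    coprimeClosure p K ≤ K := by
  unfold coprimeClosure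
  rw [Subgroup.closure_le]
  intro x hx
  exact hx.1

theorem conj_mem_coprimeClosure {G : Type*} [Group G] (p : ℕ) (K : Subgroup G) (k : G)
    (hk : k ∈ K) : ∀ t ∈ coprimeClosure p K, k * t * k⁻¹ ∈ coprimeClosure p K := by
  intro t ht
  unfold coprimeClosure at ht ⊢
  induction ht using Subgroup.closure_induction with
  | mem x hx =>
    apply Subgroup.subset_closure
    refine ⟨K.mul_mem (K.mul_mem hk hx.1) (K.inv_mem hk), ?_⟩
    have h1 : orderOf (k * x * k⁻¹) = orderOf x := by
      have h2 : SemiconjBy k x (k * x * k⁻¹) := by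
        unfold SemiconjBy; group
      exact h2.orderOf_eq.symm
    rw [h1]; exact hx.2
  | one => simp
  | mul x y _ _ hx hy =>
    have h1 : k * (x * y) * k⁻¹ = (k * x * k⁻¹) * (k * y * k⁻¹) := by group
    rw [h1]; exact Subgroup.mul_mem _ hx hy
  | inv x _ hx =>
    have h1 : k * x⁻¹ * k⁻¹ = (k * x * k⁻¹)⁻¹ := by group
    rw [h1]; exact Subgroup.inv_mem _ hx

theorem le_normalizer_coprimeClosure {G : Type*} [Group G] [Finite G] (p : ℕ) (K : Subgroup G) :
    K ≤ Subgroup.normalizer ((coprimeClosure p K : Subgroup G) : Set G) := by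
  intro k hk
  exact Subgroup.mem_normalizer_fintype (fun t ht => conj_mem_coprimeClosure p K k hk t ht)

/-- If `M ⊴ K` has `p`-power index, then `M` contains every element of `K` of order prime to
`p`. -/
theorem coprimeClosure_le_of_index {G : Type*} [Group G] [Finite G] (p : ℕ) (K : Subgroup G)
    (M : Subgroup ↥K) [M.Normal] (k : ℕ) (hM : M.index = p ^ k) :
    coprimeClosure p K ≤ M.map K.subtype := by
  unfold coprimeClosure
  rw [Subgroup.closure_le]
  rintro x ⟨hxK, hxo⟩
  have h1 : (⟨x, hxK⟩ : ↥K) ^ (p ^ k) ∈ M := by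
    rw [← hM]; exact Subgroup.pow_index_mem M _
  have ho : orderOf (⟨x, hxK⟩ : ↥K) = orderOf x := Subgroup.orderOf_mk x hxK
  have hcop : (p ^ k).Coprime (orderOf (⟨x, hxK⟩ : ↥K)) := by
    rw [ho]; exact (Nat.Coprime.pow_right k hxo).symm
  obtain ⟨m, hm⟩ := exists_pow_eq_self_of_coprime hcop
  refine ⟨⟨x, hxK⟩, ?_, rfl⟩
  rw [← hm]; exact Subgroup.pow_mem M h1 m

/-- Every element of `K` is a product of an element of `coprimeClosure p K` and an element of a
given Sylow `p`-subgroup of `K`. -/
theorem exists_mul_coprimeClosure_sylow {G : Type*} [Group G] [Finite G] (p : ℕ) [Fact p.Prime]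
    (K : Subgroup G) (P : Sylow p ↥K) :
    ∀ k ∈ K, ∃ t ∈ coprimeClosure p K, ∃ y ∈ (P : Subgroup ↥K).map K.subtype, k = t * y := by
  classical
  have hp : p.Prime := Fact.out
  haveI hTn : ((coprimeClosure p K).subgroupOf K).Normal := by
    constructor
    intro t ht k
    rw [Subgroup.mem_subgroupOf] at ht ⊢
    exact conj_mem_coprimeClosure p K k k.2 t ht
  have hpg : IsPGroup p (↥K ⧸ (coprimeClosure p K).subgroupOf K) := by
    intro g
    induction g using QuotientGroup.induction_on with
    | H g =>
      obtain ⟨e, s, hs, hes⟩ := Nat.exists_eq_pow_mul_and_not_dvd (orderOf_pos g).ne' p hp.ne_one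
      refine ⟨e, ?_⟩
      rw [← QuotientGroup.mk_pow, QuotientGroup.eq_one_iff, Subgroup.mem_subgroupOf]
      apply Subgroup.subset_closure
      refine ⟨(g ^ p ^ e).2, ?_⟩
      have h1 : orderOf ((g ^ p ^ e : ↥K) : G) ∣ s := by
        apply orderOf_dvd_of_pow_eq_one
        have h2 : (g ^ p ^ e) ^ s = 1 := by
          rw [← pow_mul, ← hes, pow_orderOf_eq_one]
        have h3 := congrArg Subtype.val h2
        simpa using h3
      have hsp : s.Coprime p := ((Nat.Prime.coprime_iff_not_dvd hp).mpr hs).symm
      exact Nat.Coprime.coprime_dvd_left h1 hsp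
  obtain ⟨j, hj⟩ := IsPGroup.iff_card.mp hpg
  have hidx : ((coprimeClosure p K).subgroupOf K).index = p ^ j := by
    rw [Subgroup.index_eq_card]; exact hj
  have htop : (coprimeClosure p K).subgroupOf K ⊔ (P : Subgroup ↥K) = ⊤ := by
    rw [← Subgroup.index_eq_one]
    have h1 : ((coprimeClosure p K).subgroupOf K ⊔ (P : Subgroup ↥K)).index ∣ p ^ j := by
      rw [← hidx]; exact Subgroup.index_dvd_of_le le_sup_left
    have h2 : ((coprimeClosure p K).subgroupOf K ⊔ (P : Subgroup ↥K)).index ∣
        (P : Subgroup ↥K).index := Subgroup.index_dvd_of_le le_sup_right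
    have h3 : (p ^ j).Coprime (P : Subgroup ↥K).index :=
      Nat.Coprime.pow_left j ((Nat.Prime.coprime_iff_not_dvd hp).mpr P.not_dvd_index)
    exact Nat.eq_one_of_dvd_coprimes h3 h1 h2
  intro k hk
  have hk' : (⟨k, hk⟩ : ↥K) ∈ (coprimeClosure p K).subgroupOf K ⊔ (P : Subgroup ↥K) :=
    htop ▸ Subgroup.mem_top _
  rw [Subgroup.mem_sup_of_normal_left] at hk'
  obtain ⟨t, ht, y, hy, hty⟩ := hk'
  rw [Subgroup.mem_subgroupOf] at ht
  exact ⟨(t : G), ht, (y : G), ⟨y, hy, rfl⟩, (congrArg Subtype.val hty).symm⟩

/-- A Sylow `p`-subgroup of a subgroup `H` whose index is prime to `p` has index prime to `p`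
in `G`. -/
theorem not_dvd_index_map_sylow {G : Type*} [Group G] [Finite G] (p : ℕ) [Fact p.Prime]
    (H : Subgroup G) (hH : ¬ p ∣ H.index) (P : Sylow p ↥H) :
    ¬ p ∣ ((P : Subgroup ↥H).map H.subtype).index := by
  have hp : p.Prime := Fact.out
  rw [Subgroup.index_map_subtype]
  intro h
  rcases (Nat.Prime.dvd_mul hp).mp h with h1 | h1
  · exact P.not_dvd_index h1
  · exact hH h1

end Cfsg.Agent.Lib.Helper13
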