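import Mathlib

set_option autoImplicit false

namespace Cfsg.Agent.Lib.Helper13

open scoped Pointwise

/-- Membership in a conjugate subgroup. -/
theorem mem_conj_smul_iff {G : Type*} [Group G] (g y : G) (C : Subgroup G) :
    y ∈ MulAut.conj g • C ↔ g⁻¹ * y * g ∈ C := by
  simp only [Subgroup.mem_pointwise_smul_iff_inv_smul_mem, MulAut.smul_def, ← map_inv,
    MulAut.conj_apply, inv_inv]

theorem conj_mem_conj_smul {G : Type*} [Group G] (g : G) {c : G} {C : Subgroup G} (hc : c ∈ C) :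
    g * c * g⁻¹ ∈ MulAut.conj g • C := by
  rw [mem_conj_smul_iff]
  have : g⁻¹ * (g * c * g⁻¹) * g = c := by group
  rw [this]; exact hc

theorem conj_smul_conj_smul {G : Type*} [Group G] (g h : G) (C : Subgroup G) :
    MulAut.conj g • (MulAut.conj h • C) = MulAut.conj (g * h) • C := by
  rw [smul_smul, ← map_mul]

/-- `X` and `C` permute: `C X ⊆ X C`. -/
def MulPerm {G : Type*} [Group G] (X C : Subgroup G) : Prop :=
  ∀ x ∈ X, ∀ c ∈ C, ∃ x' ∈ X, ∃ c' ∈ C, c * x = x' * c'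

theorem MulPerm.symm {G : Type*} [Group G] {X C : Subgroup G} (h : MulPerm X C) : MulPerm C X := by
  intro c hc x hx
  obtain ⟨x', hx', c', hc', e⟩ := h x⁻¹ (X.inv_mem hx) c⁻¹ (C.inv_mem hc)
  refine ⟨c'⁻¹, C.inv_mem hc', x'⁻¹, X.inv_mem hx', ?_⟩
  have : x * c = (c⁻¹ * x⁻¹)⁻¹ := by group
  rw [this, e]; group

/-- If the product set `X C` is a subgroup, then `X` and `C` permute. -/
theorem mulPerm_of_coe_eq {G : Type*} [Group G] (S X C : Subgroup G)
    (h : (S : Set G) = (X : Set G) * (C : Set G)) : MulPerm X C := by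
  intro x hx c hc
  have h1 : x⁻¹ * c⁻¹ ∈ (S : Set G) := by
    rw [h]; exact Set.mul_mem_mul (X.inv_mem hx) (C.inv_mem hc)
  have h2 : c * x ∈ (S : Set G) := by
    have : c * x = (x⁻¹ * c⁻¹)⁻¹ := by group
    rw [this]; exact S.inv_mem h1
  rw [h] at h2
  obtain ⟨x', hx', c', hc', e⟩ := h2
  exact ⟨x', hx', c', hc', e.symm⟩

/-- If `X` and `C` permute, the product set `X C` is the subgroup `X ⊔ C`. -/
theorem coe_sup_of_mulPerm {G : Type*} [Group G] {X C : Subgroup G} (h : MulPerm X C) :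
    ((X ⊔ C : Subgroup G) : Set G) = (X : Set G) * (C : Set G) := by
  let S : Subgroup G :=
    { carrier := (X : Set G) * (C : Set G)
      mul_mem' := by
        rintro _ _ ⟨x1, hx1, c1, hc1, rfl⟩ ⟨x2, hx2, c2, hc2, rfl⟩
        obtain ⟨x', hx', c', hc', e⟩ := h x2 hx2 c1 hc1
        refine ⟨x1 * x', X.mul_mem hx1 hx', c' * c2, C.mul_mem hc' hc2, ?_⟩
        show x1 * x' * (c' * c2) = x1 * c1 * (x2 * c2)
        calc x1 * x' * (c' * c2) = x1 * (x' * c') * c2 := by group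
          _ = x1 * (c1 * x2) * c2 := by rw [e]
          _ = x1 * c1 * (x2 * c2) := by group
      one_mem' := ⟨1, X.one_mem, 1, C.one_mem, by simp⟩
      inv_mem' := by
        rintro _ ⟨x1, hx1, c1, hc1, rfl⟩
        obtain ⟨x', hx', c', hc', e⟩ := h x1⁻¹ (X.inv_mem hx1) c1⁻¹ (C.inv_mem hc1)
        refine ⟨x', hx', c', hc', ?_⟩
        show x' * c' = (x1 * c1)⁻¹
        rw [← e]; group }
  have hS : (S : Set G) = (X : Set G) * (C : Set G) := rfl
  have h1 : X ⊔ C ≤ S := by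
    apply sup_le
    · intro x hx
      exact ⟨x, hx, 1, C.one_mem, by simp⟩
    · intro c hc
      exact ⟨1, X.one_mem, c, hc, by simp⟩
  have h2 : S ≤ X ⊔ C := by
    rintro _ ⟨x, hx, c, hc, rfl⟩
    exact Subgroup.mul_mem _ (Subgroup.mem_sup_left hx) (Subgroup.mem_sup_right hc)
  rw [le_antisymm h1 h2, hS]

theorem exists_subgroup_of_mulPerm {G : Type*} [Group G] {X C : Subgroup G} (h : MulPerm X C) :
    ∃ S : Subgroup G, (S : Set G) = (X : Set G) * (C : Set G) :=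
  ⟨X ⊔ C, coe_sup_of_mulPerm h⟩

/-- If `X₁` and `X₂` permute with `C`, so does their join. -/
theorem mulPerm_sup {G : Type*} [Group G] {X₁ X₂ C : Subgroup G} (h1 : MulPerm X₁ C)
    (h2 : MulPerm X₂ C) : MulPerm (X₁ ⊔ X₂) C := by
  intro x hx
  rw [sup_eq_iSup] at hx
  refine Subgroup.iSup_induction (fun b : Bool => bif b then X₁ else X₂)
    (C := fun x => ∀ c ∈ C, ∃ x' ∈ X₁ ⊔ X₂, ∃ c' ∈ C, c * x = x' * c') hx ?_ ?_ ?_
  · intro b y hy c hc
    cases b with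
    | true =>
      obtain ⟨x', hx', c', hc', e⟩ := h1 y hy c hc
      exact ⟨x', Subgroup.mem_sup_left hx', c', hc', e⟩
    | false =>
      obtain ⟨x', hx', c', hc', e⟩ := h2 y hy c hc
      exact ⟨x', Subgroup.mem_sup_right hx', c', hc', e⟩
  · intro c hc
    exact ⟨1, Subgroup.one_mem _, c, hc, by simp⟩
  · intro y z hy hz c hc
    obtain ⟨y', hy', c', hc', e⟩ := hy c hc
    obtain ⟨z', hz', c'', hc'', e'⟩ := hz c' hc'
    refine ⟨y' * z', Subgroup.mul_mem _ hy' hz', c'', hc'', ?_⟩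
    calc c * (y * z) = (c * y) * z := by group
      _ = y' * (c' * z) := by rw [e]; group
      _ = y' * z' * c'' := by rw [e']; group

/-- Permutability is preserved by simultaneous conjugation. -/
theorem mulPerm_conj {G : Type*} [Group G] {X C : Subgroup G} (h : MulPerm X C) (g : G) :
    MulPerm (MulAut.conj g • X) (MulAut.conj g • C) := by
  intro x hx c hc
  rw [mem_conj_smul_iff] at hx hc
  obtain ⟨x', hx', c', hc', e⟩ := h _ hx _ hc
  refine ⟨g * x' * g⁻¹, conj_mem_conj_smul g hx', g * c' * g⁻¹, conj_mem_conj_smul g hc', ?_⟩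
  calc c * x = g * ((g⁻¹ * c * g) * (g⁻¹ * x * g)) * g⁻¹ := by group
    _ = g * (x' * c') * g⁻¹ := by rw [e]
    _ = g * x' * g⁻¹ * (g * c' * g⁻¹) := by group

/-- If `G = X C^z` then `G = X C`. -/
theorem mul_eq_univ_of_conj {G : Type*} [Group G] (X C : Subgroup G) (z : G)
    (h : ∀ g : G, ∃ x ∈ X, ∃ c ∈ MulAut.conj z • C, g = x * c) :
    ∀ g : G, ∃ x ∈ X, ∃ c ∈ C, g = x * c := by
  obtain ⟨x0, hx0, c0, hc0, e0⟩ := h z⁻¹
  rw [mem_conj_smul_iff] at hc0
  intro g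
  obtain ⟨x1, hx1, c1, hc1, e1⟩ := h (x0⁻¹ * g * x0)
  rw [mem_conj_smul_iff] at hc1
  have hc0' : c0 = x0⁻¹ * z⁻¹ := by rw [e0]; group
  refine ⟨x0 * x1 * x0⁻¹, X.mul_mem (X.mul_mem hx0 hx1) (X.inv_mem hx0),
    (z⁻¹ * c0 * z)⁻¹ * (z⁻¹ * c1 * z) * (z⁻¹ * c0 * z),
    C.mul_mem (C.mul_mem (C.inv_mem hc0) hc1) hc0, ?_⟩
  have hg : g = x0 * (x1 * c1) * x0⁻¹ := by rw [← e1]; group
  rw [hg, hc0']
  group

end Cfsg.Agent.Lib.Helper13
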