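import Mathlib
import Cfsg.Agent.Lib.Helper13.Nilp
import Cfsg.Agent.Lib.Helper13.Perm

/-!
# Sylow parts of nilpotent subgroups (helper13, for Kegel–Wielandt)
-/

set_option autoImplicit false

namespace Cfsg.Agent.Lib.Helper13

open scoped Pointwise

/-- The join of all `p`-subgroups of `A`; for nilpotent `A` this is the Sylow `p`-subgroup. -/
def sy {G : Type*} [Group G] (p : ℕ) (A : Subgroup G) : Subgroup G :=
  sSup {Q : Subgroup G | Q ≤ A ∧ IsPGroup p Q}

theorem sy_le {G : Type*} [Group G] (p : ℕ) (A : Subgroup G) : sy p A ≤ A :=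
  sSup_le fun _ hQ => hQ.1

theorem le_sy {G : Type*} [Group G] {p : ℕ} {A Q : Subgroup G} (hQA : Q ≤ A)
    (hQ : IsPGroup p Q) : Q ≤ sy p A := le_sSup ⟨hQA, hQ⟩

theorem isPGroup_conj {G : Type*} [Group G] {p : ℕ} {Q : Subgroup G} (hQ : IsPGroup p Q) (g : G) :
    IsPGroup p (MulAut.conj g • Q : Subgroup G) := by
  rw [Subgroup.pointwise_smul_def]
  exact hQ.map _

theorem conj_sy_le {G : Type*} [Group G] (p : ℕ) (A : Subgroup G) (g : G) :
    MulAut.conj g • sy p A ≤ sy p (MulAut.conj g • A) := by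
  rw [Subgroup.pointwise_smul_subset_iff]
  apply sSup_le
  rintro Q ⟨hQA, hQ⟩
  rw [← Subgroup.pointwise_smul_subset_iff]
  exact le_sy (Subgroup.pointwise_smul_le_pointwise_smul_iff.mpr hQA) (isPGroup_conj hQ g)

theorem sy_conj {G : Type*} [Group G] (p : ℕ) (A : Subgroup G) (g : G) :
    MulAut.conj g • sy p A = sy p (MulAut.conj g • A) := by
  apply le_antisymm (conj_sy_le p A g)
  rw [Subgroup.subset_pointwise_smul_iff]
  have h := conj_sy_le p (MulAut.conj g • A) g⁻¹
  rw [map_inv] at h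
  rw [inv_smul_smul] at h
  exact h

theorem sy_normal {G : Type*} [Group G] (p : ℕ) (A : Subgroup G) {a : G} (ha : a ∈ A) :
    MulAut.conj a • sy p A = sy p A := by
  rw [sy_conj, Subgroup.conj_smul_eq_self_of_mem ha]

theorem sy_eq_map {G : Type*} [Group G] [Finite G] {p : ℕ} [Fact p.Prime] (A : Subgroup G)
    (hA : Group.IsNilpotent A) (P : Sylow p A) :
    sy p A = (P : Subgroup A).map A.subtype := by
  haveI : (P : Subgroup A).Normal :=
    Sylow.normal_of_normalizerCondition Group.normalizerCondition_of_isNilpotent P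
  apply le_antisymm
  · apply sSup_le
    rintro Q ⟨hQA, hQ⟩
    have h1 : IsPGroup p (Q.subgroupOf A) := hQ.comap_subtype
    obtain ⟨P', hP'⟩ := h1.exists_le_sylow
    have h2 : (P : Subgroup A) ≤ P' := P.isPGroup'.le_sylow_of_normal P'
    have h3 : (P' : Subgroup A) = P := P.is_maximal' P'.isPGroup' h2
    have h4 : Q.subgroupOf A ≤ P := h3 ▸ hP'
    have h5 := Subgroup.map_mono (f := A.subtype) h4
    rw [Subgroup.subgroupOf_map_subtype, inf_eq_left.mpr hQA] at h5
    exact h5
  · exact le_sy (Subgroup.map_subtype_le _) (P.isPGroup'.map _)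

theorem sy_isPGroup {G : Type*} [Group G] [Finite G] {p : ℕ} (hp : p.Prime) (A : Subgroup G)
    (hA : Group.IsNilpotent A) : IsPGroup p (sy p A) := by
  haveI := Fact.mk hp
  rw [sy_eq_map A hA (default : Sylow p A)]
  exact (Sylow.isPGroup' _).map _

theorem sy_card {G : Type*} [Group G] [Finite G] {p : ℕ} (hp : p.Prime) (A : Subgroup G)
    (hA : Group.IsNilpotent A) : Nat.card (sy p A) = p ^ (Nat.card A).factorization p := by
  haveI := Fact.mk hp
  rw [sy_eq_map A hA (default : Sylow p A),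
    Subgroup.card_map_of_injective (Subgroup.subtype_injective A)]
  exact Sylow.card_eq_multiplicity _

theorem sy_ne_bot_iff {G : Type*} [Group G] [Finite G] {p : ℕ} (hp : p.Prime) (A : Subgroup G)
    (hA : Group.IsNilpotent A) : sy p A ≠ ⊥ ↔ p ∣ Nat.card A := by
  rw [← Subgroup.one_lt_card_iff_ne_bot, sy_card hp A hA]
  constructor
  · intro h
    by_contra hnd
    rw [Nat.factorization_eq_zero_of_not_dvd hnd] at h
    simp at h
  · intro h
    have h1 : 0 < (Nat.card A).factorization p :=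
      hp.factorization_pos_of_dvd Nat.card_pos.ne' h
    exact Nat.one_lt_pow h1.ne' hp.one_lt

theorem sy_commute {G : Type*} [Group G] [Finite G] (A : Subgroup G) (hA : Group.IsNilpotent A)
    {p q : ℕ} (hp : p.Prime) (hq : q.Prime) (hpq : p ≠ q) :
    ∀ x ∈ sy p A, ∀ y ∈ sy q A, x * y = y * x := by
  intro x hx y hy
  haveI := Fact.mk hp
  haveI := Fact.mk hq
  have hxA : x ∈ A := sy_le p A hx
  rw [sy_eq_map A hA (default : Sylow q A)] at hy
  obtain ⟨y', hy', rfl⟩ := hy
  have hpg := sy_isPGroup hp A hA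
  obtain ⟨k, hk⟩ := (IsPGroup.iff_orderOf.mp hpg) ⟨x, hx⟩
  have hox : orderOf x = p ^ k := by
    rw [← hk]; exact (Subgroup.orderOf_mk x hx).symm
  have hox' : orderOf (⟨x, hxA⟩ : A) = p ^ k := by
    rw [← hox]; exact Subgroup.orderOf_mk x hxA
  have hcop : (orderOf (⟨x, hxA⟩ : A)).Coprime q := by
    rw [hox']
    exact Nat.Coprime.pow_left k ((Nat.coprime_primes hp hq).mpr hpq)
  have h := commute_of_coprime_of_nilpotent (default : Sylow q A) ⟨x, hxA⟩ hcop y' hy'
  have h2 := congrArg Subtype.val h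
  simpa using h2

theorem eq_of_sy_le {G : Type*} [Group G] [Finite G] (A : Subgroup G) (hA : Group.IsNilpotent A)
    (K : Subgroup G) (hK : K ≤ A) (h : ∀ t : ℕ, t.Prime → sy t A ≤ K) : K = A := by
  have hdvd : Nat.card A ∣ Nat.card K := by
    rw [← Nat.factorization_le_iff_dvd Nat.card_pos.ne' Nat.card_pos.ne']
    intro t
    by_cases ht : t.Prime
    · have h1 := Subgroup.card_dvd_of_le (h t ht)
      rw [sy_card ht A hA] at h1
      exact (ht.pow_dvd_iff_le_factorization Nat.card_pos.ne').mp h1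
    · rw [Nat.factorization_eq_zero_of_not_prime _ ht]
      exact Nat.zero_le _
  exact Subgroup.eq_of_le_of_card_ge hK (Nat.le_of_dvd Nat.card_pos hdvd)

theorem central_of_sy_central {G : Type*} [Group G] [Finite G] (A : Subgroup G)
    (hA : Group.IsNilpotent A) {p : ℕ} (hp : p.Prime) (z : G) (hz : z ∈ sy p A)
    (hc : ∀ x ∈ sy p A, z * x = x * z) : ∀ a ∈ A, z * a = a * z := by
  have h := eq_of_sy_le A hA (A ⊓ Subgroup.centralizer {z}) inf_le_left (by
    intro t ht
    apply le_inf (sy_le t A)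
    intro x hx
    rw [Subgroup.mem_centralizer_iff]
    intro y hy
    rw [Set.mem_singleton_iff] at hy
    subst hy
    by_cases htp : t = p
    · subst htp; exact hc x hx
    · exact sy_commute A hA hp ht (Ne.symm htp) y hz x hx)
  intro a ha
  have h1 : a ∈ A ⊓ Subgroup.centralizer {z} := by rw [h]; exact ha
  have h2 := Subgroup.mem_centralizer_iff.mp h1.2 z rfl
  exact h2

end Cfsg.Agent.Lib.Helper13
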