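import Mathlib

set_option autoImplicit false

namespace Cfsg.Agent.Lib.Helper13

open scoped Pointwise

/-- The number of cosets `aB` with `a ∈ A` is the relative index of `B` in `A`. -/
theorem card_image_mk_eq_relIndex {G : Type*} [Group G] (A B : Subgroup G) :
    Nat.card ((fun x : G => (x : G ⧸ B)) '' (A : Set G)) = B.relIndex A := by
  have h3 := MulAction.index_stabilizer (G := ↥A) (x := ((1 : G) : G ⧸ B))
  have h4 : MulAction.stabilizer ↥A ((1 : G) : G ⧸ B) = B.subgroupOf A := by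
    ext a
    rw [MulAction.mem_stabilizer_iff, Subgroup.mem_subgroupOf]
    show (((a : G) * 1 : G) : G ⧸ B) = ((1 : G) : G ⧸ B) ↔ (a : G) ∈ B
    rw [mul_one, QuotientGroup.eq]
    simp
  have h5 : MulAction.orbit ↥A ((1 : G) : G ⧸ B) = (fun x : G => (x : G ⧸ B)) '' (A : Set G) := by
    ext y
    constructor
    · rintro ⟨a, rfl⟩
      refine ⟨a, a.2, ?_⟩
      show _ = (((a : G) * 1 : G) : G ⧸ B)
      rw [mul_one]
    · rintro ⟨a, ha, rfl⟩
      refine ⟨⟨a, ha⟩, ?_⟩
      show (((a : G) * 1 : G) : G ⧸ B) = _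
      rw [mul_one]
  rw [h4, h5] at h3
  rw [Nat.card_coe_set_eq]
  exact h3.symm

/-- The product formula `|AB| |A ∩ B| = |A| |B|` for subgroups of a group. -/
theorem card_mul_set {G : Type*} [Group G] (A B : Subgroup G) :
    Nat.card ((A : Set G) * (B : Set G) : Set G) * Nat.card ↥(A ⊓ B) = Nat.card A * Nat.card B := by
  have h1 := Subgroup.card_mul_eq_card_subgroup_mul_card_quotient B (A : Set G)
  have h2 := card_image_mk_eq_relIndex A B
  rw [h1, h2]
  have h6 := Subgroup.relIndex_mul_relIndex (H := (⊥ : Subgroup G)) (K := A ⊓ B) (L := A)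
    bot_le inf_le_left
  rw [Subgroup.relIndex_bot_left, Subgroup.relIndex_bot_left, Subgroup.inf_relIndex_left] at h6
  rw [← h6]; ring

/-- If `G = HK` then `|G| |H ∩ K| = |H| |K|`. -/
theorem card_mul_of_factorization {G : Type*} [Group G] (H K : Subgroup G)
    (hHK : ∀ g : G, ∃ h ∈ H, ∃ k ∈ K, g = h * k) :
    Nat.card G * Nat.card ↥(H ⊓ K) = Nat.card H * Nat.card K := by
  have h1 := card_mul_set H K
  have h2 : ((H : Set G) * (K : Set G) : Set G) = Set.univ := by
    apply Set.eq_univ_of_forall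
    intro g
    obtain ⟨h, hh, k, hk, rfl⟩ := hHK g
    exact Set.mul_mem_mul hh hk
  rw [h2, Nat.card_congr (Equiv.Set.univ G)] at h1
  exact h1

end Cfsg.Agent.Lib.Helper13
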