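import Mathlib
import Cfsg.Agent.Lib.Helper13.Basic
import Cfsg.Agent.Lib.Helper13.Prod
import Cfsg.Agent.Lib.Helper13.Avoid
import Cfsg.Agent.Lib.Helper13.KW1
import Cfsg.Agent.S0561

/-!
# General wrappers for the Kegel–Wielandt development (helper13)
-/

set_option autoImplicit false

namespace Cfsg.Agent.Lib.Helper13

open scoped Pointwise

theorem kw_mem_normalizer_iff {G : Type*} [Group G] (g : G) (H : Subgroup G) :
    g ∈ Subgroup.normalizer (H : Set G) ↔ MulAut.conj g • H = H := by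
  constructor
  · intro hg
    ext y
    rw [mem_conj_smul_iff]
    exact (Subgroup.mem_normalizer_iff''.mp hg y).symm
  · intro h
    rw [Subgroup.mem_normalizer_iff'']
    intro y
    have h1 : y ∈ MulAut.conj g • H ↔ y ∈ H := by rw [h]
    rw [mem_conj_smul_iff] at h1
    exact h1.symm

theorem kw_nilpotent_of_le {G : Type*} [Group G] {H K : Subgroup G} (hK : Group.IsNilpotent K)
    (h : H ≤ K) : Group.IsNilpotent H := by
  haveI := hK
  exact Group.nilpotent_of_mulEquiv (Subgroup.subgroupOfEquivOfLe h)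

theorem kw_solvable_of_le {G : Type*} [Group G] {H K : Subgroup G} (hK : Group.IsSolvable K)
    (h : H ≤ K) : Group.IsSolvable H := by
  haveI := hK
  exact Group.isSolvable_of_isSolvable_injective (Subgroup.inclusion_injective h)

theorem kw_nilpotent_conj {G : Type*} [Group G] {A : Subgroup G} (hA : Group.IsNilpotent A)
    (g : G) : Group.IsNilpotent (MulAut.conj g • A : Subgroup G) := by
  haveI := hA
  exact Group.nilpotent_of_mulEquiv (Subgroup.equivSMul (MulAut.conj g) A)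

theorem kw_card_conj {G : Type*} [Group G] (A : Subgroup G) (g : G) :
    Nat.card (MulAut.conj g • A : Subgroup G) = Nat.card A :=
  (Nat.card_congr (Subgroup.equivSMul (MulAut.conj g) A).toEquiv).symm

/-- An element normalizing `A` whose order is coprime to the index of `A` lies in `A`. -/
theorem kw_mem_of_mem_normalizer {G : Type*} [Group G] [Finite G] (A : Subgroup G) (x : G)
    (hx : x ∈ Subgroup.normalizer (A : Set G)) (hc : (orderOf x).Coprime A.index) : x ∈ A := by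
  let N := Subgroup.normalizer (A : Set G)
  have hAN : A ≤ N := Subgroup.le_normalizer
  haveI : (A.subgroupOf N).Normal := Subgroup.normal_in_normalizer
  let x' : N := ⟨x, hx⟩
  let q : N ⧸ A.subgroupOf N := QuotientGroup.mk x'
  have h1 : orderOf q ∣ orderOf x := by
    apply orderOf_dvd_of_pow_eq_one
    have h2 : x' ^ orderOf x = 1 := by
      apply Subtype.ext
      simp [x', pow_orderOf_eq_one]
    change (QuotientGroup.mk (x' ^ orderOf x) : N ⧸ A.subgroupOf N) = 1
    rw [h2]; rfl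
  have h3 : orderOf q ∣ A.index := by
    have h4 : orderOf q ∣ Nat.card (N ⧸ A.subgroupOf N) := orderOf_dvd_natCard q
    have h5 : Nat.card (N ⧸ A.subgroupOf N) = A.relIndex N := rfl
    rw [h5] at h4
    exact h4.trans (Subgroup.relIndex_dvd_index_of_le hAN)
  have h6 : orderOf q = 1 := Nat.eq_one_of_dvd_coprimes hc h1 h3
  have h7 : q = 1 := orderOf_eq_one_iff.mp h6
  have h8 : x' ∈ A.subgroupOf N := (QuotientGroup.eq_one_iff x').mp h7
  exact Subgroup.mem_subgroupOf.mp h8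

/-- Transport of S0561 to a solvable factorized subgroup. -/
theorem kw_mul_subgroup {G : Type*} [Group G] [Finite G] (L : Subgroup G) (hs : Group.IsSolvable L)
    (H K A₀ B₀ : Subgroup G) (hH : H ≤ L) (hK : K ≤ L)
    (hf : ∀ g ∈ L, ∃ a ∈ H, ∃ b ∈ K, g = a * b)
    (hA₀ : A₀ ≤ H) (hA₀n : ∀ a ∈ H, MulAut.conj a • A₀ = A₀)
    (hB₀ : B₀ ≤ K) (hB₀n : ∀ b ∈ K, MulAut.conj b • B₀ = B₀)
    (hAh : (Nat.card A₀).Coprime (A₀.relIndex L)) (hBh : (Nat.card B₀).Coprime (B₀.relIndex L)) :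
    ∃ S : Subgroup G, S ≤ L ∧ (S : Set G) = (A₀ : Set G) * (B₀ : Set G) := by
  haveI := hs
  have hAL : A₀ ≤ L := hA₀.trans hH
  have hBL : B₀ ≤ L := hB₀.trans hK
  have hfact : ∀ g : L, ∃ h ∈ H.subgroupOf L, ∃ k ∈ K.subgroupOf L, g = h * k := by
    intro g
    obtain ⟨a, ha, b, hb, e⟩ := hf g.1 g.2
    exact ⟨⟨a, hH ha⟩, Subgroup.mem_subgroupOf.mpr ha, ⟨b, hK hb⟩, Subgroup.mem_subgroupOf.mpr hb,
      Subtype.ext e⟩
  have hAn : ((A₀.subgroupOf L).subgroupOf (H.subgroupOf L)).Normal := by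
    constructor
    intro n hn g
    rw [Subgroup.mem_subgroupOf, Subgroup.mem_subgroupOf] at hn ⊢
    have h1 := hA₀n (g : L) (Subgroup.mem_subgroupOf.mp g.2)
    have h2 := conj_mem_conj_smul ((g : L) : G) hn
    rw [h1] at h2
    simpa using h2
  have hBn : ((B₀.subgroupOf L).subgroupOf (K.subgroupOf L)).Normal := by
    constructor
    intro n hn g
    rw [Subgroup.mem_subgroupOf, Subgroup.mem_subgroupOf] at hn ⊢
    have h1 := hB₀n (g : L) (Subgroup.mem_subgroupOf.mp g.2)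
    have h2 := conj_mem_conj_smul ((g : L) : G) hn
    rw [h1] at h2
    simpa using h2
  have hcA : Nat.card (A₀.subgroupOf L) = Nat.card A₀ :=
    Nat.card_congr (Subgroup.subgroupOfEquivOfLe hAL).toEquiv
  have hcB : Nat.card (B₀.subgroupOf L) = Nat.card B₀ :=
    Nat.card_congr (Subgroup.subgroupOfEquivOfLe hBL).toEquiv
  obtain ⟨S', hS'⟩ := Cfsg.Agent.S0561.result (G := L) (H.subgroupOf L) (K.subgroupOf L)
    (A₀.subgroupOf L) (B₀.subgroupOf L) hfact
    (fun x hx => Subgroup.mem_subgroupOf.mpr (hA₀ (Subgroup.mem_subgroupOf.mp hx))) hAn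
    (fun x hx => Subgroup.mem_subgroupOf.mpr (hB₀ (Subgroup.mem_subgroupOf.mp hx))) hBn
    (by rw [hcA]; exact hAh) (by rw [hcB]; exact hBh) 1 1
  rw [map_one, one_smul, one_smul] at hS'
  refine ⟨S'.map L.subtype, Subgroup.map_subtype_le _, ?_⟩
  ext y
  constructor
  · rintro ⟨y', hy', rfl⟩
    have h1 : y' ∈ (S' : Set L) := hy'
    rw [hS'] at h1
    obtain ⟨a, ha, b, hb, e⟩ := h1
    refine ⟨(a : G), Subgroup.mem_subgroupOf.mp ha, (b : G), Subgroup.mem_subgroupOf.mp hb, ?_⟩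
    rw [← e]; rfl
  · rintro ⟨a, ha, b, hb, rfl⟩
    have h1 : (⟨a, hAL ha⟩ : L) * ⟨b, hBL hb⟩ ∈ (S' : Set L) := by
      rw [hS']
      exact Set.mul_mem_mul (Subgroup.mem_subgroupOf.mpr ha) (Subgroup.mem_subgroupOf.mpr hb)
    exact ⟨_, h1, rfl⟩

theorem kw_card_of_coe_eq_mul {G : Type*} [Group G] [Finite G] (S X C : Subgroup G)
    (h : (S : Set G) = (X : Set G) * (C : Set G)) (hd : X ⊓ C = ⊥) :
    Nat.card S = Nat.card X * Nat.card C := by
  have h1 := card_mul_set X C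
  rw [hd, Subgroup.card_bot, mul_one, ← h] at h1
  exact h1

theorem kw_card_of_fact {G : Type*} [Group G] [Finite G] (A B L : Subgroup G) (hd : A ⊓ B = ⊥)
    (hf : ∀ g ∈ L, ∃ a ∈ A ⊓ L, ∃ b ∈ B ⊓ L, g = a * b) :
    Nat.card L = Nat.card (A ⊓ L : Subgroup G) * Nat.card (B ⊓ L : Subgroup G) := by
  apply kw_card_of_coe_eq_mul
  · ext y
    constructor
    · intro hy
      obtain ⟨a, ha, b, hb, e⟩ := hf y hy
      exact ⟨a, ha, b, hb, e.symm⟩
    · rintro ⟨a, ha, b, hb, rfl⟩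
      exact L.mul_mem ha.2 hb.2
  · rw [eq_bot_iff]
    intro y hy
    have : y ∈ A ⊓ B := ⟨hy.1.1, hy.2.1⟩
    rw [hd] at this
    exact this

/-- A nontrivial solvable subgroup has a nontrivial normal subgroup of prime power order. -/
theorem kw_exists_normal_pgroup {G : Type*} [Group G] [Finite G] (R : Subgroup G)
    (hR : Group.IsSolvable R) (hR1 : R ≠ ⊥) :
    ∃ X : Subgroup G, X ≤ R ∧ X ≠ ⊥ ∧ (∀ g ∈ R, MulAut.conj g • X = X) ∧
      ∃ t : ℕ, t.Prime ∧ IsPGroup t X := by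
  haveI := hR
  have htop : (⊤ : Subgroup R) ≠ ⊥ := by
    intro h
    apply hR1
    rw [eq_bot_iff]
    intro x hx
    have h1 : (⟨x, hx⟩ : R) ∈ (⊤ : Subgroup R) := Subgroup.mem_top _
    rw [h] at h1
    have h2 := Subgroup.mem_bot.mp h1
    exact Subgroup.mem_bot.mpr (congrArg Subtype.val h2)
  obtain ⟨N, -, hNn, hN1, hmin⟩ := exists_minimal_normal_le (⊤ : Subgroup R) inferInstance htop
  haveI : Group.IsSolvable N := inferInstance
  obtain ⟨p, hp, -, -, -, hpg⟩ := minimal_normal_solvable N hNn hN1 hmin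
  refine ⟨N.map R.subtype, Subgroup.map_subtype_le _, ?_, ?_, p, hp, hpg.map _⟩
  · intro h
    apply hN1
    rw [eq_bot_iff]
    intro x hx
    have h1 : (x : G) ∈ N.map R.subtype := ⟨x, hx, rfl⟩
    rw [h] at h1
    exact Subgroup.mem_bot.mpr (Subtype.ext (Subgroup.mem_bot.mp h1))
  · intro g hg
    have key : ∀ g ∈ R, MulAut.conj g • N.map R.subtype ≤ N.map R.subtype := by
      intro g hg y hy
      rw [mem_conj_smul_iff] at hy
      obtain ⟨n, hn, e⟩ := hy
      have h1 : (⟨g, hg⟩ : R) * n * (⟨g, hg⟩ : R)⁻¹ ∈ N := hNn.conj_mem n hn ⟨g, hg⟩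
      refine ⟨_, h1, ?_⟩
      simp only [Subgroup.coe_subtype, Subgroup.coe_mul, Subgroup.coe_inv]
      have e' : (n : G) = g⁻¹ * y * g := e
      rw [e']; group
    apply le_antisymm (key g hg)
    rw [Subgroup.subset_pointwise_smul_iff, ← map_inv]
    exact key g⁻¹ (R.inv_mem hg)

/-- A normal `t`-subgroup is contained in every subgroup of index prime to `t`. -/
theorem kw_normal_pgroup_le {G : Type*} [Group G] [Finite G] (S X K : Subgroup G) (hXS : X ≤ S)
    (hn : ∀ g ∈ S, MulAut.conj g • X = X) {t : ℕ} (ht : t.Prime)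
    (hX : IsPGroup t X) (hK : ¬ t ∣ K.relIndex S) : X ≤ K := by
  haveI : (X.subgroupOf S).Normal := by
    constructor
    intro n hn' g
    rw [Subgroup.mem_subgroupOf] at hn' ⊢
    have h2 := conj_mem_conj_smul (g : G) hn'
    rw [hn g g.2] at h2
    simpa using h2
  have h1 := normal_pgroup_le ht (X.subgroupOf S) (K.subgroupOf S) hX.comap_subtype
    ((Nat.Prime.coprime_iff_not_dvd ht).mpr hK)
  intro x hx
  have h2 : (⟨x, hXS hx⟩ : S) ∈ X.subgroupOf S := Subgroup.mem_subgroupOf.mpr hx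
  exact Subgroup.mem_subgroupOf.mp (h1 h2)

/-- Sylow containment by cardinality. -/
theorem kw_exists_conj_ge {G : Type*} [Group G] [Finite G] {p : ℕ} (hp : p.Prime)
    (P Q : Subgroup G) (hP : Nat.card P = p ^ (Nat.card G).factorization p) (hQ : IsPGroup p Q) :
    ∃ g : G, Q ≤ MulAut.conj g • P := by
  haveI := Fact.mk hp
  obtain ⟨Q', hQ'⟩ := hQ.exists_le_sylow
  obtain ⟨g, hg⟩ := MulAction.exists_smul_eq G (Sylow.ofCard P hP) Q'
  refine ⟨g, ?_⟩
  have h1 : (Q' : Subgroup G) = MulAut.conj g • P := by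
    rw [← hg, Sylow.coe_subgroup_smul, Sylow.coe_ofCard]
  rw [← h1]
  exact hQ'

theorem kw_mem_sy {G : Type*} [Group G] [Finite G] {p : ℕ} (A : Subgroup G) (x : G) (hx : x ∈ A)
    (k : ℕ) (ho : orderOf x = p ^ k) : x ∈ sy p A := by
  have h1 : Subgroup.zpowers x ≤ sy p A := by
    apply le_sy ((Subgroup.zpowers_le).mpr hx)
    apply IsPGroup.of_card (n := k)
    rw [Nat.card_zpowers, ho]
  exact h1 (Subgroup.mem_zpowers x)

end Cfsg.Agent.Lib.Helper13
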