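import Mathlib
import Cfsg.Agent.Lib.Helper13.KW2
import Cfsg.Agent.S0559
import Cfsg.Agent.S0562
import Cfsg.Agent.S0566

/-!
# Minimal counterexample to Wielandt's theorem on coprime nilpotent products: basic steps
(helper13)
-/

set_option autoImplicit false

namespace Cfsg.Agent.Lib.Helper13

open scoped Pointwise

theorem kw_conj_smul_eq_of_commute {G : Type*} [Group G] {x : G} {X : Subgroup G}
    (hc : ∀ y ∈ X, x * y = y * x) : MulAut.conj x • X = X := by
  ext y
  rw [mem_conj_smul_iff]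
  constructor
  · intro hy
    have h2 := hc _ hy
    have h3 : y = x⁻¹ * y * x := by
      calc y = x * (x⁻¹ * y * x) * x⁻¹ := by group
        _ = (x⁻¹ * y * x) * x * x⁻¹ := by rw [h2]
        _ = x⁻¹ * y * x := by group
    rw [h3]; exact hy
  · intro hy
    have h2 := hc y hy
    have h3 : x⁻¹ * y * x = y := by
      calc x⁻¹ * y * x = x⁻¹ * (y * x) := by group
        _ = x⁻¹ * (x * y) := by rw [h2]
        _ = y := by group
    rw [h3]; exact hy

theorem kw_card_mul_relIndex {G : Type*} [Group G] {H K : Subgroup G} (h : H ≤ K) :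
    Nat.card H * H.relIndex K = Nat.card K := by
  have h1 := (H.subgroupOf K).card_mul_index
  rw [Nat.card_congr (Subgroup.subgroupOfEquivOfLe h).toEquiv] at h1
  exact h1

theorem kw_mul_of_normalizes {G : Type*} [Group G] (X C R : Subgroup G) (hX : X ≤ R) (hC : C ≤ R)
    (hn : ∀ c ∈ C, MulAut.conj c • X = X) :
    ∃ S : Subgroup G, S ≤ R ∧ (S : Set G) = (X : Set G) * (C : Set G) := by
  have hperm : MulPerm X C := by
    intro x hx c hc
    refine ⟨c * x * c⁻¹, ?_, c, hc, by group⟩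
    have h1 := conj_mem_conj_smul c hx
    rw [hn c hc] at h1
    exact h1
  exact ⟨X ⊔ C, sup_le hX hC, coe_sup_of_mulPerm hperm⟩

/-- Transport of S0562: the normalizer of `A₀ ⊔ B₀` is factorized. -/
theorem kw_normalizer_fact {G : Type*} [Group G] [Finite G] {A B : Subgroup G}
    (hf : ∀ g : G, ∃ a ∈ A, ∃ b ∈ B, g = a * b) (A₀ B₀ : Subgroup G) (hA₀ : A₀ ≤ A)
    (hA₀n : ∀ a ∈ A, MulAut.conj a • A₀ = A₀) (hB₀ : B₀ ≤ B)
    (hB₀n : ∀ b ∈ B, MulAut.conj b • B₀ = B₀) :
    ∀ g ∈ Subgroup.normalizer ((A₀ ⊔ B₀ : Subgroup G) : Set G),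
      ∃ a ∈ A ⊓ Subgroup.normalizer ((A₀ ⊔ B₀ : Subgroup G) : Set G),
      ∃ b ∈ B ⊓ Subgroup.normalizer ((A₀ ⊔ B₀ : Subgroup G) : Set G), g = a * b := by
  have hAn : (A₀.subgroupOf A).Normal := by
    constructor
    intro n hn g
    rw [Subgroup.mem_subgroupOf] at hn ⊢
    have h2 := conj_mem_conj_smul (g : G) hn
    rw [hA₀n g g.2] at h2
    simpa using h2
  have hBn : (B₀.subgroupOf B).Normal := by
    constructor
    intro n hn g
    rw [Subgroup.mem_subgroupOf] at hn ⊢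
    have h2 := conj_mem_conj_smul (g : G) hn
    rw [hB₀n g g.2] at h2
    simpa using h2
  intro g hg
  obtain ⟨a, ha, b, hb, e⟩ := Cfsg.Agent.S0562.result A B A₀ B₀ hf hA₀ hAn hB₀ hBn g hg
  exact ⟨a, ⟨ha.2, ha.1⟩, b, ⟨hb.2, hb.1⟩, e⟩

/-- A nontrivial subgroup of the Sylow part of a nilpotent group that is normalized by the Sylow
part contains a central element of prime order. -/
theorem kw_exists_central_prime {G : Type*} [Group G] [Finite G] (A : Subgroup G)
    (hA : Group.IsNilpotent A) {p : ℕ} (hp : p.Prime) (X : Subgroup G) (hX : X ≤ sy p A)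
    (hX1 : X ≠ ⊥) (hn : ∀ a ∈ sy p A, MulAut.conj a • X = X) :
    ∃ z ∈ X, orderOf z = p ∧ ∀ a ∈ A, z * a = a * z := by
  haveI := Fact.mk hp
  have hP : IsPGroup p (sy p A) := sy_isPGroup hp A hA
  haveI hXn : (X.subgroupOf (sy p A)).Normal := by
    constructor
    intro n hn' g
    rw [Subgroup.mem_subgroupOf] at hn' ⊢
    have h2 := conj_mem_conj_smul (g : G) hn'
    rw [hn g g.2] at h2
    simpa using h2
  letI : MulAction (sy p A) (X.subgroupOf (sy p A)) :=
    MulAction.compHom (X.subgroupOf (sy p A)) (MulAut.conjNormal (H := X.subgroupOf (sy p A)))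
  have hX'p : IsPGroup p (X.subgroupOf (sy p A)) := (hP.to_le hX).comap_subtype
  have hnt : ∃ x ∈ X, x ≠ 1 := by
    by_contra hcon
    push Not at hcon
    apply hX1
    rw [eq_bot_iff]
    intro x hx
    exact Subgroup.mem_bot.mpr (hcon x hx)
  obtain ⟨x₀, hx₀, hx₀1⟩ := hnt
  have hcard : p ∣ Nat.card (X.subgroupOf (sy p A)) := by
    have h1 : Nat.card (X.subgroupOf (sy p A)) ≠ 1 := by
      intro h
      have hsub : Subsingleton (X.subgroupOf (sy p A)) :=
        (Nat.card_eq_one_iff_unique.mp h).1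
      have h2 : (⟨⟨x₀, hX hx₀⟩, Subgroup.mem_subgroupOf.mpr hx₀⟩ : X.subgroupOf (sy p A)) = 1 :=
        Subsingleton.elim _ _
      apply hx₀1
      have h3 := congrArg (fun y : X.subgroupOf (sy p A) => ((y : sy p A) : G)) h2
      simpa using h3
    exact hX'p.card_eq_or_dvd.resolve_left h1
  have hfix : (1 : X.subgroupOf (sy p A)) ∈
      MulAction.fixedPoints (sy p A) (X.subgroupOf (sy p A)) := by
    intro g
    change MulAut.conjNormal g (1 : X.subgroupOf (sy p A)) = 1
    exact map_one _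
  obtain ⟨b, hb, hb1⟩ := hP.exists_fixed_point_of_prime_dvd_card_of_fixed_point _ hcard hfix
  have hbX : ((b : sy p A) : G) ∈ X := Subgroup.mem_subgroupOf.mp b.2
  have hbne : ((b : sy p A) : G) ≠ 1 := by
    intro h
    apply hb1
    symm
    apply Subtype.ext; apply Subtype.ext
    simpa using h
  have hbc : ∀ x ∈ sy p A, ((b : sy p A) : G) * x = x * ((b : sy p A) : G) := by
    intro x hx
    have h1 : (⟨x, hx⟩ : sy p A) • b = b := hb ⟨x, hx⟩
    have h2 : MulAut.conjNormal (⟨x, hx⟩ : sy p A) b = b := h1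
    have h3 := congrArg (fun y : X.subgroupOf (sy p A) => ((y : sy p A) : G)) h2
    simp only [MulAut.conjNormal_apply] at h3
    have h4 : x * ((b : sy p A) : G) * x⁻¹ = ((b : sy p A) : G) := by simpa using h3
    calc ((b : sy p A) : G) * x = (x * ((b : sy p A) : G) * x⁻¹) * x := by rw [h4]
      _ = x * ((b : sy p A) : G) := by group
  have hz₀P : ((b : sy p A) : G) ∈ sy p A := (b : sy p A).2
  have hdvd : p ∣ orderOf ((b : sy p A) : G) := by
    have h1 : p ∣ orderOf (b : sy p A) := hP.dvd_orderOf (by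
      intro h; apply hbne; rw [h]; rfl)
    have h2 : orderOf ((b : sy p A) : G) = orderOf (b : sy p A) := Subgroup.orderOf_coe _
    rw [h2]; exact h1
  refine ⟨((b : sy p A) : G) ^ (orderOf ((b : sy p A) : G) / p), X.pow_mem hbX _,
    orderOf_pow_orderOf_div (orderOf_pos _).ne' hdvd, ?_⟩
  apply central_of_sy_central A hA hp _ ((sy p A).pow_mem hz₀P _)
  intro x hx
  exact (Commute.pow_left (hbc x hx) _).eq

/-- Ambient hypotheses of a minimal counterexample to Wielandt's theorem. -/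
structure KWAmb (G : Type*) [Group G] : Prop where
  simple : ∀ N : Subgroup G, N.Normal → N = ⊥ ∨ N = ⊤
  nonsolv : ¬ Group.IsSolvable G
  ih : ∀ L A' B' : Subgroup G, L ≠ ⊤ → Group.IsNilpotent A' → Group.IsNilpotent B' →
    (Nat.card A').Coprime (Nat.card B') → A' ≤ L → B' ≤ L →
    (∀ g ∈ L, ∃ a ∈ A', ∃ b ∈ B', g = a * b) → Group.IsSolvable L

/-- A factorization of `G` as a product of nilpotent subgroups of coprime orders, neither of
prime power order. -/
structure KWCfg {G : Type*} [Group G] (A B : Subgroup G) : Prop where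
  nilA : Group.IsNilpotent A
  nilB : Group.IsNilpotent B
  cop : (Nat.card A).Coprime (Nat.card B)
  fact : ∀ g : G, ∃ a ∈ A, ∃ b ∈ B, g = a * b
  twoA : ∀ p : ℕ, ∃ r : ℕ, r.Prime ∧ r ≠ p ∧ r ∣ Nat.card A
  twoB : ∀ p : ℕ, ∃ r : ℕ, r.Prime ∧ r ≠ p ∧ r ∣ Nat.card B

namespace KWCfg

variable {G : Type*} [Group G] {A B : Subgroup G}

theorem symm (h : KWCfg A B) : KWCfg B A where
  nilA := h.nilB
  nilB := h.nilA
  cop := h.cop.symm
  fact := by
    intro g
    obtain ⟨a, ha, b, hb, e⟩ := h.fact g⁻¹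
    refine ⟨b⁻¹, B.inv_mem hb, a⁻¹, A.inv_mem ha, ?_⟩
    rw [← mul_inv_rev, ← e, inv_inv]
  twoA := h.twoB
  twoB := h.twoA

theorem conj [Finite G] (h : KWCfg A B) (x y : G) :
    KWCfg (MulAut.conj x • A) (MulAut.conj y • B) where
  nilA := kw_nilpotent_conj h.nilA x
  nilB := kw_nilpotent_conj h.nilB y
  cop := by rw [kw_card_conj, kw_card_conj]; exact h.cop
  fact := (Cfsg.Agent.S0559.result A B _ _ h.fact ⟨x, rfl⟩ ⟨y, rfl⟩).1
  twoA := by
    intro p
    obtain ⟨r, hr, hne, hd⟩ := h.twoA p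
    exact ⟨r, hr, hne, by rw [kw_card_conj]; exact hd⟩
  twoB := by
    intro p
    obtain ⟨r, hr, hne, hd⟩ := h.twoB p
    exact ⟨r, hr, hne, by rw [kw_card_conj]; exact hd⟩

theorem conjA [Finite G] (h : KWCfg A B) (x : G) : KWCfg (MulAut.conj x • A) B := by
  have h1 := h.conj x 1
  rwa [map_one, one_smul] at h1

theorem conjB [Finite G] (h : KWCfg A B) (y : G) : KWCfg A (MulAut.conj y • B) := by
  have h1 := h.conj 1 y
  rwa [map_one, one_smul] at h1

theorem inf_eq_bot (h : KWCfg A B) : A ⊓ B = ⊥ :=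
  (Subgroup.disjoint_of_coprime_natCard h.cop).eq_bot

theorem eq_one_of_mem (h : KWCfg A B) {x : G} (hA : x ∈ A) (hB : x ∈ B) : x = 1 := by
  have h1 : x ∈ A ⊓ B := ⟨hA, hB⟩
  rw [h.inf_eq_bot] at h1
  exact Subgroup.mem_bot.mp h1

theorem card_eq [Finite G] (h : KWCfg A B) : Nat.card G = Nat.card A * Nat.card B := by
  have h1 := card_mul_of_factorization A B h.fact
  rw [h.inf_eq_bot, Subgroup.card_bot, mul_one] at h1
  exact h1

theorem index_A [Finite G] (h : KWCfg A B) : A.index = Nat.card B := by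
  have h1 := A.card_mul_index
  rw [h.card_eq] at h1
  exact Nat.eq_of_mul_eq_mul_left Nat.card_pos h1

theorem not_dvd_B (h : KWCfg A B) {p : ℕ} (hp : p.Prime) (hpA : p ∣ Nat.card A) :
    ¬ p ∣ Nat.card B := fun hpB =>
  hp.one_lt.ne' (Nat.eq_one_of_dvd_coprimes h.cop hpA hpB)

theorem dvd_or [Finite G] (h : KWCfg A B) {p : ℕ} (hp : p.Prime) (hpG : p ∣ Nat.card G) :
    p ∣ Nat.card A ∨ p ∣ Nat.card B := by
  rw [h.card_eq] at hpG
  exact (Nat.Prime.dvd_mul hp).mp hpG

theorem sy_card_A [Finite G] (h : KWCfg A B) {p : ℕ} (hp : p.Prime) (hpA : p ∣ Nat.card A) :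
    Nat.card (sy p A) = p ^ (Nat.card G).factorization p := by
  rw [sy_card hp A h.nilA, h.card_eq, Nat.factorization_mul Nat.card_pos.ne' Nat.card_pos.ne']
  simp [Nat.factorization_eq_zero_of_not_dvd (h.not_dvd_B hp hpA)]

theorem sy_index_A [Finite G] (h : KWCfg A B) {p : ℕ} (hp : p.Prime) (hpA : p ∣ Nat.card A) :
    ¬ p ∣ (sy p A).index := by
  intro hd
  have h1 := (sy p A).card_mul_index
  rw [h.sy_card_A hp hpA] at h1
  have h2 : p ^ ((Nat.card G).factorization p + 1) ∣ Nat.card G := by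
    have h3 : p ^ (Nat.card G).factorization p * p ∣
        p ^ (Nat.card G).factorization p * (sy p A).index := Nat.mul_dvd_mul_left _ hd
    rw [h1] at h3
    rw [pow_succ]; exact h3
  exact Nat.pow_succ_factorization_not_dvd Nat.card_pos.ne' hp h2

theorem sy_relIndex_A [Finite G] (h : KWCfg A B) {p : ℕ} (hp : p.Prime) (hpA : p ∣ Nat.card A)
    (L : Subgroup G) (hL : sy p A ≤ L) : ¬ p ∣ (sy p A).relIndex L := fun hd =>
  h.sy_index_A hp hpA (hd.trans (Subgroup.relIndex_dvd_index_of_le hL))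

theorem sy_coprime_A [Finite G] (h : KWCfg A B) {p : ℕ} (hp : p.Prime) (hpA : p ∣ Nat.card A)
    (L : Subgroup G) (hL : sy p A ≤ L) :
    (Nat.card (sy p A)).Coprime ((sy p A).relIndex L) := by
  rw [h.sy_card_A hp hpA]
  exact Nat.Coprime.pow_left _ ((Nat.Prime.coprime_iff_not_dvd hp).mpr
    (h.sy_relIndex_A hp hpA L hL))

theorem sy_ne_bot_A [Finite G] (h : KWCfg A B) {p : ℕ} (hp : p.Prime) (hpA : p ∣ Nat.card A) :
    sy p A ≠ ⊥ := (sy_ne_bot_iff hp A h.nilA).mpr hpA

theorem B_ne_top [Finite G] (h : KWCfg A B) : B ≠ ⊤ := by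
  intro hB
  obtain ⟨r, hr, -, hrA⟩ := h.twoA 0
  have h1 := h.card_eq
  rw [hB, Subgroup.card_top] at h1
  have h2 : Nat.card A = 1 := by
    have h3 : 1 * Nat.card G = Nat.card A * Nat.card G := by rw [one_mul]; exact h1
    exact (Nat.eq_of_mul_eq_mul_right Nat.card_pos h3).symm
  rw [h2] at hrA
  exact hr.one_lt.ne' (Nat.dvd_one.mp hrA)

theorem A_ne_top [Finite G] (h : KWCfg A B) : A ≠ ⊤ := h.symm.B_ne_top

theorem exists_conj_sy [Finite G] (h : KWCfg A B) {p : ℕ} (hp : p.Prime) (hpA : p ∣ Nat.card A)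
    (Q : Subgroup G) (hQ : IsPGroup p Q) : ∃ g : G, Q ≤ sy p (MulAut.conj g • A) := by
  obtain ⟨g, hg⟩ := kw_exists_conj_ge hp (sy p A) Q (h.sy_card_A hp hpA) hQ
  exact ⟨g, by rw [← sy_conj]; exact hg⟩

theorem mem_of_normalizer [Finite G] (h : KWCfg A B) {x : G}
    (hx : x ∈ Subgroup.normalizer (A : Set G)) {p : ℕ} (hp : p.Prime) (hpA : p ∣ Nat.card A)
    (k : ℕ) (ho : orderOf x = p ^ k) : x ∈ A := by
  apply kw_mem_of_mem_normalizer A x hx
  rw [h.index_A, ho]
  exact Nat.Coprime.pow_left _ ((Nat.Prime.coprime_iff_not_dvd hp).mpr (h.not_dvd_B hp hpA))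

theorem exists_central [Finite G] (h : KWCfg A B) {p : ℕ} (hp : p.Prime) (hpA : p ∣ Nat.card A) :
    ∃ z ∈ sy p A, orderOf z = p ∧ ∀ a ∈ A, z * a = a * z :=
  kw_exists_central_prime A h.nilA hp (sy p A) le_rfl (h.sy_ne_bot_A hp hpA)
    (fun _ ha => sy_normal p A (sy_le p A ha))

/-- A subgroup of a Sylow part normalized by that Sylow part is normal in `A`. -/
theorem normal_of_sy_le [Finite G] (h : KWCfg A B) {r : ℕ} (hr : r.Prime) (X : Subgroup G)
    (hX : X ≤ sy r A) (hn : ∀ a ∈ sy r A, MulAut.conj a • X = X) :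
    ∀ a ∈ A, MulAut.conj a • X = X := by
  have h1 := eq_of_sy_le A h.nilA (A ⊓ Subgroup.normalizer (X : Set G)) inf_le_left (by
    intro t ht
    apply le_inf (sy_le t A)
    intro x hx
    rw [kw_mem_normalizer_iff]
    by_cases htr : t = r
    · subst htr; exact hn x hx
    · have hc : ∀ y ∈ X, x * y = y * x := fun y hy =>
        sy_commute A h.nilA ht hr htr x hx y (hX hy)
      ext y
      rw [mem_conj_smul_iff]
      constructor
      · intro hy
        have h2 := hc _ hy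
        have h3 : y = x⁻¹ * y * x := by
          calc y = x * (x⁻¹ * y * x) * x⁻¹ := by group
            _ = (x⁻¹ * y * x) * x * x⁻¹ := by rw [h2]
            _ = x⁻¹ * y * x := by group
        rw [h3]; exact hy
      · intro hy
        have h2 := hc y hy
        have h3 : x⁻¹ * y * x = y := by
          calc x⁻¹ * y * x = x⁻¹ * (y * x) := by group
            _ = x⁻¹ * (x * y) := by rw [h2]
            _ = y := by group
        rw [h3]; exact hy)
  intro a ha
  have h2 : a ∈ A ⊓ Subgroup.normalizer (X : Set G) := by rw [h1]; exact ha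
  exact (kw_mem_normalizer_iff a X).mp h2.2

end KWCfg

namespace KWCfg

variable {G : Type*} [Group G] {A B : Subgroup G}

theorem hall_B [Finite G] (h : KWCfg A B) (L : Subgroup G)
    (hf : ∀ g ∈ L, ∃ a ∈ A ⊓ L, ∃ b ∈ B ⊓ L, g = a * b) :
    (Nat.card (B ⊓ L : Subgroup G)).Coprime ((B ⊓ L : Subgroup G).relIndex L) := by
  have h1 := kw_card_mul_relIndex (inf_le_right : B ⊓ L ≤ L)
  rw [kw_card_of_fact A B L h.inf_eq_bot hf, mul_comm] at h1
  have h2 : (B ⊓ L : Subgroup G).relIndex L = Nat.card (A ⊓ L : Subgroup G) :=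
    Nat.eq_of_mul_eq_mul_right Nat.card_pos h1
  rw [h2]
  exact Nat.Coprime.coprime_dvd_left (Subgroup.card_dvd_of_le inf_le_left)
    (Nat.Coprime.coprime_dvd_right (Subgroup.card_dvd_of_le inf_le_left) h.cop.symm)

end KWCfg

namespace KWAmb

variable {G : Type*} [Group G] [Finite G] {A B : Subgroup G}

theorem center_bot (am : KWAmb G) {g : G} (hg : ∀ x : G, g * x = x * g) : g = 1 := by
  rcases am.simple (Subgroup.center G) inferInstance with h | h
  · have h1 : g ∈ Subgroup.center G := Subgroup.mem_center_iff.mpr (fun x => (hg x).symm)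
    rw [h] at h1; exact Subgroup.mem_bot.mp h1
  · exfalso
    apply am.nonsolv
    apply Group.isSolvable_of_comm
    intro a b
    have h1 : a ∈ Subgroup.center G := by rw [h]; exact Subgroup.mem_top a
    exact ((Subgroup.mem_center_iff.mp h1) b).symm

theorem normalizer_ne_top (am : KWAmb G) (H : Subgroup G) (h1 : H ≠ ⊥) (h2 : H ≠ ⊤) :
    Subgroup.normalizer (H : Set G) ≠ ⊤ := by
  intro h
  have hn : H.Normal := Subgroup.normalizer_eq_top_iff.mp h
  rcases am.simple H hn with h3 | h3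
  · exact h1 h3
  · exact h2 h3

theorem solv (am : KWAmb G) (h : KWCfg A B) (L : Subgroup G) (hL : L ≠ ⊤)
    (hf : ∀ g ∈ L, ∃ a ∈ A ⊓ L, ∃ b ∈ B ⊓ L, g = a * b) : Group.IsSolvable L :=
  am.ih L (A ⊓ L) (B ⊓ L) hL (kw_nilpotent_of_le h.nilA inf_le_left)
    (kw_nilpotent_of_le h.nilB inf_le_left)
    (Nat.Coprime.coprime_dvd_left (Subgroup.card_dvd_of_le inf_le_left)
      (Nat.Coprime.coprime_dvd_right (Subgroup.card_dvd_of_le inf_le_left) h.cop))
    inf_le_right inf_le_right hf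

/-- (K): nontrivial normal subgroups of the factors do not permute to a proper subgroup. -/
theorem stepK (am : KWAmb G) (h : KWCfg A B) (A₀ B₀ S : Subgroup G)
    (hA₀n : ∀ a ∈ A, MulAut.conj a • A₀ = A₀) (hA₀1 : A₀ ≠ ⊥)
    (hB₀n : ∀ b ∈ B, MulAut.conj b • B₀ = B₀) (hB₀1 : B₀ ≠ ⊥)
    (hS : (S : Set G) = (A₀ : Set G) * (B₀ : Set G)) (hST : S ≠ ⊤) : False := by
  obtain ⟨N, hNn, hNT, hN⟩ := Cfsg.Agent.S0566.result A₀ B₀ hA₀1 hB₀1 (by
    intro x
    obtain ⟨a, ha, b, hb, rfl⟩ := h.fact x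
    refine ⟨MulAut.conj a • S, ?_, ?_⟩
    · intro hT
      apply hST
      rw [eq_top_iff]
      intro g _
      have h1 : a * g * a⁻¹ ∈ MulAut.conj a • S := by rw [hT]; exact Subgroup.mem_top _
      rw [mem_conj_smul_iff] at h1
      have h2 : a⁻¹ * (a * g * a⁻¹) * a = g := by group
      rwa [h2] at h1
    · have hB' : MulAut.conj (a * b) • B₀ = MulAut.conj a • B₀ := by
        rw [← conj_smul_conj_smul, hB₀n b hb]
      rw [hB']
      ext y
      constructor
      · intro hy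
        have h1 : a⁻¹ * y * a ∈ (S : Set G) := (mem_conj_smul_iff a y S).mp hy
        rw [hS] at h1
        obtain ⟨u, hu, v, hv, e⟩ := h1
        refine ⟨a * u * a⁻¹, ?_, a * v * a⁻¹, conj_mem_conj_smul a hv, ?_⟩
        · have h2 := conj_mem_conj_smul a hu
          rw [hA₀n a ha] at h2
          exact h2
        · have e' : u * v = a⁻¹ * y * a := e
          calc a * u * a⁻¹ * (a * v * a⁻¹) = a * (u * v) * a⁻¹ := by group
            _ = y := by rw [e']; group
      · rintro ⟨u, hu, v, hv, rfl⟩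
        have hu' : a⁻¹ * u * a ∈ A₀ := by
          have h1 : u ∈ MulAut.conj a • A₀ := by rw [hA₀n a ha]; exact hu
          exact (mem_conj_smul_iff a u A₀).mp h1
        have hv' : a⁻¹ * v * a ∈ B₀ := (mem_conj_smul_iff a v B₀).mp hv
        have h1 : a⁻¹ * (u * v) * a ∈ (S : Set G) := by
          rw [hS]
          refine ⟨_, hu', _, hv', ?_⟩
          group
        exact (mem_conj_smul_iff a (u * v) S).mpr h1)
  rcases am.simple N hNn with h1 | h1
  · rcases hN with h2 | h2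
    · apply hA₀1; rw [eq_bot_iff, ← h1]; exact h2
    · apply hB₀1; rw [eq_bot_iff, ← h1]; exact h2
  · exact hNT h1

/-- (D): nontrivial Sylow parts of the two factors generate `G`. -/
theorem stepD (am : KWAmb G) (h : KWCfg A B) {r s : ℕ} (hr : r.Prime) (hs : s.Prime)
    (hrA : r ∣ Nat.card A) (hsB : s ∣ Nat.card B) : sy r A ⊔ sy s B = ⊤ := by
  by_contra hJ
  have hAr1 := h.sy_ne_bot_A hr hrA
  have hJ1 : sy r A ⊔ sy s B ≠ ⊥ := fun hb => hAr1 (by rw [eq_bot_iff, ← hb]; exact le_sup_left)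
  have hNT := am.normalizer_ne_top _ hJ1 hJ
  have hArn : ∀ a ∈ A, MulAut.conj a • sy r A = sy r A := fun a ha => sy_normal r A ha
  have hBsn : ∀ b ∈ B, MulAut.conj b • sy s B = sy s B := fun b hb => sy_normal s B hb
  have hfact := kw_normalizer_fact h.fact (sy r A) (sy s B) (sy_le r A) hArn (sy_le s B) hBsn
  have hsol := am.solv h _ hNT hfact
  have hJN : sy r A ⊔ sy s B ≤ Subgroup.normalizer ((sy r A ⊔ sy s B : Subgroup G) : Set G) :=
    Subgroup.le_normalizer
  have hArN := (le_sup_left : sy r A ≤ sy r A ⊔ sy s B).trans hJN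
  have hBsN := (le_sup_right : sy s B ≤ sy r A ⊔ sy s B).trans hJN
  obtain ⟨S, hSN, hS⟩ := kw_mul_subgroup _ hsol (A ⊓ _) (B ⊓ _) (sy r A) (sy s B)
    inf_le_right inf_le_right hfact
    (le_inf (sy_le r A) hArN) (fun a ha => hArn a ha.1) (le_inf (sy_le s B) hBsN)
    (fun b hb => hBsn b hb.1)
    (h.sy_coprime_A hr hrA _ hArN) (h.symm.sy_coprime_A hs hsB _ hBsN)
  exact am.stepK h (sy r A) (sy s B) S hArn hAr1 hBsn (h.symm.sy_ne_bot_A hs hsB) hS
    (fun hT => hNT (by rw [eq_top_iff, ← hT]; exact hSN))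

/-- (D'): no nontrivial subgroup of a Sylow part of `B` is normalized by a Sylow part of `A`. -/
theorem stepD' (am : KWAmb G) (h : KWCfg A B) {r s : ℕ} (hr : r.Prime) (hs : s.Prime)
    (hrA : r ∣ Nat.card A) (Q : Subgroup G) (hQ : Q ≤ sy s B) (hQ1 : Q ≠ ⊥)
    (hn : ∀ a ∈ sy r A, MulAut.conj a • Q = Q) : False := by
  obtain ⟨s', hs', hne, hs'B⟩ := h.twoB s
  have hD := am.stepD h hr hs' hrA hs'B
  have hQn : Q.Normal := by
    rw [← Subgroup.normalizer_eq_top_iff, eq_top_iff, ← hD]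
    apply sup_le
    · intro a ha; exact (kw_mem_normalizer_iff a Q).mpr (hn a ha)
    · intro b hb
      rw [kw_mem_normalizer_iff]
      exact kw_conj_smul_eq_of_commute
        (fun y hy => sy_commute B h.nilB hs' hs hne b hb y (hQ hy))
  rcases am.simple Q hQn with h1 | h1
  · exact hQ1 h1
  · apply h.B_ne_top; rw [eq_top_iff, ← h1]; exact hQ.trans (sy_le s B)

/-- (D2): a nontrivial Sylow part of `A` and a nontrivial normal subgroup of `B` generate `G`. -/
theorem stepD2 (am : KWAmb G) (h : KWCfg A B) {r : ℕ} (hr : r.Prime) (hrA : r ∣ Nat.card A)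
    (B₀ : Subgroup G) (hB₀ : B₀ ≤ B) (hB₀n : ∀ b ∈ B, MulAut.conj b • B₀ = B₀) (hB₀1 : B₀ ≠ ⊥) :
    sy r A ⊔ B₀ = ⊤ := by
  by_contra hJ
  have hAr1 := h.sy_ne_bot_A hr hrA
  have hJ1 : sy r A ⊔ B₀ ≠ ⊥ := fun hb => hAr1 (by rw [eq_bot_iff, ← hb]; exact le_sup_left)
  have hNT := am.normalizer_ne_top _ hJ1 hJ
  have hArn : ∀ a ∈ A, MulAut.conj a • sy r A = sy r A := fun a ha => sy_normal r A ha
  have hfact := kw_normalizer_fact h.fact (sy r A) B₀ (sy_le r A) hArn hB₀ hB₀n
  have hsol := am.solv h _ hNT hfact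
  have hJN : sy r A ⊔ B₀ ≤ Subgroup.normalizer ((sy r A ⊔ B₀ : Subgroup G) : Set G) :=
    Subgroup.le_normalizer
  have hArN := (le_sup_left : sy r A ≤ sy r A ⊔ B₀).trans hJN
  have hB₀N := (le_sup_right : B₀ ≤ sy r A ⊔ B₀).trans hJN
  obtain ⟨R, hRN, hR⟩ := kw_mul_subgroup _ hsol (A ⊓ _) (B ⊓ _) (sy r A) (B ⊓ _)
    inf_le_right inf_le_right hfact
    (le_inf (sy_le r A) hArN) (fun a ha => hArn a ha.1) le_rfl
    (fun b hb => Subgroup.conj_smul_eq_self_of_mem hb)
    (h.sy_coprime_A hr hrA _ hArN) (h.hall_B _ hfact)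
  have hArR : sy r A ≤ R := by
    intro x hx
    have h1 : x ∈ (R : Set G) := by rw [hR]; exact ⟨x, hx, 1, Subgroup.one_mem _, mul_one x⟩
    exact h1
  have hBNR : B ⊓ Subgroup.normalizer ((sy r A ⊔ B₀ : Subgroup G) : Set G) ≤ R := by
    intro x hx
    have h1 : x ∈ (R : Set G) := by rw [hR]; exact ⟨1, Subgroup.one_mem _, x, hx, one_mul x⟩
    exact h1
  have hRsol : Group.IsSolvable R := kw_solvable_of_le hsol hRN
  have hR1 : R ≠ ⊥ := fun hb => hAr1 (by rw [eq_bot_iff, ← hb]; exact hArR)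
  obtain ⟨X, hXR, hX1, hXn, t, ht, hXt⟩ := kw_exists_normal_pgroup R hRsol hR1
  have hdisj : sy r A ⊓ (B ⊓ Subgroup.normalizer ((sy r A ⊔ B₀ : Subgroup G) : Set G)) = ⊥ := by
    rw [eq_bot_iff]; intro y hy
    exact Subgroup.mem_bot.mpr (h.eq_one_of_mem (sy_le r A hy.1) hy.2.1)
  have hcardR := kw_card_of_coe_eq_mul R (sy r A) _ hR hdisj
  by_cases htr : t = r
  · subst htr
    have hXA : X ≤ sy t A :=
      kw_normal_pgroup_le R X (sy t A) hXR hXn ht hXt (h.sy_relIndex_A ht hrA R hArR)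
    have hXnA : ∀ a ∈ A, MulAut.conj a • X = X :=
      h.normal_of_sy_le ht X hXA (fun a ha => hXn a (hArR ha))
    have hB₀R : B₀ ≤ R := fun x hx => hBNR ⟨hB₀ hx, hB₀N hx⟩
    obtain ⟨S₂, hS₂R, hS₂⟩ := kw_mul_of_normalizes X B₀ R hXR hB₀R (fun b hb => hXn b (hB₀R hb))
    exact am.stepK h X B₀ S₂ hXnA hX1 hB₀n hB₀1 hS₂
      (fun hT => hNT (by rw [eq_top_iff, ← hT]; exact hS₂R.trans hRN))
  · have hrel : (B ⊓ Subgroup.normalizer ((sy r A ⊔ B₀ : Subgroup G) : Set G)).relIndex R =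
        Nat.card (sy r A) := by
      have h1 := kw_card_mul_relIndex hBNR
      rw [hcardR, mul_comm] at h1
      exact Nat.eq_of_mul_eq_mul_right Nat.card_pos h1
    have hXB : X ≤ B ⊓ Subgroup.normalizer ((sy r A ⊔ B₀ : Subgroup G) : Set G) :=
      kw_normal_pgroup_le R X _ hXR hXn ht hXt (by
        rw [hrel, sy_card hr A h.nilA]
        intro hd
        exact htr ((Nat.prime_dvd_prime_iff_eq ht hr).mp (ht.dvd_of_dvd_pow hd)))
    have hXsB : X ≤ sy t B := le_sy (hXB.trans inf_le_left) hXt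
    exact am.stepD' h hr ht hrA X hXsB hX1 (fun a ha => hXn a (hArR ha))

/-- Step 2: the centralizer of a nontrivial central element of `A` is contained in `A`. -/
theorem cent_le (am : KWAmb G) (h : KWCfg A B) {z : G} (hzA : z ∈ A) (hz1 : z ≠ 1)
    (hzc : ∀ a ∈ A, z * a = a * z) {g : G} (hg : g * z = z * g) : g ∈ A := by
  obtain ⟨a, ha, b, hb, rfl⟩ := h.fact g
  have hbz : b * z = z * b := by
    have h1 : a * (b * z) = a * (z * b) := by
      calc a * (b * z) = a * b * z := by group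
        _ = z * (a * b) := hg
        _ = (z * a) * b := by group
        _ = (a * z) * b := by rw [hzc a ha]
        _ = a * (z * b) := by group
    exact mul_left_cancel h1
  by_contra hab
  have hb1 : b ≠ 1 := by
    intro hb1; apply hab; rw [hb1, mul_one]; exact ha
  have hob : orderOf b ≠ 1 := fun ho => hb1 (orderOf_eq_one_iff.mp ho)
  have htp : (orderOf b).minFac.Prime := Nat.minFac_prime hob
  have htd : (orderOf b).minFac ∣ orderOf b := Nat.minFac_dvd _
  have hob' : orderOf (b ^ (orderOf b / (orderOf b).minFac)) = (orderOf b).minFac :=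
    orderOf_pow_orderOf_div (orderOf_pos b).ne' htd
  have hb'B : b ^ (orderOf b / (orderOf b).minFac) ∈ B := B.pow_mem hb _
  have hb'z : b ^ (orderOf b / (orderOf b).minFac) * z = z * b ^ (orderOf b / (orderOf b).minFac) :=
    (Commute.pow_left hbz _).eq
  have hb'sy : b ^ (orderOf b / (orderOf b).minFac) ∈ sy (orderOf b).minFac B :=
    kw_mem_sy B _ hb'B 1 (by rw [hob', pow_one])
  obtain ⟨s, hs, hne, hsB⟩ := h.twoB (orderOf b).minFac
  have hD := am.stepD2 h.symm hs hsB (Subgroup.zpowers z) ((Subgroup.zpowers_le).mpr hzA) (by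
      intro a ha
      apply kw_conj_smul_eq_of_commute
      intro y hy
      obtain ⟨k, rfl⟩ := Subgroup.mem_zpowers_iff.mp hy
      exact (Commute.zpow_right (show Commute a z from (hzc a ha).symm) k).eq)
    (by
      intro hbot
      apply hz1
      have h1 := Subgroup.mem_zpowers z
      rw [hbot] at h1
      exact Subgroup.mem_bot.mp h1)
  have hcen : ∀ x : G, b ^ (orderOf b / (orderOf b).minFac) * x =
      x * b ^ (orderOf b / (orderOf b).minFac) := by
    intro x
    have hx : x ∈ Subgroup.centralizer {b ^ (orderOf b / (orderOf b).minFac)} := by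
      have h1 : sy s B ⊔ Subgroup.zpowers z ≤
          Subgroup.centralizer {b ^ (orderOf b / (orderOf b).minFac)} := by
        apply sup_le
        · intro y hy
          rw [Subgroup.mem_centralizer_iff]
          intro w hw; rw [Set.mem_singleton_iff] at hw; subst hw
          exact sy_commute B h.nilB htp hs (Ne.symm hne) _ hb'sy y hy
        · rw [Subgroup.zpowers_le, Subgroup.mem_centralizer_iff]
          intro w hw; rw [Set.mem_singleton_iff] at hw; subst hw
          exact hb'z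
      rw [hD] at h1
      exact h1 (Subgroup.mem_top x)
    exact (Subgroup.mem_centralizer_iff.mp hx _ rfl)
  have h1 := am.center_bot hcen
  rw [h1, orderOf_one] at hob'
  exact htp.one_lt.ne' hob'.symm

/-- UL: a nontrivial central element of `A` lies in no other conjugate of `A`. -/
theorem stepUL (am : KWAmb G) (h : KWCfg A B) {z : G} (hzA : z ∈ A) (hz1 : z ≠ 1)
    (hzc : ∀ a ∈ A, z * a = a * z) (g : G) (hzg : z ∈ MulAut.conj g • A) :
    MulAut.conj g • A = A := by
  have hoz : orderOf z ≠ 1 := fun ho => hz1 (orderOf_eq_one_iff.mp ho)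
  have hp : (orderOf z).minFac.Prime := Nat.minFac_prime hoz
  have hpd : (orderOf z).minFac ∣ orderOf z := Nat.minFac_dvd _
  have hoz' : orderOf (z ^ (orderOf z / (orderOf z).minFac)) = (orderOf z).minFac :=
    orderOf_pow_orderOf_div (orderOf_pos z).ne' hpd
  have hz'A : z ^ (orderOf z / (orderOf z).minFac) ∈ A := A.pow_mem hzA _
  have hz'g : z ^ (orderOf z / (orderOf z).minFac) ∈ MulAut.conj g • A :=
    Subgroup.pow_mem _ hzg _
  have hz'c : ∀ a ∈ A, z ^ (orderOf z / (orderOf z).minFac) * a =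
      a * z ^ (orderOf z / (orderOf z).minFac) := fun a ha => (Commute.pow_left (hzc a ha) _).eq
  have hz'1 : z ^ (orderOf z / (orderOf z).minFac) ≠ 1 := by
    intro h1; rw [h1, orderOf_one] at hoz'; exact hp.one_lt.ne' hoz'.symm
  have h' : KWCfg (MulAut.conj g • A) B := h.conjA g
  obtain ⟨r, hr, hne, hrA⟩ := h.twoA (orderOf z).minFac
  have hz'sy : z ^ (orderOf z / (orderOf z).minFac) ∈ sy (orderOf z).minFac (MulAut.conj g • A) :=
    kw_mem_sy _ _ hz'g 1 (by rw [hoz', pow_one])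
  have hle : sy r (MulAut.conj g • A) ≤ sy r A := by
    apply le_sy
    · intro x hx
      apply am.cent_le h hz'A hz'1 hz'c
      exact sy_commute _ h'.nilA hr hp hne x hx _ hz'sy
    · exact sy_isPGroup hr _ h'.nilA
  have heq : sy r (MulAut.conj g • A) = sy r A := by
    apply Subgroup.eq_of_le_of_card_ge hle
    rw [sy_card hr A h.nilA, sy_card hr _ h'.nilA, kw_card_conj]
  obtain ⟨z₂, hz₂sy, hz₂o, hz₂c⟩ := h.exists_central hr hrA
  have hz₂1 : z₂ ≠ 1 := by
    intro h1; rw [h1, orderOf_one] at hz₂o; exact hr.one_lt.ne' hz₂o.symm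
  have hz₂sy' : z₂ ∈ sy r (MulAut.conj g • A) := by rw [heq]; exact hz₂sy
  have hz₂c' : ∀ a ∈ MulAut.conj g • A, z₂ * a = a * z₂ := by
    apply central_of_sy_central _ h'.nilA hr z₂ hz₂sy'
    intro x hx
    rw [heq] at hx
    exact hz₂c x (sy_le r A hx)
  apply le_antisymm
  · intro a ha
    exact am.cent_le h (sy_le r A hz₂sy) hz₂1 hz₂c (hz₂c' a ha).symm
  · intro a ha
    exact am.cent_le h' (sy_le r _ hz₂sy') hz₂1 hz₂c' (hz₂c a ha).symm

/-- Lemma U: normalizers of subgroups of `A` containing a nontrivial central element of `A`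
normalize `A`. -/
theorem stepU (am : KWAmb G) (h : KWCfg A B) (T₀ : Subgroup G) (hT₀ : T₀ ≤ A) {z : G}
    (hzT : z ∈ T₀) (hz1 : z ≠ 1) (hzc : ∀ a ∈ A, z * a = a * z) {g : G}
    (hg : g ∈ Subgroup.normalizer (T₀ : Set G)) : g ∈ Subgroup.normalizer (A : Set G) := by
  have h1 : g * z * g⁻¹ ∈ T₀ := (Subgroup.mem_normalizer_iff.mp hg z).mp hzT
  have h2 : z ∈ MulAut.conj g⁻¹ • A := by
    rw [mem_conj_smul_iff]; simpa using hT₀ h1
  have h3 := am.stepUL h (hT₀ hzT) hz1 hzc g⁻¹ h2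
  have h4 : g⁻¹ ∈ Subgroup.normalizer (A : Set G) := (kw_mem_normalizer_iff _ _).mpr h3
  simpa using Subgroup.inv_mem _ h4

end KWAmb

end Cfsg.Agent.Lib.Helper13
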