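import Mathlib
import Cfsg.Agent.Lib.Helper13.KW3
import Cfsg.Agent.S0558

/-!
# Minimal counterexample to Wielandt's theorem: centralizers and the TI property (helper13)
-/

set_option autoImplicit false

namespace Cfsg.Agent.Lib.Helper13

open scoped Pointwise

theorem kw_mem_centralizer_singleton {G : Type*} [Group G] (x g : G) :
    g ∈ Subgroup.centralizer ({x} : Set G) ↔ x * g = g * x := by
  rw [Subgroup.mem_centralizer_iff]
  constructor
  · intro h; exact h x rfl
  · intro h w hw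
    rw [Set.mem_singleton_iff] at hw
    subst hw; exact h

theorem kw_prime_eq_of_mem_pgroup {K : Type*} [Group K] {p' q : ℕ} (hp' : p'.Prime)
    (hq : q.Prime) (P : Subgroup K) (hP : IsPGroup p' P) (x : K) (hx : x ∈ P)
    (ho : orderOf x = q) : q = p' := by
  haveI := Fact.mk hp'
  obtain ⟨k, hk⟩ := (IsPGroup.iff_orderOf.mp hP) ⟨x, hx⟩
  rw [Subgroup.orderOf_mk, ho] at hk
  have h1 : p' ∣ q := by
    rw [hk]
    apply dvd_pow_self
    intro hk0
    rw [hk0, pow_zero] at hk
    exact hq.one_lt.ne' hk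
  exact ((Nat.prime_dvd_prime_iff_eq hp' hq).mp h1).symm

theorem kw_conj_smul_eq_of_forall {G : Type*} [Group G] {X K : Subgroup G}
    (h : ∀ x ∈ K, ∀ y ∈ X, x * y * x⁻¹ ∈ X) : ∀ x ∈ K, MulAut.conj x • X = X := by
  have key : ∀ x ∈ K, MulAut.conj x • X ≤ X := by
    intro x hx y hy
    rw [mem_conj_smul_iff] at hy
    have h1 := h x hx _ hy
    have h2 : x * (x⁻¹ * y * x) * x⁻¹ = y := by group
    rwa [h2] at h1
  intro x hx
  apply le_antisymm (key x hx)
  rw [Subgroup.subset_pointwise_smul_iff, ← map_inv]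
  exact key x⁻¹ (K.inv_mem hx)

namespace KWAmb

variable {G : Type*} [Group G] [Finite G] {A B : Subgroup G}

/-- In a solvable factorized subgroup `L ≥ A_r`, some nontrivial subgroup of `A_r` is normalized
by `A_r` and by `B ∩ L`. -/
theorem stepR (am : KWAmb G) (h : KWCfg A B) {r : ℕ} (hr : r.Prime) (hrA : r ∣ Nat.card A)
    (L : Subgroup G) (hsol : Group.IsSolvable L)
    (hfact : ∀ g ∈ L, ∃ a ∈ A ⊓ L, ∃ b ∈ B ⊓ L, g = a * b) (hArL : sy r A ≤ L) :
    ∃ X : Subgroup G, X ≤ sy r A ∧ X ≠ ⊥ ∧ (∀ a ∈ sy r A, MulAut.conj a • X = X) ∧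
      (∀ b ∈ B ⊓ L, MulAut.conj b • X = X) := by
  have hAr1 := h.sy_ne_bot_A hr hrA
  have hArn : ∀ a ∈ A, MulAut.conj a • sy r A = sy r A := fun a ha => sy_normal r A ha
  obtain ⟨R, hRN, hR⟩ := kw_mul_subgroup L hsol (A ⊓ L) (B ⊓ L) (sy r A) (B ⊓ L)
    inf_le_right inf_le_right hfact
    (le_inf (sy_le r A) hArL) (fun a ha => hArn a ha.1) le_rfl
    (fun b hb => Subgroup.conj_smul_eq_self_of_mem hb)
    (h.sy_coprime_A hr hrA L hArL) (h.hall_B L hfact)
  have hArR : sy r A ≤ R := by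
    intro x hx
    have h1 : x ∈ (R : Set G) := by rw [hR]; exact ⟨x, hx, 1, Subgroup.one_mem _, mul_one x⟩
    exact h1
  have hBNR : B ⊓ L ≤ R := by
    intro x hx
    have h1 : x ∈ (R : Set G) := by rw [hR]; exact ⟨1, Subgroup.one_mem _, x, hx, one_mul x⟩
    exact h1
  have hRsol : Group.IsSolvable R := kw_solvable_of_le hsol hRN
  have hR1 : R ≠ ⊥ := fun hb => hAr1 (by rw [eq_bot_iff, ← hb]; exact hArR)
  obtain ⟨X, hXR, hX1, hXn, t, ht, hXt⟩ := kw_exists_normal_pgroup R hRsol hR1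
  have hdisj : sy r A ⊓ (B ⊓ L) = ⊥ := by
    rw [eq_bot_iff]; intro y hy
    exact Subgroup.mem_bot.mpr (h.eq_one_of_mem (sy_le r A hy.1) hy.2.1)
  have hcardR := kw_card_of_coe_eq_mul R (sy r A) _ hR hdisj
  by_cases htr : t = r
  · subst htr
    have hXA : X ≤ sy t A :=
      kw_normal_pgroup_le R X (sy t A) hXR hXn ht hXt (h.sy_relIndex_A ht hrA R hArR)
    exact ⟨X, hXA, hX1, fun a ha => hXn a (hArR ha), fun b hb => hXn b (hBNR hb)⟩
  · exfalso
    have hrel : (B ⊓ L).relIndex R = Nat.card (sy r A) := by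
      have h1 := kw_card_mul_relIndex hBNR
      rw [hcardR, mul_comm] at h1
      exact Nat.eq_of_mul_eq_mul_right Nat.card_pos h1
    have hXB : X ≤ B ⊓ L :=
      kw_normal_pgroup_le R X _ hXR hXn ht hXt (by
        rw [hrel, sy_card hr A h.nilA]
        intro hd
        exact htr ((Nat.prime_dvd_prime_iff_eq ht hr).mp (ht.dvd_of_dvd_pow hd)))
    have hXsB : X ≤ sy t B := le_sy (hXB.trans inf_le_left) hXt
    exact am.stepD' h hr ht hrA X hXsB hX1 (fun a ha => hXn a (hArR ha))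

/-- (β): the centralizer of an element of prime order of `N_A(B)` normalizes `A`. -/
theorem stepBeta (am : KWAmb G) (h : KWCfg A B) {x : G} (hxA : x ∈ A)
    (hxB : x ∈ Subgroup.normalizer (B : Set G)) {p : ℕ} (hp : p.Prime) (hox : orderOf x = p) :
    Subgroup.centralizer {x} ≤ Subgroup.normalizer (A : Set G) := by
  have hx1 : x ≠ 1 := by
    intro h1; rw [h1, orderOf_one] at hox; exact hp.one_lt.ne' hox.symm
  have hfact : ∀ g ∈ Subgroup.centralizer ({x} : Set G),
      ∃ a ∈ A ⊓ Subgroup.centralizer ({x} : Set G),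
      ∃ b ∈ B ⊓ Subgroup.centralizer ({x} : Set G), g = a * b := by
    intro g hg
    obtain ⟨a, ha, b, hb, rfl⟩ := h.fact g
    have hg' : x * (a * b) = a * b * x := (kw_mem_centralizer_singleton x _).mp hg
    have h1 : a⁻¹ * x * a = b * x * b⁻¹ := by
      calc a⁻¹ * x * a = a⁻¹ * (x * (a * b)) * b⁻¹ := by group
        _ = a⁻¹ * (a * b * x) * b⁻¹ := by rw [hg']
        _ = b * x * b⁻¹ := by group
    have hu : x⁻¹ * a⁻¹ * x * a = x⁻¹ * (b * x * b⁻¹) := by
      calc x⁻¹ * a⁻¹ * x * a = x⁻¹ * (a⁻¹ * x * a) := by group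
        _ = x⁻¹ * (b * x * b⁻¹) := by rw [h1]
    have huA : x⁻¹ * a⁻¹ * x * a ∈ A :=
      A.mul_mem (A.mul_mem (A.mul_mem (A.inv_mem hxA) (A.inv_mem ha)) hxA) ha
    have huB : x⁻¹ * a⁻¹ * x * a ∈ B := by
      rw [hu]
      have h2 : x⁻¹ * b * x ∈ B := (Subgroup.mem_normalizer_iff''.mp hxB b).mp hb
      have h3 : x⁻¹ * (b * x * b⁻¹) = (x⁻¹ * b * x) * b⁻¹ := by group
      rw [h3]; exact B.mul_mem h2 (B.inv_mem hb)
    have hu1 : x⁻¹ * a⁻¹ * x * a = 1 := h.eq_one_of_mem huA huB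
    have hax : x * a = a * x := by
      calc x * a = a * x * (x⁻¹ * a⁻¹ * x * a) := by group
        _ = a * x := by rw [hu1, mul_one]
    have hbx : x * b = b * x := by
      have h4 : a * (x * b) = a * (b * x) := by
        calc a * (x * b) = (a * x) * b := by group
          _ = (x * a) * b := by rw [hax]
          _ = x * (a * b) := by group
          _ = a * b * x := hg'
          _ = a * (b * x) := by group
      exact mul_left_cancel h4
    exact ⟨a, ⟨ha, (kw_mem_centralizer_singleton x a).mpr hax⟩, b,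
      ⟨hb, (kw_mem_centralizer_singleton x b).mpr hbx⟩, rfl⟩
  have hCT : Subgroup.centralizer ({x} : Set G) ≠ ⊤ := by
    intro hT
    apply hx1
    apply am.center_bot
    intro g
    have h1 : g ∈ Subgroup.centralizer ({x} : Set G) := by rw [hT]; exact Subgroup.mem_top g
    exact (kw_mem_centralizer_singleton x g).mp h1
  have hsol := am.solv h _ hCT hfact
  obtain ⟨r, hr, hne, hrA⟩ := h.twoA p
  have hxsy : x ∈ sy p A := kw_mem_sy A x hxA 1 (by rw [hox, pow_one])
  have hArC : sy r A ≤ Subgroup.centralizer ({x} : Set G) := by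
    intro y hy
    rw [kw_mem_centralizer_singleton]
    exact sy_commute A h.nilA hp hr (Ne.symm hne) x hxsy y hy
  obtain ⟨X, hXA, hX1, hXnA, hXnB⟩ := am.stepR h hr hrA _ hsol hfact hArC
  obtain ⟨z, hzX, hzo, hzc⟩ := kw_exists_central_prime A h.nilA hr X hXA hX1 hXnA
  have hz1 : z ≠ 1 := by
    intro h1; rw [h1, orderOf_one] at hzo; exact hr.one_lt.ne' hzo.symm
  intro g hg
  obtain ⟨a, ha, b, hb, rfl⟩ := hfact g hg
  have hbN : b ∈ Subgroup.normalizer (A : Set G) :=
    am.stepU h X (hXA.trans (sy_le r A)) hzX hz1 hzc ((kw_mem_normalizer_iff b X).mpr (hXnB b hb))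
  exact Subgroup.mul_mem _ (Subgroup.le_normalizer ha.1) hbN

/-- Case II of the centralizer claim, via Wielandt's complement theorem (S0558). -/
theorem stepC2 (am : KWAmb G) (h : KWCfg A B) {a : G} (haA : a ∈ A) {p : ℕ} (hp : p.Prime)
    (hoa : orderOf a = p) (C : Subgroup G) (hC : ∀ g : G, g ∈ C ↔ a * g = g * a)
    (hT : ¬ p ∣ (sy p A ⊓ C).relIndex C)
    (hI : C ⊓ Subgroup.normalizer (A : Set G) ≤ A) : C ≤ A := by
  have hpA : p ∣ Nat.card A := by rw [← hoa]; exact A.orderOf_dvd_natCard haA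
  have hasy : a ∈ sy p A := kw_mem_sy A a haA 1 (by rw [hoa, pow_one])
  have haC : a ∈ C := (hC a).mpr rfl
  obtain ⟨r, hr, hne, hrA⟩ := h.twoA p
  have hsyC : ∀ t : ℕ, t.Prime → t ≠ p → sy t A ≤ C := by
    intro t ht htp y hy
    rw [hC]
    exact sy_commute A h.nilA hp ht (Ne.symm htp) a hasy y hy
  have hH'nil : Group.IsNilpotent ((A ⊓ C).subgroupOf C) := by
    haveI := kw_nilpotent_of_le h.nilA (inf_le_left : A ⊓ C ≤ A)
    exact Group.nilpotent_of_mulEquiv
      (Subgroup.subgroupOfEquivOfLe (inf_le_right : A ⊓ C ≤ C)).symm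
  have hcardH' : Nat.card ((A ⊓ C).subgroupOf C) = Nat.card (A ⊓ C : Subgroup G) :=
    Nat.card_congr (Subgroup.subgroupOfEquivOfLe (inf_le_right : A ⊓ C ≤ C)).toEquiv
  have hnot : ∀ p' : ℕ, p'.Prime → ∀ P : Sylow p' C,
      (P : Subgroup C) ≠ (A ⊓ C).subgroupOf C := by
    intro p' hp' P hPH
    have hP : IsPGroup p' ((A ⊓ C).subgroupOf C) := by rw [← hPH]; exact P.isPGroup'
    have e1 := kw_prime_eq_of_mem_pgroup hp' hp _ hP (⟨a, haC⟩ : C)
      (Subgroup.mem_subgroupOf.mpr ⟨haA, haC⟩) (by rw [Subgroup.orderOf_mk]; exact hoa)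
    obtain ⟨z, hzsy, hzo, -⟩ := h.exists_central hr hrA
    have hzC : z ∈ C := hsyC r hr hne hzsy
    have e2 := kw_prime_eq_of_mem_pgroup hp' hr _ hP (⟨z, hzC⟩ : C)
      (Subgroup.mem_subgroupOf.mpr ⟨sy_le r A hzsy, hzC⟩) (by rw [Subgroup.orderOf_mk]; exact hzo)
    exact hne (e2.trans e1.symm)
  have hnorm : ∀ t : ℕ, t.Prime → t ∣ Nat.card ((A ⊓ C).subgroupOf C) →
      ∀ P : Sylow t ((A ⊓ C).subgroupOf C),
      Subgroup.normalizer (((P : Subgroup ((A ⊓ C).subgroupOf C)).map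
        ((A ⊓ C).subgroupOf C).subtype : Subgroup C) : Set C) = (A ⊓ C).subgroupOf C := by
    intro t ht htd P
    haveI := Fact.mk ht
    have htA : t ∣ Nat.card A := by
      rw [hcardH'] at htd
      exact htd.trans (Subgroup.card_dvd_of_le inf_le_left)
    obtain ⟨z, hzsy, hzo, hzc⟩ := h.exists_central ht htA
    have hz1 : z ≠ 1 := by
      intro h1; rw [h1, orderOf_one] at hzo; exact ht.one_lt.ne' hzo.symm
    have hzA : z ∈ A := sy_le t A hzsy
    have hzC : z ∈ C := (hC z).mpr (hzc a haA).symm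
    have hsyeq := sy_eq_map ((A ⊓ C).subgroupOf C) hH'nil P
    have hz' : (⟨z, hzC⟩ : C) ∈ sy t ((A ⊓ C).subgroupOf C) :=
      kw_mem_sy _ _ (Subgroup.mem_subgroupOf.mpr ⟨hzA, hzC⟩) 1
        (by rw [Subgroup.orderOf_mk, hzo, pow_one])
    rw [← hsyeq]
    apply le_antisymm
    · intro c hc
      have h1 : (c : G) ∈ Subgroup.normalizer
          (((sy t ((A ⊓ C).subgroupOf C)).map C.subtype : Subgroup G) : Set G) :=
        Subgroup.le_normalizer_map C.subtype ⟨c, hc, rfl⟩
      have hT₀A : (sy t ((A ⊓ C).subgroupOf C)).map C.subtype ≤ A := by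
        rintro y ⟨y', hy', rfl⟩
        exact (Subgroup.mem_subgroupOf.mp (sy_le t _ hy')).1
      have h2 := am.stepU h _ hT₀A
        (⟨_, hz', rfl⟩ : z ∈ (sy t ((A ⊓ C).subgroupOf C)).map C.subtype) hz1 hzc h1
      exact Subgroup.mem_subgroupOf.mpr ⟨hI ⟨c.2, h2⟩, c.2⟩
    · intro c hc
      rw [kw_mem_normalizer_iff]
      exact sy_normal t _ hc
  obtain ⟨N, hNn, hNc⟩ := Cfsg.Agent.S0558.result (G := C) ((A ⊓ C).subgroupOf C) hnot hnorm
  have hcardN : Nat.card N = (A ⊓ C).relIndex C := by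
    have h1 := hNc.card_mul_card
    have h2 := kw_card_mul_relIndex (inf_le_right : A ⊓ C ≤ C)
    rw [hcardH'] at h1
    rw [← h2, mul_comm] at h1
    exact Nat.eq_of_mul_eq_mul_left Nat.card_pos h1
  have hNA : ∀ q : ℕ, q.Prime → q ∣ Nat.card A → ¬ q ∣ Nat.card N := by
    intro q hq hqA hqN
    rw [hcardN] at hqN
    by_cases hqp : q = p
    · subst hqp
      exact hT (hqN.trans (Subgroup.relIndex_dvd_of_le_left C
        (inf_le_inf_right C (sy_le q A))))
    · have h1 : sy q A ≤ A ⊓ C := le_inf (sy_le q A) (hsyC q hq hqp)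
      exact h.sy_relIndex_A hq hqA C (hsyC q hq hqp)
        (hqN.trans (Subgroup.relIndex_dvd_of_le_left C h1))
  have hN1 : N = ⊥ := by
    by_contra hN1
    have hcN : Nat.card N ≠ 1 := fun hc => hN1 (Subgroup.card_eq_one.mp hc)
    obtain ⟨q, hq, hqN⟩ := Nat.exists_prime_and_dvd hcN
    haveI := Fact.mk hq
    haveI := Fact.mk hr
    have hqA : ¬ q ∣ Nat.card A := fun hqA => hNA q hq hqA hqN
    have hqG : q ∣ Nat.card G :=
      hqN.trans ((Subgroup.card_subgroup_dvd_card N).trans (Subgroup.card_subgroup_dvd_card C))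
    have hqB : q ∣ Nat.card B := (h.dvd_or hq hqG).resolve_left hqA
    have hArC := hsyC r hr hne
    letI : MulAction ((sy r A).subgroupOf C) (Sylow q N) :=
      MulAction.compHom _ ((MulAut.conjNormal (H := N)).comp ((sy r A).subgroupOf C).subtype)
    have hR'p : IsPGroup r ((sy r A).subgroupOf C) := (sy_isPGroup hr A h.nilA).comap_subtype
    have hnd : ¬ r ∣ Nat.card (Sylow q N) := by
      intro hd
      have h1 := (default : Sylow q N).card_dvd_index
      exact hNA r hr hrA ((hd.trans h1).trans (Subgroup.index_dvd_card _))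
    obtain ⟨P, hP⟩ := hR'p.nonempty_fixed_point_of_prime_not_dvd_card (Sylow q N) hnd
    have hPnb : (P : Subgroup N) ≠ ⊥ := by
      intro hb
      have h1 := P.card_eq_multiplicity
      rw [hb, Subgroup.card_bot] at h1
      have h2 : 0 < (Nat.card N).factorization q :=
        hq.factorization_pos_of_dvd Nat.card_pos.ne' hqN
      have h3 := Nat.one_lt_pow h2.ne' hq.one_lt
      omega
    have hYq : IsPGroup q (((P : Subgroup N).map N.subtype).map C.subtype) :=
      (P.isPGroup'.map _).map _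
    have hY1 : ((P : Subgroup N).map N.subtype).map C.subtype ≠ ⊥ := by
      intro hb
      apply hPnb
      rw [eq_bot_iff]
      intro n hn
      have h1 : ((n : C) : G) ∈ ((P : Subgroup N).map N.subtype).map C.subtype :=
        ⟨(n : C), ⟨n, hn, rfl⟩, rfl⟩
      rw [hb] at h1
      have h2 := Subgroup.mem_bot.mp h1
      exact Subgroup.mem_bot.mpr (Subtype.ext (Subtype.ext h2))
    have hYn : ∀ x ∈ sy r A, MulAut.conj x • ((P : Subgroup N).map N.subtype).map C.subtype =
        ((P : Subgroup N).map N.subtype).map C.subtype := by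
      apply kw_conj_smul_eq_of_forall
      intro x hx y hy
      obtain ⟨c, ⟨n, hn, rfl⟩, rfl⟩ := hy
      have hfix : (⟨⟨x, hArC hx⟩, Subgroup.mem_subgroupOf.mpr hx⟩ : (sy r A).subgroupOf C) • P = P :=
        hP _
      have h1 : (MulAut.conjNormal (⟨x, hArC hx⟩ : C) : MulAut N) • (P : Subgroup N) = P :=
        congrArg (fun Q : Sylow q N => (Q : Subgroup N)) hfix
      have h2 : MulAut.conjNormal (⟨x, hArC hx⟩ : C) n ∈ (P : Subgroup N) := by
        have h3 := Subgroup.smul_mem_pointwise_smul n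
          (MulAut.conjNormal (⟨x, hArC hx⟩ : C) : MulAut N) (P : Subgroup N) hn
        rw [h1] at h3
        exact h3
      refine ⟨_, ⟨_, h2, rfl⟩, ?_⟩
      simp [MulAut.conjNormal_apply]
    obtain ⟨k, hk⟩ := h.symm.exists_conj_sy hq hqB _ hYq
    exact am.stepD' (h.conjB k) hr hq hrA _ hk hY1 hYn
  have hH'top : (A ⊓ C).subgroupOf C = ⊤ := by
    rw [hN1] at hNc
    exact Subgroup.isComplement'_bot_left.mp hNc
  intro c hc
  have h1 : (⟨c, hc⟩ : C) ∈ (A ⊓ C).subgroupOf C := by rw [hH'top]; exact Subgroup.mem_top _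
  exact (Subgroup.mem_subgroupOf.mp h1).1

/-- If a Sylow `p`-subgroup of `C_G(a)` lies in `A` (`a ∈ A` of prime order `p`), then `C_G(a)`
normalizes `A`. -/
theorem stepC (am : KWAmb G) (h : KWCfg A B) {a : G} (haA : a ∈ A) {p : ℕ} (hp : p.Prime)
    (hoa : orderOf a = p)
    (hT : ¬ p ∣ (sy p A ⊓ Subgroup.centralizer ({a} : Set G)).relIndex
      (Subgroup.centralizer ({a} : Set G))) :
    Subgroup.centralizer ({a} : Set G) ≤ Subgroup.normalizer (A : Set G) := by
  by_cases hI : Subgroup.centralizer ({a} : Set G) ⊓ Subgroup.normalizer (A : Set G) ≤ A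
  · exact (am.stepC2 h haA hp hoa _ (kw_mem_centralizer_singleton a) hT hI).trans
      Subgroup.le_normalizer
  · obtain ⟨g₀, hg₀, hg₀A⟩ := SetLike.not_le_iff_exists.mp hI
    have hex : ∃ q : ℕ, q.Prime ∧ q ∣ orderOf g₀ ∧ ¬ q ∣ Nat.card A := by
      by_contra hcon
      push Not at hcon
      apply hg₀A
      apply kw_mem_of_mem_normalizer A g₀ hg₀.2
      rw [h.index_A]
      apply Nat.coprime_of_dvd
      intro k hk hk1 hk2
      exact h.not_dvd_B hk (hcon k hk hk1) hk2
    obtain ⟨q, hq, hqd, hqA⟩ := hex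
    have hou : orderOf (g₀ ^ (orderOf g₀ / q)) = q :=
      orderOf_pow_orderOf_div (orderOf_pos g₀).ne' hqd
    have huC : g₀ ^ (orderOf g₀ / q) ∈ Subgroup.centralizer ({a} : Set G) :=
      Subgroup.pow_mem _ hg₀.1 _
    have huN : g₀ ^ (orderOf g₀ / q) ∈ Subgroup.normalizer (A : Set G) :=
      Subgroup.pow_mem _ hg₀.2 _
    have hqG : q ∣ Nat.card G := by rw [← hou]; exact orderOf_dvd_natCard _
    have hqB : q ∣ Nat.card B := (h.dvd_or hq hqG).resolve_left hqA
    obtain ⟨k, hk⟩ := h.symm.exists_conj_sy hq hqB (Subgroup.zpowers (g₀ ^ (orderOf g₀ / q)))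
      (IsPGroup.of_card (n := 1) (by rw [Nat.card_zpowers, hou, pow_one]))
    have huB' : g₀ ^ (orderOf g₀ / q) ∈ MulAut.conj k • B :=
      sy_le q _ (hk (Subgroup.mem_zpowers _))
    have h' : KWCfg A (MulAut.conj k • B) := h.conjB k
    have h1 := am.stepBeta h'.symm huB' huN hq hou
    have haN : a ∈ Subgroup.normalizer ((MulAut.conj k • B : Subgroup G) : Set G) := by
      apply h1
      rw [kw_mem_centralizer_singleton]
      exact ((kw_mem_centralizer_singleton a _).mp huC).symm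
    exact am.stepBeta h' haA haN hp hoa

/-- TI: distinct conjugates of `A` intersect trivially. -/
theorem stepTI (am : KWAmb G) (h : KWCfg A B) {a : G} (ha1 : a ≠ 1) (haA : a ∈ A) (g : G)
    (hag : a ∈ MulAut.conj g • A) : MulAut.conj g • A = A := by
  have hoa : orderOf a ≠ 1 := fun ho => ha1 (orderOf_eq_one_iff.mp ho)
  have hp : (orderOf a).minFac.Prime := Nat.minFac_prime hoa
  have hpd : (orderOf a).minFac ∣ orderOf a := Nat.minFac_dvd _
  have hoa' : orderOf (a ^ (orderOf a / (orderOf a).minFac)) = (orderOf a).minFac :=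
    orderOf_pow_orderOf_div (orderOf_pos a).ne' hpd
  have ha'A : a ^ (orderOf a / (orderOf a).minFac) ∈ A := A.pow_mem haA _
  have ha'g : a ^ (orderOf a / (orderOf a).minFac) ∈ MulAut.conj g • A :=
    Subgroup.pow_mem _ hag _
  obtain ⟨a', ha'e⟩ : ∃ a', a' = a ^ (orderOf a / (orderOf a).minFac) := ⟨_, rfl⟩
  rw [← ha'e] at hoa' ha'A ha'g
  obtain ⟨p, hpe⟩ : ∃ p, p = (orderOf a).minFac := ⟨_, rfl⟩
  rw [← hpe] at hp hoa'
  have hpA : p ∣ Nat.card A := by rw [← hoa']; exact A.orderOf_dvd_natCard ha'A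
  haveI := Fact.mk hp
  obtain ⟨C, hCe⟩ : ∃ C, C = Subgroup.centralizer ({a'} : Set G) := ⟨_, rfl⟩
  have hC : ∀ x : G, x ∈ C ↔ a' * x = x * a' := by
    intro x; rw [hCe]; exact kw_mem_centralizer_singleton a' x
  have ha'C : a' ∈ C := (hC a').mpr rfl
  obtain ⟨T⟩ : Nonempty (Sylow p C) := inferInstance
  have hT₀p : IsPGroup p ((T : Subgroup C).map C.subtype) := T.isPGroup'.map _
  obtain ⟨k, hk⟩ := h.exists_conj_sy hp hpA _ hT₀p
  have hs : KWCfg (MulAut.conj k • A) B := h.conjA k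
  have ha'T : a' ∈ (T : Subgroup C).map C.subtype := by
    haveI hnorm : ((Subgroup.zpowers a').subgroupOf C).Normal := by
      constructor
      intro n hn c
      rw [Subgroup.mem_subgroupOf] at hn ⊢
      obtain ⟨j, hj⟩ := Subgroup.mem_zpowers_iff.mp hn
      have hc : a' * (c : G) = c * a' := (hC c).mp c.2
      have h2 : ((c * n * c⁻¹ : C) : G) = (n : G) := by
        have h3 : (c : G) * (n : G) = (n : G) * c := by
          rw [← hj]
          exact ((Commute.zpow_right (show Commute (c : G) a' from hc.symm) j)).eq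
        simp only [Subgroup.coe_mul, Subgroup.coe_inv]
        rw [h3, mul_inv_cancel_right]
      rw [h2]; exact hn
    have hpg : IsPGroup p ((Subgroup.zpowers a').subgroupOf C) :=
      (IsPGroup.of_card (n := 1) (by rw [Nat.card_zpowers, hoa', pow_one])).comap_subtype
    have h1 := hpg.le_sylow_of_normal T
    exact ⟨⟨a', ha'C⟩, h1 (Subgroup.mem_subgroupOf.mpr (Subgroup.mem_zpowers a')), rfl⟩
  have ha'As : a' ∈ MulAut.conj k • A := sy_le p _ (hk ha'T)
  have hT : ¬ p ∣ (sy p (MulAut.conj k • A) ⊓ C).relIndex C := by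
    intro hd
    have h1 : (T : Subgroup C).map C.subtype ≤ sy p (MulAut.conj k • A) ⊓ C :=
      le_inf hk (Subgroup.map_subtype_le _)
    have h2 := Subgroup.relIndex_dvd_of_le_left C h1
    have h3 : ((T : Subgroup C).map C.subtype).relIndex C = (T : Subgroup C).index := by
      unfold Subgroup.relIndex Subgroup.subgroupOf
      rw [Subgroup.comap_map_eq_self_of_injective (Subgroup.subtype_injective C)]
    rw [h3] at h2
    exact T.not_dvd_index (hd.trans h2)
  rw [hCe] at hT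
  have hCN := am.stepC hs ha'As hp hoa' hT
  rw [← hCe] at hCN
  obtain ⟨z, hzsy, hzo, hzc⟩ := h.exists_central hp hpA
  have hz1 : z ≠ 1 := by
    intro h1; rw [h1, orderOf_one] at hzo; exact hp.one_lt.ne' hzo.symm
  have hzC : z ∈ C := (hC z).mpr (hzc a' ha'A).symm
  have hzAs : z ∈ MulAut.conj k • A :=
    hs.mem_of_normalizer (hCN hzC) hp (by rw [kw_card_conj]; exact hpA) 1 (by rw [hzo, pow_one])
  have hkA : MulAut.conj k • A = A := am.stepUL h (sy_le p A hzsy) hz1 hzc k hzAs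
  rw [hkA] at hCN
  have h' : KWCfg (MulAut.conj g • A) B := h.conjA g
  obtain ⟨z', hz'sy, hz'o, hz'c⟩ := h'.exists_central hp (by rw [kw_card_conj]; exact hpA)
  have hz'1 : z' ≠ 1 := by
    intro h1; rw [h1, orderOf_one] at hz'o; exact hp.one_lt.ne' hz'o.symm
  have hz'C : z' ∈ C := (hC z').mpr (hz'c a' ha'g).symm
  have hz'A : z' ∈ A := h.mem_of_normalizer (hCN hz'C) hp hpA 1 (by rw [hz'o, pow_one])
  have h5 := am.stepUL h' (sy_le p _ hz'sy) hz'1 hz'c g⁻¹ (by
    rw [conj_smul_conj_smul, inv_mul_cancel, map_one, one_smul]; exact hz'A)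
  rw [conj_smul_conj_smul, inv_mul_cancel, map_one, one_smul] at h5
  exact h5.symm

/-- Centralizers of nontrivial elements of `A` normalize `A`. -/
theorem cent_le_normalizer (am : KWAmb G) (h : KWCfg A B) {a : G} (ha1 : a ≠ 1) (haA : a ∈ A) :
    Subgroup.centralizer ({a} : Set G) ≤ Subgroup.normalizer (A : Set G) := by
  intro c hc
  rw [kw_mem_normalizer_iff]
  apply am.stepTI h ha1 haA c
  rw [mem_conj_smul_iff]
  have h1 : a * c = c * a := (kw_mem_centralizer_singleton a c).mp hc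
  have h2 : c⁻¹ * a * c = a := by rw [mul_assoc, h1, inv_mul_cancel_left]
  rw [h2]; exact haA

end KWAmb

end Cfsg.Agent.Lib.Helper13
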