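import Mathlib
import Cfsg.Agent.Lib.Helper13.KW4
import Cfsg.Agent.Lib.Helper13.Compl

/-!
# Minimal counterexample to Wielandt's theorem: the counting argument (helper13)
-/

set_option autoImplicit false

namespace Cfsg.Agent.Lib.Helper13

open scoped Pointwise

theorem kw_sum_fixedBy {G Z : Type*} [Group G] [Fintype G] [MulAction G Z] [Finite Z]
    [Nonempty Z] [MulAction.IsPretransitive G Z] :
    ∑ g : G, (Nat.card (MulAction.fixedBy Z g) : ℤ) = Fintype.card G := by
  classical
  haveI : Fintype Z := Fintype.ofFinite Z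
  have h1 := MulAction.sum_card_fixedBy_eq_card_orbits_mul_card_group G Z
  have h2 : Fintype.card (Quotient (MulAction.orbitRel G Z)) = 1 := by
    rw [Fintype.card_eq_one_iff_nonempty_unique]
    exact (MulAction.pretransitive_iff_unique_quotient_of_nonempty G Z).mp inferInstance
  rw [h2, one_mul] at h1
  have h3 : ∑ g : G, (Nat.card (MulAction.fixedBy Z g) : ℤ) =
      ((∑ g : G, Fintype.card (MulAction.fixedBy Z g) : ℕ) : ℤ) := by
    push_cast
    apply Finset.sum_congr rfl
    intro g _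
    rw [Nat.card_eq_fintype_card]
  rw [h3, h1]

/-- Burnside counting for two transitive actions whose product action is transitive. -/
theorem kw_burnside_pair {G X Y : Type*} [Group G] [Finite G] [MulAction G X] [MulAction G Y]
    [Finite X] [Finite Y] [MulAction.IsPretransitive G X] [MulAction.IsPretransitive G Y]
    [MulAction.IsPretransitive G (X × Y)] (hX : 2 ≤ Nat.card X) (hY : 2 ≤ Nat.card Y) :
    ∃ g : G, g ≠ 1 ∧
      ((Nat.card (MulAction.fixedBy X g) = 0 ∧ 2 ≤ Nat.card (MulAction.fixedBy Y g)) ∨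
       (Nat.card (MulAction.fixedBy Y g) = 0 ∧ 2 ≤ Nat.card (MulAction.fixedBy X g))) := by
  classical
  haveI : Fintype G := Fintype.ofFinite G
  haveI : Nonempty X := (Nat.card_pos_iff.mp (by omega)).1
  haveI : Nonempty Y := (Nat.card_pos_iff.mp (by omega)).1
  have hXs := kw_sum_fixedBy (G := G) (Z := X)
  have hYs := kw_sum_fixedBy (G := G) (Z := Y)
  have hXYs := kw_sum_fixedBy (G := G) (Z := X × Y)
  have hprod : ∀ g : G, Nat.card (MulAction.fixedBy (X × Y) g) =
      Nat.card (MulAction.fixedBy X g) * Nat.card (MulAction.fixedBy Y g) := by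
    intro g
    have hset : MulAction.fixedBy (X × Y) g =
        (MulAction.fixedBy X g) ×ˢ (MulAction.fixedBy Y g) := by
      ext ⟨x, y⟩
      simp [MulAction.mem_fixedBy, Prod.ext_iff]
    rw [hset, Nat.card_congr (Equiv.Set.prod _ _), Nat.card_prod]
  have hsum : ∑ g : G, ((Nat.card (MulAction.fixedBy X g) : ℤ) - 1) *
      ((Nat.card (MulAction.fixedBy Y g) : ℤ) - 1) = 0 := by
    have h1 : ∀ g : G, ((Nat.card (MulAction.fixedBy X g) : ℤ) - 1) *
        ((Nat.card (MulAction.fixedBy Y g) : ℤ) - 1) =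
        (Nat.card (MulAction.fixedBy (X × Y) g) : ℤ) - Nat.card (MulAction.fixedBy X g) -
          Nat.card (MulAction.fixedBy Y g) + 1 := by
      intro g; rw [hprod g]; push_cast; ring
    simp_rw [h1]
    rw [Finset.sum_add_distrib, Finset.sum_sub_distrib, Finset.sum_sub_distrib, hXs, hYs, hXYs]
    simp
  have h1X : Nat.card (MulAction.fixedBy X (1 : G)) = Nat.card X := by
    have h1 : MulAction.fixedBy X (1 : G) = Set.univ := by
      ext x; simp
    rw [h1, Nat.card_coe_set_eq, Set.ncard_univ]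
  have h1Y : Nat.card (MulAction.fixedBy Y (1 : G)) = Nat.card Y := by
    have h1 : MulAction.fixedBy Y (1 : G) = Set.univ := by
      ext x; simp
    rw [h1, Nat.card_coe_set_eq, Set.ncard_univ]
  by_contra hcon
  have hterm : ∀ g : G, g ≠ 1 → 0 ≤ ((Nat.card (MulAction.fixedBy X g) : ℤ) - 1) *
      ((Nat.card (MulAction.fixedBy Y g) : ℤ) - 1) := by
    intro g hg
    have hnP : ¬ (Nat.card (MulAction.fixedBy X g) = 0 ∧ 2 ≤ Nat.card (MulAction.fixedBy Y g)) :=
      fun hP => hcon ⟨g, hg, Or.inl hP⟩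
    have hnQ : ¬ (Nat.card (MulAction.fixedBy Y g) = 0 ∧ 2 ≤ Nat.card (MulAction.fixedBy X g)) :=
      fun hQ => hcon ⟨g, hg, Or.inr hQ⟩
    rcases Nat.eq_zero_or_pos (Nat.card (MulAction.fixedBy X g)) with hx | hx
    · have hy : Nat.card (MulAction.fixedBy Y g) < 2 := by
        by_contra hge; exact hnP ⟨hx, by omega⟩
      rw [hx]
      have hy' : (Nat.card (MulAction.fixedBy Y g) : ℤ) ≤ 1 := by exact_mod_cast (by omega : _ ≤ 1)
      push_cast
      nlinarith
    · rcases Nat.eq_zero_or_pos (Nat.card (MulAction.fixedBy Y g)) with hy | hy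
      · have hx2 : Nat.card (MulAction.fixedBy X g) < 2 := by
          by_contra hge; exact hnQ ⟨hy, by omega⟩
        rw [hy]
        have hx' : (Nat.card (MulAction.fixedBy X g) : ℤ) ≤ 1 := by
          exact_mod_cast (by omega : _ ≤ 1)
        push_cast
        nlinarith
      · have hx' : (1 : ℤ) ≤ (Nat.card (MulAction.fixedBy X g) : ℤ) := by exact_mod_cast hx
        have hy' : (1 : ℤ) ≤ (Nat.card (MulAction.fixedBy Y g) : ℤ) := by exact_mod_cast hy
        exact mul_nonneg (by linarith) (by linarith)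
  have hone : 0 < ((Nat.card (MulAction.fixedBy X (1 : G)) : ℤ) - 1) *
      ((Nat.card (MulAction.fixedBy Y (1 : G)) : ℤ) - 1) := by
    rw [h1X, h1Y]
    have hx' : (2 : ℤ) ≤ (Nat.card X : ℤ) := by exact_mod_cast hX
    have hy' : (2 : ℤ) ≤ (Nat.card Y : ℤ) := by exact_mod_cast hY
    exact mul_pos (by linarith) (by linarith)
  have hle := Finset.single_le_sum (f := fun g : G => ((Nat.card (MulAction.fixedBy X g) : ℤ) - 1) *
      ((Nat.card (MulAction.fixedBy Y g) : ℤ) - 1)) (s := Finset.univ) (by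
    intro g _
    by_cases hg : g = 1
    · subst hg; exact hone.le
    · exact hterm g hg) (Finset.mem_univ (1 : G))
  linarith

namespace KWAmb

variable {G : Type*} [Group G] [Finite G] {A B : Subgroup G}

theorem kw_fixed_coset_iff (H : Subgroup G) (g u : G) :
    ((u : G) : G ⧸ Subgroup.normalizer (H : Set G)) ∈
      MulAction.fixedBy (G ⧸ Subgroup.normalizer (H : Set G)) g ↔
    g ∈ Subgroup.normalizer ((MulAut.conj u • H : Subgroup G) : Set G) := by
  rw [← conj_smul_normalizer, mem_conj_smul_iff, MulAction.mem_fixedBy]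
  have h1 : g • ((u : G) : G ⧸ Subgroup.normalizer (H : Set G)) =
      ((g * u : G) : G ⧸ Subgroup.normalizer (H : Set G)) := rfl
  rw [h1, QuotientGroup.eq]
  have e : (g * u)⁻¹ * u = (u⁻¹ * g * u)⁻¹ := by group
  rw [e, inv_mem_iff]

theorem stepCount_aux (am : KWAmb G) (h : KWCfg A B) (g : G) (hg1 : g ≠ 1)
    (h0 : Nat.card (MulAction.fixedBy (G ⧸ Subgroup.normalizer (A : Set G)) g) = 0)
    (h2 : 2 ≤ Nat.card (MulAction.fixedBy (G ⧸ Subgroup.normalizer (B : Set G)) g)) : False := by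
  have hnt : Nontrivial (MulAction.fixedBy (G ⧸ Subgroup.normalizer (B : Set G)) g) :=
    Finite.one_lt_card_iff_nontrivial.mp (by omega)
  obtain ⟨⟨y₁, h₁⟩, ⟨y₂, h₂⟩, hne⟩ := hnt
  obtain ⟨u, rfl⟩ := QuotientGroup.mk_surjective y₁
  obtain ⟨v, rfl⟩ := QuotientGroup.mk_surjective y₂
  have hgu := (kw_fixed_coset_iff B g u).mp h₁
  have hgv := (kw_fixed_coset_iff B g v).mp h₂
  have hBne : MulAut.conj u • B ≠ MulAut.conj v • B := by
    intro heq
    apply hne
    apply Subtype.ext
    change ((u : G) : G ⧸ Subgroup.normalizer (B : Set G)) = (v : G)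
    rw [QuotientGroup.eq, kw_mem_normalizer_iff, ← conj_smul_conj_smul, ← heq,
      conj_smul_conj_smul, inv_mul_cancel, map_one, one_smul]
  have hog : orderOf g ≠ 1 := fun ho => hg1 (orderOf_eq_one_iff.mp ho)
  have ht : (orderOf g).minFac.Prime := Nat.minFac_prime hog
  have htd : (orderOf g).minFac ∣ orderOf g := Nat.minFac_dvd _
  have hog' : orderOf (g ^ (orderOf g / (orderOf g).minFac)) = (orderOf g).minFac :=
    orderOf_pow_orderOf_div (orderOf_pos g).ne' htd
  have hg'1 : g ^ (orderOf g / (orderOf g).minFac) ≠ 1 := by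
    intro h1; rw [h1, orderOf_one] at hog'; exact ht.one_lt.ne' hog'.symm
  have htG : (orderOf g).minFac ∣ Nat.card G := htd.trans (orderOf_dvd_natCard g)
  rcases h.dvd_or ht htG with htA | htB
  · obtain ⟨k, hk⟩ := h.exists_conj_sy ht htA
      (Subgroup.zpowers (g ^ (orderOf g / (orderOf g).minFac)))
      (IsPGroup.of_card (n := 1) (by rw [Nat.card_zpowers, hog', pow_one]))
    have hg'A : g ^ (orderOf g / (orderOf g).minFac) ∈ MulAut.conj k • A :=
      sy_le _ _ (hk (Subgroup.mem_zpowers _))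
    have hcn := am.cent_le_normalizer (h.conjA k) hg'1 hg'A
    have hgN : g ∈ Subgroup.normalizer ((MulAut.conj k • A : Subgroup G) : Set G) := by
      apply hcn
      rw [kw_mem_centralizer_singleton]
      exact ((Commute.refl g).pow_left _).eq
    have hfix := (kw_fixed_coset_iff A g k).mpr hgN
    haveI : Nonempty (MulAction.fixedBy (G ⧸ Subgroup.normalizer (A : Set G)) g) := ⟨⟨_, hfix⟩⟩
    have hpos := Nat.card_pos (α := MulAction.fixedBy (G ⧸ Subgroup.normalizer (A : Set G)) g)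
    omega
  · have hsu := (h.conjB u).symm
    have hsv := (h.conjB v).symm
    have hg'u : g ^ (orderOf g / (orderOf g).minFac) ∈ MulAut.conj u • B :=
      hsu.mem_of_normalizer (Subgroup.pow_mem _ hgu _) ht (by rw [kw_card_conj]; exact htB) 1
        (by rw [hog', pow_one])
    have hg'v : g ^ (orderOf g / (orderOf g).minFac) ∈ MulAut.conj v • B :=
      hsv.mem_of_normalizer (Subgroup.pow_mem _ hgv _) ht (by rw [kw_card_conj]; exact htB) 1
        (by rw [hog', pow_one])
    have h5 := am.stepTI hsu hg'1 hg'u (v * u⁻¹) (by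
      rw [conj_smul_conj_smul, inv_mul_cancel_right]; exact hg'v)
    rw [conj_smul_conj_smul, inv_mul_cancel_right] at h5
    exact hBne h5.symm

/-- The final contradiction. -/
theorem stepCount (am : KWAmb G) (h : KWCfg A B) : False := by
  haveI : MulAction.IsPretransitive G
      ((G ⧸ Subgroup.normalizer (A : Set G)) × (G ⧸ Subgroup.normalizer (B : Set G))) := by
    constructor
    rintro ⟨x₁, y₁⟩ ⟨x₂, y₂⟩
    obtain ⟨x₁, rfl⟩ := QuotientGroup.mk_surjective x₁
    obtain ⟨y₁, rfl⟩ := QuotientGroup.mk_surjective y₁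
    obtain ⟨x₂, rfl⟩ := QuotientGroup.mk_surjective x₂
    obtain ⟨y₂, rfl⟩ := QuotientGroup.mk_surjective y₂
    obtain ⟨a, ha, b, hb, e⟩ := h.fact (x₁⁻¹ * y₁)
    obtain ⟨a', ha', b', hb', e'⟩ := h.fact (x₂⁻¹ * y₂)
    have hy₁ : y₁ = x₁ * (a * b) := by rw [← e]; group
    have hy₂ : y₂ = x₂ * (a' * b') := by rw [← e']; group
    refine ⟨(x₂ * a') * (x₁ * a)⁻¹, ?_⟩
    apply Prod.ext
    · change ((x₂ * a' * (x₁ * a)⁻¹ * x₁ : G) : G ⧸ Subgroup.normalizer (A : Set G)) = (x₂ : G)
      rw [QuotientGroup.eq]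
      have e3 : (x₂ * a' * (x₁ * a)⁻¹ * x₁)⁻¹ * x₂ = a * a'⁻¹ := by group
      rw [e3]
      exact Subgroup.mul_mem _ (Subgroup.le_normalizer ha)
        (Subgroup.inv_mem _ (Subgroup.le_normalizer ha'))
    · change ((x₂ * a' * (x₁ * a)⁻¹ * y₁ : G) : G ⧸ Subgroup.normalizer (B : Set G)) = (y₂ : G)
      rw [QuotientGroup.eq]
      have e3 : (x₂ * a' * (x₁ * a)⁻¹ * y₁)⁻¹ * y₂ = b⁻¹ * b' := by rw [hy₁, hy₂]; group
      rw [e3]
      exact Subgroup.mul_mem _ (Subgroup.inv_mem _ (Subgroup.le_normalizer hb))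
        (Subgroup.le_normalizer hb')
  obtain ⟨r, hr, -, hrA⟩ := h.twoA 0
  obtain ⟨s, hs, -, hsB⟩ := h.twoB 0
  have hA1 : A ≠ ⊥ := fun hb => h.sy_ne_bot_A hr hrA (by rw [eq_bot_iff, ← hb]; exact sy_le r A)
  have hB1 : B ≠ ⊥ := fun hb =>
    h.symm.sy_ne_bot_A hs hsB (by rw [eq_bot_iff, ← hb]; exact sy_le s B)
  have hX : 2 ≤ Nat.card (G ⧸ Subgroup.normalizer (A : Set G)) := by
    have h1 : (Subgroup.normalizer (A : Set G)).index ≠ 1 := fun h1 =>
      (am.normalizer_ne_top A hA1 h.A_ne_top) (Subgroup.index_eq_one.mp h1)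
    have h2 : (Subgroup.normalizer (A : Set G)).index ≠ 0 := Subgroup.index_ne_zero_of_finite
    change 2 ≤ (Subgroup.normalizer (A : Set G)).index
    omega
  have hY : 2 ≤ Nat.card (G ⧸ Subgroup.normalizer (B : Set G)) := by
    have h1 : (Subgroup.normalizer (B : Set G)).index ≠ 1 := fun h1 =>
      (am.normalizer_ne_top B hB1 h.B_ne_top) (Subgroup.index_eq_one.mp h1)
    have h2 : (Subgroup.normalizer (B : Set G)).index ≠ 0 := Subgroup.index_ne_zero_of_finite
    change 2 ≤ (Subgroup.normalizer (B : Set G)).index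
    omega
  obtain ⟨g, hg1, hcase⟩ := kw_burnside_pair (G := G)
    (X := G ⧸ Subgroup.normalizer (A : Set G)) (Y := G ⧸ Subgroup.normalizer (B : Set G)) hX hY
  rcases hcase with ⟨h0, h2⟩ | ⟨h0, h2⟩
  · exact am.stepCount_aux h g hg1 h0 h2
  · exact am.stepCount_aux h.symm g hg1 h0 h2

end KWAmb

end Cfsg.Agent.Lib.Helper13
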