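import Mathlib
import Cfsg.Agent.Lib.Helper13.KW5
import Cfsg.Agent.Lib.Helper4.Burnside

/-!
# Wielandt's theorem: a product of two nilpotent subgroups of coprime orders is solvable
(helper13)
-/

set_option autoImplicit false

namespace Cfsg.Agent.Lib.Helper13

open scoped Pointwise

universe u

theorem kw_coprime_solvable_aux : ∀ (n : ℕ) (G : Type u) [Group G] [Finite G]
    (A B : Subgroup G), Nat.card G = n → Group.IsNilpotent A → Group.IsNilpotent B →
    (Nat.card A).Coprime (Nat.card B) → (∀ g : G, ∃ a ∈ A, ∃ b ∈ B, g = a * b) →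
    Group.IsSolvable G := by
  intro n
  induction n using Nat.strong_induction_on with
  | _ n ih =>
  intro G _ _ A B hn hA hB hcop hf
  by_contra hns
  have hih : ∀ L A' B' : Subgroup G, L ≠ ⊤ → Group.IsNilpotent A' → Group.IsNilpotent B' →
      (Nat.card A').Coprime (Nat.card B') → A' ≤ L → B' ≤ L →
      (∀ g ∈ L, ∃ a ∈ A', ∃ b ∈ B', g = a * b) → Group.IsSolvable L := by
    intro L A' B' hL hA' hB' hcop' hAL hBL hfL
    have hlt : Nat.card L < n := by
      rw [← hn]
      by_contra hge
      push Not at hge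
      exact hL (Subgroup.eq_top_of_card_eq L (le_antisymm (Subgroup.card_le_card_group L) hge))
    apply ih (Nat.card L) hlt L (A'.subgroupOf L) (B'.subgroupOf L) rfl
    · haveI := hA'
      exact Group.nilpotent_of_mulEquiv (Subgroup.subgroupOfEquivOfLe hAL).symm
    · haveI := hB'
      exact Group.nilpotent_of_mulEquiv (Subgroup.subgroupOfEquivOfLe hBL).symm
    · rw [Nat.card_congr (Subgroup.subgroupOfEquivOfLe hAL).toEquiv,
        Nat.card_congr (Subgroup.subgroupOfEquivOfLe hBL).toEquiv]
      exact hcop'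
    · intro g
      obtain ⟨a, ha, b, hb, e⟩ := hfL g.1 g.2
      exact ⟨⟨a, hAL ha⟩, Subgroup.mem_subgroupOf.mpr ha, ⟨b, hBL hb⟩,
        Subgroup.mem_subgroupOf.mpr hb, Subtype.ext e⟩
  have hsupN : ∀ (N : Subgroup G), N.Normal → N ≠ ⊥ → ∀ (A B : Subgroup G),
      Group.IsNilpotent A → Group.IsNilpotent B → (Nat.card A).Coprime (Nat.card B) →
      (∀ g : G, ∃ a ∈ A, ∃ b ∈ B, g = a * b) → A ⊔ N = ⊤ := by
    intro N hNn hN1 A B hA hB hcop hf
    by_contra hAN
    have hfL : ∀ g ∈ A ⊔ N, ∃ a ∈ A, ∃ b ∈ B ⊓ (A ⊔ N), g = a * b := by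
      intro g hg
      obtain ⟨a, ha, b, hb, rfl⟩ := hf g
      refine ⟨a, ha, b, ⟨hb, ?_⟩, rfl⟩
      have e : b = a⁻¹ * (a * b) := by group
      rw [e]
      exact (A ⊔ N).mul_mem ((A ⊔ N).inv_mem ((le_sup_left : A ≤ A ⊔ N) ha)) hg
    have hsolL : Group.IsSolvable ↥(A ⊔ N) := hih (A ⊔ N) A (B ⊓ (A ⊔ N)) hAN hA
      (kw_nilpotent_of_le hB inf_le_left)
      (Nat.Coprime.coprime_dvd_right (Subgroup.card_dvd_of_le inf_le_left) hcop)
      le_sup_left inf_le_right hfL
    haveI hsolN : Group.IsSolvable N := kw_solvable_of_le hsolL le_sup_right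
    haveI hsolQ : Group.IsSolvable (G ⧸ N) := by
      have hlt : Nat.card (G ⧸ N) < n := by
        rw [← hn]
        have h1 := N.card_mul_index
        have h2 : 1 < Nat.card N := (Subgroup.one_lt_card_iff_ne_bot N).mpr hN1
        have h3 : 0 < N.index := Nat.pos_of_ne_zero Subgroup.index_ne_zero_of_finite
        change N.index < Nat.card G
        nlinarith
      apply ih (Nat.card (G ⧸ N)) hlt (G ⧸ N) (A.map (QuotientGroup.mk' N))
        (B.map (QuotientGroup.mk' N)) rfl
      · haveI := hA
        exact Group.nilpotent_of_surjective _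
          (MonoidHom.subgroupMap_surjective (QuotientGroup.mk' N) A)
      · haveI := hB
        exact Group.nilpotent_of_surjective _
          (MonoidHom.subgroupMap_surjective (QuotientGroup.mk' N) B)
      · exact Nat.Coprime.coprime_dvd_left (Subgroup.card_map_dvd _ _)
          (Nat.Coprime.coprime_dvd_right (Subgroup.card_map_dvd _ _) hcop)
      · intro q
        obtain ⟨g, rfl⟩ := QuotientGroup.mk'_surjective N q
        obtain ⟨a, ha, b, hb, rfl⟩ := hf g
        exact ⟨_, ⟨a, ha, rfl⟩, _, ⟨b, hb, rfl⟩, map_mul _ _ _⟩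
    apply hns
    exact Group.isSolvable_of_ker_le_range N.subtype (QuotientGroup.mk' N) (by
      rw [QuotientGroup.ker_mk', Subgroup.range_subtype])
  have hf' : ∀ g : G, ∃ b ∈ B, ∃ a ∈ A, g = b * a := by
    intro g
    obtain ⟨a, ha, b, hb, e⟩ := hf g⁻¹
    refine ⟨b⁻¹, B.inv_mem hb, a⁻¹, A.inv_mem ha, ?_⟩
    rw [← mul_inv_rev, ← e, inv_inv]
  have hsimple : ∀ N : Subgroup G, N.Normal → N = ⊥ ∨ N = ⊤ := by
    intro N hNn
    by_contra hcon
    push Not at hcon
    obtain ⟨hN1, hNT⟩ := hcon
    haveI := hNn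
    have h1 := hsupN N hNn hN1 A B hA hB hcop hf
    have h2 := hsupN N hNn hN1 B A hB hA hcop.symm hf'
    have hA' : N.index ∣ Nat.card A := by
      have h3 : N.relIndex (A ⊔ N) = N.relIndex A := Subgroup.relIndex_sup_right A N
      rw [h1, Subgroup.relIndex_top_right] at h3
      rw [h3]; exact Subgroup.relIndex_dvd_card _ _
    have hB' : N.index ∣ Nat.card B := by
      have h3 : N.relIndex (B ⊔ N) = N.relIndex B := Subgroup.relIndex_sup_right B N
      rw [h2, Subgroup.relIndex_top_right] at h3
      rw [h3]; exact Subgroup.relIndex_dvd_card _ _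
    have h4 : N.index = 1 := Nat.eq_one_of_dvd_coprimes hcop hA' hB'
    exact hNT (Subgroup.index_eq_one.mp h4)
  have am : KWAmb G := ⟨hsimple, hns, hih⟩
  haveI : Nontrivial G := by
    by_contra hnt
    rw [not_nontrivial_iff_subsingleton] at hnt
    exact hns (Group.isSolvable_of_comm (fun a b => Subsingleton.elim _ _))
  haveI : IsSimpleGroup G := ⟨hsimple⟩
  have htwo : ∀ (A B : Subgroup G), Group.IsNilpotent A → Group.IsNilpotent B →
      (Nat.card A).Coprime (Nat.card B) → (∀ g : G, ∃ a ∈ A, ∃ b ∈ B, g = a * b) →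
      ∀ p : ℕ, ∃ r : ℕ, r.Prime ∧ r ≠ p ∧ r ∣ Nat.card A := by
    intro A B hA hB hcop hf p
    by_contra hcon
    push Not at hcon
    have hcardG : Nat.card G = Nat.card A * Nat.card B := by
      have h1 := card_mul_of_factorization A B hf
      rw [(Subgroup.disjoint_of_coprime_natCard hcop).eq_bot, Subgroup.card_bot, mul_one] at h1
      exact h1
    have hidx : B.index = Nat.card A := by
      have h1 := B.card_mul_index
      rw [hcardG, mul_comm] at h1
      exact Nat.eq_of_mul_eq_mul_right Nat.card_pos h1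
    have hB1 : B ≠ ⊥ := by
      intro hb
      apply hns
      have hAT : A = ⊤ := by
        rw [eq_top_iff]; intro g _
        obtain ⟨a, ha, b, hb', rfl⟩ := hf g
        rw [hb] at hb'
        rw [Subgroup.mem_bot.mp hb', mul_one]; exact ha
      haveI : Group.IsNilpotent G := by
        haveI := hA
        exact Group.nilpotent_of_mulEquiv ((MulEquiv.subgroupCongr hAT).trans Subgroup.topEquiv)
      infer_instance
    haveI : Nontrivial B := (Subgroup.nontrivial_iff_ne_bot B).mpr hB1
    haveI := hB
    have hcen := Group.IsNilpotent.center_ne_bot (G := B)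
    obtain ⟨w, hw, hw1⟩ : ∃ w : B, w ∈ Subgroup.center B ∧ w ≠ 1 := by
      by_contra hno
      push Not at hno
      apply hcen
      rw [eq_bot_iff]; intro w hw; exact Subgroup.mem_bot.mpr (hno w hw)
    have hBle : B ≤ Subgroup.centralizer ({(w : G)} : Set G) := by
      intro b hb
      rw [kw_mem_centralizer_singleton]
      have h1 := (Subgroup.mem_center_iff.mp hw) ⟨b, hb⟩
      have h2 := congrArg Subtype.val h1
      simpa using h2.symm
    have hdvd : (Subgroup.centralizer ({(w : G)} : Set G)).index ∣ Nat.card A := by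
      rw [← hidx]; exact Subgroup.index_dvd_of_le hBle
    have hw1' : (w : G) ≠ 1 := fun h => hw1 (Subtype.ext h)
    by_cases hA1 : Nat.card A = 1
    · have h1 : (Subgroup.centralizer ({(w : G)} : Set G)).index = 1 := by
        rw [hA1] at hdvd; exact Nat.dvd_one.mp hdvd
      have h2 := Subgroup.index_eq_one.mp h1
      apply hw1'
      apply am.center_bot
      intro x
      have h3 : x ∈ Subgroup.centralizer ({(w : G)} : Set G) := by
        rw [h2]; exact Subgroup.mem_top x
      exact (kw_mem_centralizer_singleton _ x).mp h3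
    · obtain ⟨r, hr, hrA⟩ := Nat.exists_prime_and_dvd hA1
      have hrp : r = p := by
        by_contra hne; exact hcon r hr hne hrA
      subst hrp
      have hpow : Nat.card A = r ^ (Nat.card A).primeFactorsList.length :=
        Nat.eq_prime_pow_of_unique_prime_dvd Nat.card_pos.ne' (fun {d} hd hdA => by
          by_contra hne; exact hcon d hd hne hdA)
      rw [hpow] at hdvd
      obtain ⟨j, -, hj⟩ := (Nat.dvd_prime_pow hr).mp hdvd
      have hprime := Cfsg.Agent.Lib.Helper4.prime_card_of_simple_of_index r j hr (w : G) hw1' hj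
      haveI := Fact.mk hprime
      haveI : IsCyclic G := isCyclic_of_prime_card (p := Nat.card G) rfl
      apply hns
      exact Group.isSolvable_of_comm (fun a b => Std.Commutative.comm a b)
  have cfg : KWCfg A B :=
    ⟨hA, hB, hcop, hf, htwo A B hA hB hcop hf, htwo B A hB hA hcop.symm hf'⟩
  exact am.stepCount cfg

/-- **Wielandt**: a finite group which is the product of two nilpotent subgroups of coprime
orders is solvable. -/
theorem kw_coprime_solvable {G : Type u} [Group G] [Finite G] (A B : Subgroup G)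
    (hA : Group.IsNilpotent A) (hB : Group.IsNilpotent B)
    (hcop : (Nat.card A).Coprime (Nat.card B)) (hf : ∀ g : G, ∃ a ∈ A, ∃ b ∈ B, g = a * b) :
    Group.IsSolvable G :=
  kw_coprime_solvable_aux (Nat.card G) G A B rfl hA hB hcop hf

end Cfsg.Agent.Lib.Helper13
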