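import Mathlib
import Cfsg.Agent.Lib.Helper13.KW6
import Cfsg.Agent.S0566
import Cfsg.Agent.S0560

set_option autoImplicit false
open Pointwise

namespace Cfsg.Agent.Lib.Helper13

universe u

/-- Kegel hypothesis: `X * Y^g` is (the carrier of) a `p`-subgroup for every `g`. -/
def KHyp {G : Type u} [Group G] (p : ℕ) (X Y : Subgroup G) : Prop :=
  ∀ g : G, ∃ S : Subgroup G, IsPGroup p S ∧
    (S : Set G) = (X : Set G) * ((MulAut.conj g • Y : Subgroup G) : Set G)

theorem kw_conj_le_normal {G : Type u} [Group G] (D : Subgroup G) [hD : D.Normal] {Y : Subgroup G}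
    (hY : Y ≤ D) (g : G) : (MulAut.conj g • Y : Subgroup G) ≤ D := by
  intro y hy
  rw [mem_conj_smul_iff] at hy
  have h1 := hD.conj_mem _ (hY hy) g
  have h2 : g * (g⁻¹ * y * g) * g⁻¹ = y := by group
  rwa [h2] at h1

theorem KHyp.symm {G : Type u} [Group G] {p : ℕ} {X Y : Subgroup G} (h : KHyp p X Y) :
    KHyp p Y X := by
  intro g
  obtain ⟨S, hS, hSe⟩ := h g⁻¹
  refine ⟨MulAut.conj g • S, isPGroup_conj hS g, ?_⟩
  ext z
  rw [SetLike.mem_coe, mem_conj_smul_iff, ← SetLike.mem_coe, Set.mem_mul]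
  constructor
  · intro hz
    have hz' : (g⁻¹ * z * g)⁻¹ ∈ (S : Set G) := S.inv_mem hz
    rw [hSe, Set.mem_mul] at hz'
    obtain ⟨x, hx, y, hy, hxy⟩ := hz'
    rw [SetLike.mem_coe, mem_conj_smul_iff] at hy
    refine ⟨g * y⁻¹ * g⁻¹, ?_, g * x⁻¹ * g⁻¹, ?_, ?_⟩
    · have h1 : g * y⁻¹ * g⁻¹ = (g⁻¹⁻¹ * y * g⁻¹)⁻¹ := by group
      rw [h1]
      exact Y.inv_mem hy
    · exact conj_mem_conj_smul g (X.inv_mem hx)
    · have h1 : g * y⁻¹ * g⁻¹ * (g * x⁻¹ * g⁻¹) = g * (x * y)⁻¹ * g⁻¹ := by group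
      rw [h1, hxy]
      group
  · rintro ⟨y, hy, x, hx, rfl⟩
    rw [SetLike.mem_coe, mem_conj_smul_iff] at hx
    have h1 : (g⁻¹ * (y * x) * g)⁻¹ ∈ (S : Set G) := by
      rw [hSe, Set.mem_mul]
      refine ⟨(g⁻¹ * x * g)⁻¹, X.inv_mem hx, g⁻¹ * y⁻¹ * g, ?_, by group⟩
      rw [SetLike.mem_coe, mem_conj_smul_iff]
      have h2 : g⁻¹⁻¹ * (g⁻¹ * y⁻¹ * g) * g⁻¹ = y⁻¹ := by group
      rw [h2]
      exact Y.inv_mem hy
    have h3 := S.inv_mem h1
    rwa [inv_inv] at h3

theorem KHyp.conj_right {G : Type u} [Group G] {p : ℕ} {X Y : Subgroup G} (h : KHyp p X Y)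
    (g : G) : KHyp p X (MulAut.conj g • Y) := by
  intro k
  obtain ⟨S, hS, hSe⟩ := h (k * g)
  refine ⟨S, hS, ?_⟩
  rw [hSe, conj_smul_conj_smul]

theorem KHyp.map {G H : Type u} [Group G] [Group H] {p : ℕ} {X Y : Subgroup G}
    (h : KHyp p X Y) (f : G →* H) (hf : Function.Surjective f) :
    KHyp p (X.map f) (Y.map f) := by
  intro q
  obtain ⟨g, rfl⟩ := hf q
  obtain ⟨S, hS, hSe⟩ := h g
  refine ⟨S.map f, hS.map f, ?_⟩
  ext z
  rw [SetLike.mem_coe, Subgroup.mem_map, Set.mem_mul]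
  constructor
  · rintro ⟨s, hs, rfl⟩
    have hs' : s ∈ (S : Set G) := hs
    rw [hSe, Set.mem_mul] at hs'
    obtain ⟨x, hx, y, hy, rfl⟩ := hs'
    rw [SetLike.mem_coe, mem_conj_smul_iff] at hy
    refine ⟨f x, Subgroup.mem_map_of_mem f hx, f y, ?_, (map_mul f x y).symm⟩
    rw [SetLike.mem_coe, mem_conj_smul_iff]
    have h1 : (f g)⁻¹ * f y * f g = f (g⁻¹ * y * g) := by
      rw [map_mul, map_mul, map_inv]
    rw [h1]
    exact Subgroup.mem_map_of_mem f hy
  · rintro ⟨a, ha, b, hb, rfl⟩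
    rw [SetLike.mem_coe, Subgroup.mem_map] at ha
    obtain ⟨x, hx, rfl⟩ := ha
    rw [SetLike.mem_coe, mem_conj_smul_iff, Subgroup.mem_map] at hb
    obtain ⟨y, hy, hyb⟩ := hb
    refine ⟨x * (g * y * g⁻¹), ?_, ?_⟩
    · have : x * (g * y * g⁻¹) ∈ (S : Set G) := by
        rw [hSe, Set.mem_mul]
        exact ⟨x, hx, g * y * g⁻¹, conj_mem_conj_smul g hy, rfl⟩
      exact this
    · rw [map_mul, map_mul, map_mul, map_inv, hyb]
      group

theorem KHyp.isPGroup_left {G : Type u} [Group G] {p : ℕ} {X Y : Subgroup G} (h : KHyp p X Y) :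
    IsPGroup p X := by
  obtain ⟨S, hS, hSe⟩ := h 1
  apply hS.to_le
  intro x hx
  have : x ∈ (S : Set G) := by
    rw [hSe, Set.mem_mul]
    exact ⟨x, hx, 1, Subgroup.one_mem _, mul_one x⟩
  exact this

/-- If `O_p(G) = 1` then `O_p(D) = 1` for every normal subgroup `D`. -/
theorem kw_opsub {G : Type u} [Group G] [Finite G] {p : ℕ} (hp : p.Prime)
    (hstar : ∀ K : Subgroup G, K.Normal → IsPGroup p K → K = ⊥)
    (D : Subgroup G) [hD : D.Normal] (K : Subgroup G) (hKD : K ≤ D) (hK : IsPGroup p K)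
    (hn : ∀ d ∈ D, ∀ k ∈ K, d * k * d⁻¹ ∈ K) : K = ⊥ := by
  haveI : Fact p.Prime := ⟨hp⟩
  obtain ⟨P⟩ : Nonempty (Sylow p D) := inferInstance
  have key : ∀ g : G, (MulAut.conj g • K : Subgroup G) ≤ (P : Subgroup D).map D.subtype := by
    intro g
    have h1 : (MulAut.conj g • K : Subgroup G) ≤ D := kw_conj_le_normal D hKD g
    have h2 : IsPGroup p ((MulAut.conj g • K : Subgroup G).subgroupOf D) :=
      (isPGroup_conj hK g).comap_subtype
    haveI h3 : ((MulAut.conj g • K : Subgroup G).subgroupOf D).Normal := by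
      constructor
      intro n hn' d
      rw [Subgroup.mem_subgroupOf] at hn' ⊢
      rw [mem_conj_smul_iff] at hn' ⊢
      have hd : g⁻¹ * (d : G) * g ∈ D := by
        have := hD.conj_mem _ d.2 g⁻¹
        rwa [inv_inv] at this
      have h4 := hn _ hd _ hn'
      have h5 : g⁻¹ * ((d * n * d⁻¹ : D) : G) * g
          = g⁻¹ * (d : G) * g * (g⁻¹ * (n : G) * g) * (g⁻¹ * (d : G) * g)⁻¹ := by
        push_cast
        group
      rw [h5]
      exact h4
    have h4 := h2.le_sylow_of_normal P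
    intro y hy
    rw [Subgroup.mem_map]
    exact ⟨⟨y, h1 hy⟩, h4 (by rw [Subgroup.mem_subgroupOf]; exact hy), rfl⟩
  have hO : IsPGroup p (Subgroup.normalClosure (K : Set G)) := by
    apply IsPGroup.to_le (P.isPGroup'.map D.subtype)
    rw [Subgroup.normalClosure, Subgroup.closure_le]
    intro c hc
    rw [Group.mem_conjugatesOfSet_iff] at hc
    obtain ⟨a, ha, hac⟩ := hc
    rw [isConj_iff] at hac
    obtain ⟨g, hg⟩ := hac
    apply key g
    rw [← hg]
    exact conj_mem_conj_smul g ha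
  have h6 := hstar _ Subgroup.normalClosure_normal hO
  have h7 : K ≤ Subgroup.normalClosure (K : Set G) := Subgroup.le_normalClosure
  rw [h6] at h7
  exact le_bot_iff.mp h7

theorem kw_half {G : Type u} [Group G] [Finite G] {p : ℕ} (hp : p.Prime)
    (IH : ∀ (H : Type u) [Group H] [Finite H], Nat.card H < Nat.card G →
      ∀ (X Y : Subgroup H), KHyp p X Y → ∃ K : Subgroup H, K.Normal ∧ IsPGroup p K ∧
        ∀ x ∈ X, ∀ y ∈ Y, x * y * x⁻¹ * y⁻¹ ∈ K)
    (hstar : ∀ K : Subgroup G, K.Normal → IsPGroup p K → K = ⊥)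
    (X Y : Subgroup G) (hyp : KHyp p X Y) (hD : Subgroup.normalClosure (Y : Set G) ≠ ⊤) :
    X ⊓ Subgroup.normalClosure (Y : Set G) = ⊥ ∧
      ∀ g : G, ∀ x ∈ X, ∀ y ∈ (MulAut.conj g • Y : Subgroup G),
        x * y * x⁻¹ ∈ (MulAut.conj g • Y : Subgroup G) := by
  obtain ⟨D, hDe⟩ : ∃ D, D = Subgroup.normalClosure (Y : Set G) := ⟨_, rfl⟩
  rw [← hDe] at hD ⊢
  haveI hDn : D.Normal := by rw [hDe]; exact Subgroup.normalClosure_normal
  have hYD0 : Y ≤ D := by rw [hDe]; exact Subgroup.le_normalClosure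
  have hYD : ∀ h : G, (MulAut.conj h • Y : Subgroup G) ≤ D := fun h => kw_conj_le_normal D hYD0 h
  have hlt : Nat.card D < Nat.card G :=
    lt_of_le_of_ne (Subgroup.card_le_card_group D) (fun h => hD (Subgroup.eq_top_of_card_eq D h))
  -- commutation of X ⊓ D with all conjugates of Y
  have hcomm : ∀ h : G, ∀ x ∈ X, x ∈ D → ∀ y ∈ (MulAut.conj h • Y : Subgroup G),
      x * y * x⁻¹ * y⁻¹ = 1 := by
    intro h
    have hK : KHyp p (X.subgroupOf D) ((MulAut.conj h • Y : Subgroup G).subgroupOf D) := by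
      intro d
      obtain ⟨S, hS, hSe⟩ := hyp ((d : G) * h)
      refine ⟨S.subgroupOf D, hS.comap_subtype, ?_⟩
      ext z
      rw [SetLike.mem_coe, Subgroup.mem_subgroupOf, ← SetLike.mem_coe, hSe, Set.mem_mul,
        Set.mem_mul]
      constructor
      · rintro ⟨x, hx, y, hy, hxy⟩
        have hyD : y ∈ D := hYD _ hy
        have hxD : x ∈ D := by
          have h1 : x = (z : G) * y⁻¹ := by rw [← hxy]; group
          rw [h1]
          exact D.mul_mem z.2 (D.inv_mem hyD)
        refine ⟨⟨x, hxD⟩, ?_, ⟨y, hyD⟩, ?_, ?_⟩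
        · rw [SetLike.mem_coe, Subgroup.mem_subgroupOf]
          exact hx
        · rw [SetLike.mem_coe, mem_conj_smul_iff, Subgroup.mem_subgroupOf, mem_conj_smul_iff]
          rw [SetLike.mem_coe, mem_conj_smul_iff] at hy
          have h1 : h⁻¹ * ((d⁻¹ * ⟨y, hyD⟩ * d : D) : G) * h = ((d : G) * h)⁻¹ * y * ((d : G) * h) := by
            push_cast
            group
          rw [h1]
          exact hy
        · apply Subtype.ext
          push_cast
          exact hxy
      · rintro ⟨x, hx, y, hy, hxy⟩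
        rw [SetLike.mem_coe, Subgroup.mem_subgroupOf] at hx
        rw [SetLike.mem_coe, mem_conj_smul_iff, Subgroup.mem_subgroupOf, mem_conj_smul_iff] at hy
        refine ⟨(x : G), hx, (y : G), ?_, ?_⟩
        · rw [SetLike.mem_coe, mem_conj_smul_iff]
          have h1 : ((d : G) * h)⁻¹ * (y : G) * ((d : G) * h) = h⁻¹ * ((d⁻¹ * y * d : D) : G) * h := by
            push_cast
            group
          rw [h1]
          exact hy
        · rw [← hxy]
          push_cast
          rfl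
    obtain ⟨K', hK'n, hK'p, hK'c⟩ := IH D hlt _ _ hK
    have hK'bot : K'.map D.subtype = ⊥ := by
      apply kw_opsub hp hstar D (K'.map D.subtype) (Subgroup.map_subtype_le K') (hK'p.map _)
      intro d hd k hk
      rw [Subgroup.mem_map] at hk ⊢
      obtain ⟨k', hk', rfl⟩ := hk
      exact ⟨⟨d, hd⟩ * k' * ⟨d, hd⟩⁻¹, hK'n.conj_mem k' hk' ⟨d, hd⟩, rfl⟩
    intro x hx hxD y hy
    have h1 := hK'c ⟨x, hxD⟩ (by rw [Subgroup.mem_subgroupOf]; exact hx) ⟨y, hYD h hy⟩
      (by rw [Subgroup.mem_subgroupOf]; exact hy)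
    have h2 : (D.subtype (⟨x, hxD⟩ * ⟨y, hYD h hy⟩ * ⟨x, hxD⟩⁻¹ * ⟨y, hYD h hy⟩⁻¹)) ∈
        K'.map D.subtype := Subgroup.mem_map_of_mem _ h1
    rw [hK'bot, Subgroup.mem_bot] at h2
    exact h2
  -- X ⊓ D centralizes D
  have hcent : ∀ x ∈ X, x ∈ D → ∀ d ∈ D, x * d = d * x := by
    intro x hx hxD
    have h1 : D ≤ Subgroup.centralizer ({x} : Set G) := by
      rw [hDe, Subgroup.normalClosure, Subgroup.closure_le]
      intro c hc
      rw [Group.mem_conjugatesOfSet_iff] at hc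
      obtain ⟨a, ha, hac⟩ := hc
      rw [isConj_iff] at hac
      obtain ⟨g, hg⟩ := hac
      rw [SetLike.mem_coe, kw_mem_centralizer_singleton]
      have h2 := hcomm g x hx hxD c (by rw [← hg]; exact conj_mem_conj_smul g ha)
      have h3 : x * c = (x * c * x⁻¹ * c⁻¹) * (c * x) := by group
      rw [h3, h2, one_mul]
    intro d hd
    exact (kw_mem_centralizer_singleton x d).mp (h1 hd)
  have hXD : X ⊓ D = ⊥ := by
    apply kw_opsub hp hstar D (X ⊓ D) inf_le_right (hyp.isPGroup_left.to_le inf_le_left)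
    intro d hd k hk
    have h1 := hcent k hk.1 hk.2 d hd
    have h2 : d * k * d⁻¹ = k := by rw [← h1]; group
    rw [h2]
    exact hk
  refine ⟨hXD, ?_⟩
  intro g x hx y hy
  obtain ⟨S, hS, hSe⟩ := hyp g
  have hxS : x ∈ S := by
    have : x ∈ (S : Set G) := by
      rw [hSe, Set.mem_mul]
      exact ⟨x, hx, 1, Subgroup.one_mem _, mul_one x⟩
    exact this
  have hyS : y ∈ S := by
    have : y ∈ (S : Set G) := by
      rw [hSe, Set.mem_mul]
      exact ⟨1, Subgroup.one_mem _, y, hy, one_mul y⟩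
    exact this
  have h1 : x * y * x⁻¹ ∈ (S : Set G) := S.mul_mem (S.mul_mem hxS hyS) (S.inv_mem hxS)
  rw [hSe, Set.mem_mul] at h1
  obtain ⟨x', hx', y', hy', hxy'⟩ := h1
  have hyD : y ∈ D := hYD g hy
  have hy'D : y' ∈ D := hYD g hy'
  have hx'D : x' ∈ D := by
    have h2 : x' = (x * y * x⁻¹) * y'⁻¹ := by rw [← hxy']; group
    rw [h2]
    exact D.mul_mem (hDn.conj_mem y hyD x) (D.inv_mem hy'D)
  have hx'1 : x' = 1 := by
    have h3 : x' ∈ X ⊓ D := ⟨hx', hx'D⟩
    rw [hXD, Subgroup.mem_bot] at h3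
    exact h3
  rw [← hxy', hx'1, one_mul]
  exact hy'

/-- conjugates of `X` normalize `Y` when `X` normalizes all conjugates of `Y`. -/
theorem kw_normal_of_half {G : Type u} [Group G] (X Y : Subgroup G)
    (hX : Subgroup.normalClosure (X : Set G) = ⊤)
    (h : ∀ g : G, ∀ x ∈ X, ∀ y ∈ (MulAut.conj g • Y : Subgroup G),
        x * y * x⁻¹ ∈ (MulAut.conj g • Y : Subgroup G)) : Y.Normal := by
  have h1 : Subgroup.normalClosure (X : Set G) ≤ Subgroup.normalizer (Y : Set G) := by
    rw [Subgroup.normalClosure, Subgroup.closure_le]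
    intro c hc
    rw [Group.mem_conjugatesOfSet_iff] at hc
    obtain ⟨a, ha, hac⟩ := hc
    rw [isConj_iff] at hac
    obtain ⟨g, hg⟩ := hac
    rw [SetLike.mem_coe, kw_mem_normalizer_iff]
    have key : ∀ y ∈ Y, c * y * c⁻¹ ∈ Y := by
      intro y hy
      have h2 := h g⁻¹ a ha (g⁻¹ * y * g⁻¹⁻¹) (conj_mem_conj_smul g⁻¹ hy)
      rw [mem_conj_smul_iff] at h2
      have h3 : g⁻¹⁻¹ * (a * (g⁻¹ * y * g⁻¹⁻¹) * a⁻¹) * g⁻¹ = c * y * c⁻¹ := by
        rw [← hg]; group
      rwa [h3] at h2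
    apply le_antisymm
    · intro z hz
      rw [mem_conj_smul_iff] at hz
      have h4 := key _ hz
      have h5 : c * (c⁻¹ * z * c) * c⁻¹ = z := by group
      rwa [h5] at h4
    · intro z hz
      rw [mem_conj_smul_iff]
      -- c⁻¹ z c ∈ Y : finite-free argument via injectivity is not available; use key on inverse
      have key' : ∀ y ∈ Y, c⁻¹ * y * c ∈ Y := by
        intro y hy
        have h2 := h g⁻¹ a⁻¹ (X.inv_mem ha) (g⁻¹ * y * g⁻¹⁻¹) (conj_mem_conj_smul g⁻¹ hy)
        rw [mem_conj_smul_iff] at h2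
        have h3 : g⁻¹⁻¹ * (a⁻¹ * (g⁻¹ * y * g⁻¹⁻¹) * a⁻¹⁻¹) * g⁻¹ = c⁻¹ * y * c := by
          rw [← hg]; group
        rwa [h3] at h2
      exact key' z hz
  rw [hX, top_le_iff] at h1
  exact Subgroup.normalizer_eq_top_iff.mp h1

theorem kw_kegel_strong (p : ℕ) (hp : p.Prime) : ∀ (n : ℕ) (G : Type u) [Group G] [Finite G]
    (X Y : Subgroup G), Nat.card G = n → KHyp p X Y →
    ∃ K : Subgroup G, K.Normal ∧ IsPGroup p K ∧ ∀ x ∈ X, ∀ y ∈ Y, x * y * x⁻¹ * y⁻¹ ∈ K := by
  intro n
  induction n using Nat.strong_induction_on with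
  | _ n ih =>
    intro G _ _ X Y hn hyp
    have IH : ∀ (H : Type u) [Group H] [Finite H], Nat.card H < Nat.card G →
        ∀ (X Y : Subgroup H), KHyp p X Y → ∃ K : Subgroup H, K.Normal ∧ IsPGroup p K ∧
        ∀ x ∈ X, ∀ y ∈ Y, x * y * x⁻¹ * y⁻¹ ∈ K := by
      intro H _ _ hlt X' Y' h'
      exact ih (Nat.card H) (hn ▸ hlt) H X' Y' rfl h'
    by_cases hstar : ∀ K : Subgroup G, K.Normal → IsPGroup p K → K = ⊥
    · -- O_p(G) = 1
      have hbot : ∀ (x y : G), x * y * x⁻¹ * y⁻¹ = 1 → x * y * x⁻¹ * y⁻¹ ∈ (⊥ : Subgroup G) := by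
        intro x y h
        rw [h]; exact Subgroup.one_mem _
      have hYX : KHyp p Y X := hyp.symm
      by_cases hDY : Subgroup.normalClosure (Y : Set G) = ⊤
      · by_cases hDX : Subgroup.normalClosure (X : Set G) = ⊤
        · by_cases hX1 : X = ⊥
          · refine ⟨⊥, Subgroup.normal_bot, IsPGroup.of_bot, ?_⟩
            intro x hx y hy
            rw [hX1, Subgroup.mem_bot] at hx
            apply hbot
            rw [hx]; group
          by_cases hY1 : Y = ⊥
          · refine ⟨⊥, Subgroup.normal_bot, IsPGroup.of_bot, ?_⟩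
            intro x hx y hy
            rw [hY1, Subgroup.mem_bot] at hy
            apply hbot
            rw [hy]; group
          exfalso
          have h66 : ∀ x : G, ∃ S : Subgroup G, S ≠ ⊤ ∧
              (S : Set G) = (X : Set G) * ((MulAut.conj x • Y : Subgroup G) : Set G) := by
            intro g
            obtain ⟨S, hS, hSe⟩ := hyp g
            refine ⟨S, ?_, hSe⟩
            intro hSt
            rw [hSt] at hS
            have h1 := hstar ⊤ Subgroup.normal_top hS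
            apply hX1
            rw [eq_bot_iff, ← h1]
            exact le_top
          obtain ⟨N, hNn, hNt, hN⟩ := Cfsg.Agent.S0566.result X Y hX1 hY1 h66
          haveI := hNn
          rcases hN with hN | hN
          · apply hNt
            rw [eq_top_iff, ← hDX]
            exact Subgroup.normalClosure_le_normal hN
          · apply hNt
            rw [eq_top_iff, ← hDY]
            exact Subgroup.normalClosure_le_normal hN
        · -- normal closure of Y is everything, that of X is proper: X is normal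
          obtain ⟨-, h2⟩ := kw_half hp IH hstar Y X hYX hDX
          have hXn : X.Normal := kw_normal_of_half Y X hDY h2
          refine ⟨X, hXn, hyp.isPGroup_left, ?_⟩
          intro x hx y hy
          have h3 : x * y * x⁻¹ * y⁻¹ = x * (y * x⁻¹ * y⁻¹) := by group
          rw [h3]
          exact X.mul_mem hx (hXn.conj_mem _ (X.inv_mem hx) y)
      · obtain ⟨h1, h2⟩ := kw_half hp IH hstar X Y hyp hDY
        by_cases hDX : Subgroup.normalClosure (X : Set G) = ⊤
        · have hYn : Y.Normal := kw_normal_of_half X Y hDX h2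
          refine ⟨Y, hYn, hYX.isPGroup_left, ?_⟩
          intro x hx y hy
          exact Y.mul_mem (hYn.conj_mem _ hy x) (Y.inv_mem hy)
        · obtain ⟨-, h4⟩ := kw_half hp IH hstar Y X hYX hDX
          refine ⟨⊥, Subgroup.normal_bot, IsPGroup.of_bot, ?_⟩
          intro x hx y hy
          have h5 : x * y * x⁻¹ ∈ Y := by
            have := h2 1 x hx y (by rw [map_one, one_smul]; exact hy)
            rwa [map_one, one_smul] at this
          have h6 : y * x⁻¹ * y⁻¹ ∈ X := by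
            have := h4 1 y hy x⁻¹ (by rw [map_one, one_smul]; exact X.inv_mem hx)
            rwa [map_one, one_smul] at this
          have h7 : x * y * x⁻¹ * y⁻¹ ∈ X ⊓ Subgroup.normalClosure (Y : Set G) := by
            constructor
            · have h3 : x * y * x⁻¹ * y⁻¹ = x * (y * x⁻¹ * y⁻¹) := by group
              rw [h3]
              exact X.mul_mem hx h6
            · exact Subgroup.le_normalClosure (Y.mul_mem h5 (Y.inv_mem hy))
          rw [h1] at h7
          exact h7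
    · -- O_p(G) ≠ 1 : pass to the quotient
      push Not at hstar
      obtain ⟨K₀, hK₀n, hK₀p, hK₀1⟩ := hstar
      haveI := hK₀n
      have hlt : Nat.card (G ⧸ K₀) < Nat.card G := by
        have h1 := Subgroup.card_eq_card_quotient_mul_card_subgroup K₀
        have h2 : 1 < Nat.card K₀ := (Subgroup.one_lt_card_iff_ne_bot K₀).mpr hK₀1
        have h3 : 0 < Nat.card (G ⧸ K₀) := Nat.card_pos
        rw [h1]
        nlinarith
      obtain ⟨Kb, hKbn, hKbp, hKbc⟩ := IH (G ⧸ K₀) hlt _ _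
        (hyp.map (QuotientGroup.mk' K₀) (QuotientGroup.mk'_surjective K₀))
      refine ⟨Kb.comap (QuotientGroup.mk' K₀), hKbn.comap _, ?_, ?_⟩
      · apply hKbp.comap_of_ker_isPGroup
        rw [QuotientGroup.ker_mk']
        exact hK₀p
      · intro x hx y hy
        rw [Subgroup.mem_comap]
        have h1 := hKbc _ (Subgroup.mem_map_of_mem (QuotientGroup.mk' K₀) hx) _
          (Subgroup.mem_map_of_mem (QuotientGroup.mk' K₀) hy)
        rw [map_mul, map_mul, map_mul, map_inv, map_inv]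
        exact h1

end Cfsg.Agent.Lib.Helper13
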