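import Mathlib
import Cfsg.Agent.Lib.Helper13.KW7

set_option autoImplicit false
open Pointwise

namespace Cfsg.Agent.Lib.Helper13

universe u

/-- extension of solvable by solvable -/
theorem kw_solvable_of_normal {G : Type u} [Group G] (N : Subgroup G) [N.Normal]
    (h1 : Group.IsSolvable N) (h2 : Group.IsSolvable (G ⧸ N)) : Group.IsSolvable G := by
  refine Group.isSolvable_of_ker_le_range N.subtype (QuotientGroup.mk' N) ?_
  rw [QuotientGroup.ker_mk', Subgroup.range_subtype]

theorem kw_solvable_of_inf_bot {G : Type u} [Group G] (N₁ N₂ : Subgroup G) [N₁.Normal]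
    [N₂.Normal] (h : N₁ ⊓ N₂ = ⊥)
    (h1 : Group.IsSolvable (G ⧸ N₁)) (h2 : Group.IsSolvable (G ⧸ N₂)) : Group.IsSolvable G := by
  refine Group.isSolvable_of_isSolvable_injective
    (f := MonoidHom.prod (QuotientGroup.mk' N₁) (QuotientGroup.mk' N₂)) ?_
  intro a b hab
  rw [MonoidHom.prod_apply, MonoidHom.prod_apply, Prod.mk.injEq] at hab
  obtain ⟨e1, e2⟩ := hab
  have h3 : a⁻¹ * b ∈ N₁ ⊓ N₂ := ⟨QuotientGroup.eq.mp e1, QuotientGroup.eq.mp e2⟩
  rw [h, Subgroup.mem_bot] at h3
  exact inv_mul_eq_one.mp h3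

theorem kw_solvable_aux : ∀ (n : ℕ) (G : Type u) [Group G] [Finite G] (A B : Subgroup G),
    Nat.card G = n → Group.IsNilpotent A → Group.IsNilpotent B →
    (∀ g : G, ∃ a ∈ A, ∃ b ∈ B, g = a * b) → Group.IsSolvable G := by
  intro n
  induction n using Nat.strong_induction_on with
  | _ n ih =>
    intro G _ _ A B hn hA hB hAB
    -- quotients are solvable
    have hQ : ∀ (N : Subgroup G) [N.Normal], N ≠ ⊥ → Group.IsSolvable (G ⧸ N) := by
      intro N _ hN1
      have hlt : Nat.card (G ⧸ N) < n := by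
        have h1 := Subgroup.card_eq_card_quotient_mul_card_subgroup N
        have h2 : 1 < Nat.card N := (Subgroup.one_lt_card_iff_ne_bot N).mpr hN1
        have h3 : 0 < Nat.card (G ⧸ N) := Nat.card_pos
        rw [← hn, h1]
        nlinarith
      refine ih _ hlt (G ⧸ N) (A.map (QuotientGroup.mk' N)) (B.map (QuotientGroup.mk' N)) rfl
        ?_ ?_ ?_
      · haveI := hA
        exact Group.nilpotent_of_surjective ((QuotientGroup.mk' N).subgroupMap A)
          ((QuotientGroup.mk' N).subgroupMap_surjective A)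
      · haveI := hB
        exact Group.nilpotent_of_surjective ((QuotientGroup.mk' N).subgroupMap B)
          ((QuotientGroup.mk' N).subgroupMap_surjective B)
      · intro q
        obtain ⟨g, rfl⟩ := QuotientGroup.mk'_surjective N q
        obtain ⟨a, ha, b, hb, rfl⟩ := hAB g
        exact ⟨_, Subgroup.mem_map_of_mem _ ha, _, Subgroup.mem_map_of_mem _ hb, map_mul _ a b⟩
    by_cases hcop : (Nat.card A).Coprime (Nat.card B)
    · exact kw_coprime_solvable A B hA hB hcop hAB
    obtain ⟨p, hp, hpA, hpB⟩ := Nat.Prime.not_coprime_iff_dvd.mp hcop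
    haveI : Fact p.Prime := ⟨hp⟩
    have hX1 : sy p A ≠ ⊥ := (sy_ne_bot_iff hp A hA).mpr hpA
    have hY1 : sy p B ≠ ⊥ := (sy_ne_bot_iff hp B hB).mpr hpB
    have hyp : KHyp p (sy p A) (sy p B) := by
      obtain ⟨P, Q, R, hR⟩ := Cfsg.Agent.S0560.result A B hAB p
      rw [← sy_eq_map A hA P, ← sy_eq_map B hB Q] at hR
      intro g
      obtain ⟨a, ha, b, hb, rfl⟩ := hAB g
      refine ⟨MulAut.conj a • (R : Subgroup G), isPGroup_conj R.isPGroup' a, ?_⟩
      rw [← conj_smul_conj_smul, sy_normal p B hb]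
      ext z
      rw [SetLike.mem_coe, mem_conj_smul_iff, ← SetLike.mem_coe, hR, Set.mem_mul, Set.mem_mul]
      constructor
      · rintro ⟨x, hx, y, hy, hxy⟩
        refine ⟨a * x * a⁻¹, ?_, a * y * a⁻¹, conj_mem_conj_smul a hy, ?_⟩
        · have h1 := conj_mem_conj_smul a hx
          rwa [sy_normal p A ha] at h1
        · have h1 : a * x * a⁻¹ * (a * y * a⁻¹) = a * (x * y) * a⁻¹ := by group
          rw [h1, hxy]; group
      · rintro ⟨x, hx, y, hy, rfl⟩
        rw [SetLike.mem_coe, mem_conj_smul_iff] at hy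
        refine ⟨a⁻¹ * x * a, ?_, a⁻¹ * y * a, hy, by group⟩
        rw [SetLike.mem_coe, ← mem_conj_smul_iff, sy_normal p A ha]
        exact hx
    by_cases hstar : ∀ K : Subgroup G, K.Normal → IsPGroup p K → K = ⊥
    · -- all conjugates of X commute with all conjugates of Y
      have hc1 : ∀ g : G, ∀ x ∈ sy p A, ∀ y ∈ (MulAut.conj g • sy p B : Subgroup G),
          x * y = y * x := by
        intro g x hx y hy
        obtain ⟨K, hKn, hKp, hKc⟩ := kw_kegel_strong p hp _ G _ _ rfl (hyp.conj_right g)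
        have h1 := hKc x hx y hy
        rw [hstar K hKn hKp, Subgroup.mem_bot] at h1
        have h2 : x * y = (x * y * x⁻¹ * y⁻¹) * (y * x) := by group
        rw [h2, h1, one_mul]
      obtain ⟨N₁, hN₁e⟩ : ∃ N, N = Subgroup.normalClosure ((sy p A : Subgroup G) : Set G) :=
        ⟨_, rfl⟩
      obtain ⟨N₂, hN₂e⟩ : ∃ N, N = Subgroup.normalClosure ((sy p B : Subgroup G) : Set G) :=
        ⟨_, rfl⟩
      haveI hN₁n : N₁.Normal := by rw [hN₁e]; exact Subgroup.normalClosure_normal
      haveI hN₂n : N₂.Normal := by rw [hN₂e]; exact Subgroup.normalClosure_normal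
      have hN₁1 : N₁ ≠ ⊥ := by
        intro h
        apply hX1
        rw [eq_bot_iff, ← h, hN₁e]
        exact Subgroup.le_normalClosure
      have hN₂1 : N₂ ≠ ⊥ := by
        intro h
        apply hY1
        rw [eq_bot_iff, ← h, hN₂e]
        exact Subgroup.le_normalClosure
      have hc2 : ∀ x ∈ sy p A, ∀ m ∈ N₂, x * m = m * x := by
        intro x hx
        have h1 : N₂ ≤ Subgroup.centralizer ({x} : Set G) := by
          rw [hN₂e, Subgroup.normalClosure, Subgroup.closure_le]
          intro c hc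
          rw [Group.mem_conjugatesOfSet_iff] at hc
          obtain ⟨a, ha, hac⟩ := hc
          rw [isConj_iff] at hac
          obtain ⟨g, hg⟩ := hac
          rw [SetLike.mem_coe, kw_mem_centralizer_singleton]
          exact hc1 g x hx c (by rw [← hg]; exact conj_mem_conj_smul g ha)
        intro m hm
        exact (kw_mem_centralizer_singleton x m).mp (h1 hm)
      have hc3 : ∀ k ∈ N₁, ∀ m ∈ N₂, k * m = m * k := by
        have h1 : N₁ ≤ Subgroup.centralizer (N₂ : Set G) := by
          rw [hN₁e, Subgroup.normalClosure, Subgroup.closure_le]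
          intro c hc
          rw [Group.mem_conjugatesOfSet_iff] at hc
          obtain ⟨a, ha, hac⟩ := hc
          rw [isConj_iff] at hac
          obtain ⟨g, hg⟩ := hac
          rw [SetLike.mem_coe, Subgroup.mem_centralizer_iff]
          intro m hm
          have h2 := hc2 a ha (g⁻¹ * m * g) (by
            have := hN₂n.conj_mem m hm g⁻¹
            rwa [inv_inv] at this)
          rw [← hg]
          have h3 : m * (g * a * g⁻¹) = g * ((g⁻¹ * m * g) * a) * g⁻¹ := by group
          have h4 : g * a * g⁻¹ * m = g * (a * (g⁻¹ * m * g)) * g⁻¹ := by group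
          rw [h3, h4, h2]
        intro k hk m hm
        exact ((Subgroup.mem_centralizer_iff.mp (h1 hk)) m hm).symm
      by_cases hI : N₁ ⊓ N₂ = ⊥
      · exact kw_solvable_of_inf_bot N₁ N₂ hI (hQ N₁ hN₁1) (hQ N₂ hN₂1)
      · have hsolI : Group.IsSolvable (N₁ ⊓ N₂ : Subgroup G) := by
          apply Group.isSolvable_of_comm
          intro a b
          apply Subtype.ext
          push_cast
          exact hc3 a a.2.1 b b.2.2
        exact kw_solvable_of_normal (N₁ ⊓ N₂) hsolI (hQ (N₁ ⊓ N₂) hI)
    · push Not at hstar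
      obtain ⟨K, hKn, hKp, hK1⟩ := hstar
      haveI := hKn
      have hsolK : Group.IsSolvable K := by
        haveI : Group.IsNilpotent K := hKp.isNilpotent
        infer_instance
      exact kw_solvable_of_normal K hsolK (hQ K hK1)

/-- The Kegel–Wielandt theorem. -/
theorem kw_solvable {G : Type u} [Group G] [Finite G] (A B : Subgroup G)
    (hA : Group.IsNilpotent A) (hB : Group.IsNilpotent B)
    (hAB : ∀ g : G, ∃ a ∈ A, ∃ b ∈ B, g = a * b) : Group.IsSolvable G :=
  kw_solvable_aux _ G A B rfl hA hB hAB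

end Cfsg.Agent.Lib.Helper13
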