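import Mathlib
import Cfsg.Agent.Lib.Helper13.KW8
import Cfsg.Agent.S0047

set_option autoImplicit false
open Pointwise
open scoped commutatorElement

namespace Cfsg.Agent.Lib.Helper13

universe u

/-- Relative form of Itô's theorem: if `G = AB` with `A` abelian, `A ≤ H` and the derived
subgroup of `B ⊓ H` lies in the normal subgroup `R`, then `H'' ≤ R`. -/
theorem ac_ito_rel {G : Type u} [Group G] (A B H R : Subgroup G) [hRn : R.Normal]
    (hA : ∀ x ∈ A, ∀ y ∈ A, x * y = y * x)
    (hAB : ∀ g : G, ∃ a ∈ A, ∃ b ∈ B, g = a * b) (hAH : A ≤ H)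
    (hR : ⁅B ⊓ H, B ⊓ H⁆ ≤ R) :
    ⁅⁅H, H⁆, ⁅H, H⁆⁆ ≤ R := by
  obtain ⟨π, hπ⟩ : ∃ π : ↥H →* (↥H ⧸ R.subgroupOf H), π = QuotientGroup.mk' (R.subgroupOf H) :=
    ⟨_, rfl⟩
  have hker : ∀ x : ↥H, π x = 1 ↔ (x : G) ∈ R := by
    intro x
    rw [hπ, QuotientGroup.mk'_apply, QuotientGroup.eq_one_iff, Subgroup.mem_subgroupOf]
  haveI hA₁ : IsMulCommutative ((A.subgroupOf H).map π) := by
    refine ⟨⟨fun a b => ?_⟩⟩
    obtain ⟨x, hx, hxa⟩ := Subgroup.mem_map.mp a.2
    obtain ⟨y, hy, hyb⟩ := Subgroup.mem_map.mp b.2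
    apply Subtype.ext
    change (a : ↥H ⧸ R.subgroupOf H) * b = b * a
    rw [← hxa, ← hyb, ← map_mul, ← map_mul]
    congr 1
    apply Subtype.ext
    exact hA _ (Subgroup.mem_subgroupOf.mp hx) _ (Subgroup.mem_subgroupOf.mp hy)
  haveI hB₁ : IsMulCommutative (((B ⊓ H).subgroupOf H).map π) := by
    refine ⟨⟨fun a b => ?_⟩⟩
    obtain ⟨x, hx, hxa⟩ := Subgroup.mem_map.mp a.2
    obtain ⟨y, hy, hyb⟩ := Subgroup.mem_map.mp b.2
    apply Subtype.ext
    change (a : ↥H ⧸ R.subgroupOf H) * b = b * a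
    rw [← hxa, ← hyb, ← commutatorElement_eq_one_iff_mul_comm, ← map_commutatorElement, hker]
    have h1 : ((⁅x, y⁆ : ↥H) : G) = ⁅(x : G), (y : G)⁆ := map_commutatorElement H.subtype x y
    rw [h1]
    exact hR (Subgroup.commutator_mem_commutator (Subgroup.mem_subgroupOf.mp hx)
      (Subgroup.mem_subgroupOf.mp hy))
  have hfact : ∀ q : ↥H ⧸ R.subgroupOf H, ∃ a ∈ (A.subgroupOf H).map π,
      ∃ b ∈ ((B ⊓ H).subgroupOf H).map π, q = a * b := by
    intro q
    obtain ⟨h, rfl⟩ := QuotientGroup.mk'_surjective (R.subgroupOf H) q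
    obtain ⟨a, ha, b, hb, hab⟩ := hAB (h : G)
    have hbH : b ∈ H := by
      have h1 : b = a⁻¹ * (h : G) := by rw [hab]; group
      rw [h1]
      exact H.mul_mem (H.inv_mem (hAH ha)) h.2
    refine ⟨π ⟨a, hAH ha⟩, Subgroup.mem_map_of_mem π (Subgroup.mem_subgroupOf.mpr ha),
      π ⟨b, hbH⟩, Subgroup.mem_map_of_mem π (Subgroup.mem_subgroupOf.mpr ⟨hb, hbH⟩), ?_⟩
    rw [← map_mul, hπ]
    congr 1
    apply Subtype.ext
    exact hab
  have hle := Cfsg.Agent.S0047.commutator_le_AB _ _ hfact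
  haveI hcomm := Cfsg.Agent.S0047.comm_AB _ _ hfact
  have hcQ : ∀ x ∈ commutator (↥H ⧸ R.subgroupOf H), ∀ y ∈ commutator (↥H ⧸ R.subgroupOf H),
      x * y = y * x := fun x hx y hy => setLike_mul_comm (hle hx) (hle hy)
  have hlift : ∀ x ∈ ⁅H, H⁆, ∃ x' : ↥H, (x' : G) = x ∧ π x' ∈ commutator (↥H ⧸ R.subgroupOf H) := by
    intro x hx
    rw [← Subgroup.map_subtype_commutator, Subgroup.mem_map] at hx
    obtain ⟨x', hx', rfl⟩ := hx
    refine ⟨x', rfl, ?_⟩
    have h1 : π x' ∈ (commutator ↥H).map π := Subgroup.mem_map_of_mem π hx'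
    rw [commutator_def, Subgroup.map_commutator] at h1
    rw [commutator_def]
    exact Subgroup.commutator_mono le_top le_top h1
  rw [Subgroup.commutator_le]
  intro x hx y hy
  obtain ⟨x', rfl, hx'⟩ := hlift x hx
  obtain ⟨y', rfl, hy'⟩ := hlift y hy
  have h1 : ⁅(x' : G), (y' : G)⁆ = ((⁅x', y'⁆ : ↥H) : G) :=
    (map_commutatorElement H.subtype x' y').symm
  rw [h1, ← hker, map_commutatorElement, commutatorElement_eq_one_iff_mul_comm]
  exact hcQ _ hx' _ hy'

/-- `(B ∩ A·Z^G)' ≤ (Z^G)'` when `Z` is centralized by `B`, `A` is abelian and `G = AB`. -/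
theorem ac_comm_le {G : Type u} [Group G] (A B Z : Subgroup G)
    (hA : ∀ x ∈ A, ∀ y ∈ A, x * y = y * x)
    (hAB : ∀ g : G, ∃ a ∈ A, ∃ b ∈ B, g = a * b)
    (hZ : ∀ z ∈ Z, ∀ b ∈ B, b * z = z * b) :
    ⁅B ⊓ (A ⊔ Subgroup.normalClosure (Z : Set G)), B ⊓ (A ⊔ Subgroup.normalClosure (Z : Set G))⁆
      ≤ ⁅Subgroup.normalClosure (Z : Set G), Subgroup.normalClosure (Z : Set G)⁆ := by
  obtain ⟨N, hNe⟩ : ∃ N : Subgroup G, N = Subgroup.normalClosure (Z : Set G) := ⟨_, rfl⟩
  rw [← hNe]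
  have hNle : ∀ T : Subgroup G, Group.conjugatesOfSet (Z : Set G) ⊆ T → N ≤ T := by
    intro T hT
    rw [hNe, Subgroup.normalClosure, Subgroup.closure_le]
    exact hT
  haveI hNn : N.Normal := by rw [hNe]; exact Subgroup.normalClosure_normal
  have hZN : Z ≤ N := by rw [hNe]; exact Subgroup.le_normalClosure
  obtain ⟨π, hπ⟩ : ∃ π : G →* (G ⧸ ⁅N, N⁆), π = QuotientGroup.mk' ⁅N, N⁆ := ⟨_, rfl⟩
  have hker : ∀ x : G, π x = 1 ↔ x ∈ ⁅N, N⁆ := by
    intro x
    rw [hπ, QuotientGroup.mk'_apply, QuotientGroup.eq_one_iff]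
  have hNab : ∀ n ∈ N, ∀ m ∈ N, Commute (π n) (π m) := by
    intro n hn m hm
    rw [← commutatorElement_eq_one_iff_commute, ← map_commutatorElement, hker]
    exact Subgroup.commutator_mem_commutator hn hm
  have key : ∀ a ∈ A, ∀ n ∈ N, a * n ∈ B → ∀ m ∈ N, Commute (π a) (π m) := by
    intro a ha n hn hb
    have hz : ∀ z ∈ Z, Commute (π a) (π z) := by
      intro z hz
      have h1 : Commute (π (a * n)) (π z) := by
        change π (a * n) * π z = π z * π (a * n)
        rw [← map_mul, ← map_mul, hZ z hz _ hb]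
      have h2 : Commute (π n) (π z) := hNab n hn z (hZN hz)
      have h3 : π a = π (a * n) * (π n)⁻¹ := by rw [map_mul]; group
      rw [h3]
      exact h1.mul_left h2.inv_left
    have hT : N ≤ (Subgroup.centralizer ({π a} : Set (G ⧸ ⁅N, N⁆))).comap π := by
      apply hNle
      intro c hc
      rw [Group.mem_conjugatesOfSet_iff] at hc
      obtain ⟨z, hz', hzc⟩ := hc
      rw [isConj_iff] at hzc
      obtain ⟨g, hg⟩ := hzc
      obtain ⟨a₁, ha₁, b₁, hb₁, rfl⟩ := hAB g
      rw [SetLike.mem_coe, Subgroup.mem_comap, kw_mem_centralizer_singleton]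
      have h4 : c = a₁ * z * a₁⁻¹ := by
        rw [← hg]
        have h5 := hZ z hz' b₁ hb₁
        calc a₁ * b₁ * z * (a₁ * b₁)⁻¹ = a₁ * (b₁ * z) * b₁⁻¹ * a₁⁻¹ := by group
          _ = a₁ * (z * b₁) * b₁⁻¹ * a₁⁻¹ := by rw [h5]
          _ = a₁ * z * a₁⁻¹ := by group
      have h6 : Commute (π a) (π a₁) := by
        change π a * π a₁ = π a₁ * π a
        rw [← map_mul, ← map_mul, hA a ha a₁ ha₁]
      have h7 : Commute (π a) (π c) := by
        rw [h4, map_mul, map_mul, map_inv]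
        exact (h6.mul_right (hz z hz')).mul_right h6.inv_right
      exact h7
    intro m hm
    have h8 := hT hm
    rw [Subgroup.mem_comap, kw_mem_centralizer_singleton] at h8
    exact h8
  rw [Subgroup.commutator_le]
  intro b hb b' hb'
  obtain ⟨a, ha, n, hn, rfl⟩ := Subgroup.mem_sup_of_normal_right.mp hb.2
  obtain ⟨a', ha', n', hn', rfl⟩ := Subgroup.mem_sup_of_normal_right.mp hb'.2
  rw [← hker, map_commutatorElement, commutatorElement_eq_one_iff_commute, map_mul, map_mul]
  have h1 : Commute (π a) (π a') := by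
    change π a * π a' = π a' * π a
    rw [← map_mul, ← map_mul, hA a ha a' ha']
  have h2 : Commute (π a) (π n') := key a ha n hn hb.1 n' hn'
  have h3 : Commute (π n) (π a') := (key a' ha' n' hn' hb'.1 n hn).symm
  have h4 : Commute (π n) (π n') := hNab n hn n' hn'
  exact (h1.mul_right h2).mul_left (h3.mul_right h4)

/-- In a solvable group a subgroup contained in its own derived subgroup is trivial. -/
theorem ac_perfect_bot {G : Type u} [Group G] [hs : Group.IsSolvable G] (N : Subgroup G)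
    (h : N ≤ ⁅N, N⁆) : N = ⊥ := by
  obtain ⟨n, hn⟩ := hs.solvable
  have key : ∀ k, N ≤ derivedSeries G k := by
    intro k
    induction k with
    | zero => rw [derivedSeries_zero]; exact le_top
    | succ k ih =>
      rw [derivedSeries_succ]
      exact h.trans (Subgroup.commutator_mono ih ih)
  have h1 := key n
  rw [hn] at h1
  exact le_bot_iff.mp h1

theorem ac_nilpotent_of_class_two {B : Type u} [Group B]
    (h : commutator B ≤ Subgroup.center B) : Group.IsNilpotent B := by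
  refine ⟨⟨2, ?_⟩⟩
  rw [eq_top_iff]
  intro x _
  rw [Subgroup.mem_upperCentralSeries_succ_iff]
  intro y
  rw [Subgroup.upperCentralSeries_one]
  apply h
  rw [commutator_def]
  exact Subgroup.commutator_mem_commutator (Subgroup.mem_top x) (Subgroup.mem_top y)

theorem ac_omega_lt {d n : ℕ} (hn : n ≠ 0) (hd : d ∣ n) (hlt : d < n) :
    d.primeFactorsList.length < n.primeFactorsList.length := by
  obtain ⟨m, rfl⟩ := hd
  have hd0 : d ≠ 0 := fun h => hn (by rw [h, zero_mul])
  have hm0 : m ≠ 0 := fun h => hn (by rw [h, mul_zero])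
  have hm1 : m ≠ 1 := fun h => by rw [h, mul_one] at hlt; exact lt_irrefl _ hlt
  rw [(Nat.perm_primeFactorsList_mul hd0 hm0).length_eq, List.length_append]
  have h1 : m.primeFactorsList ≠ [] := by
    intro h
    rcases (Nat.primeFactorsList_eq_nil m).mp h with h | h
    · exact hm0 h
    · exact hm1 h
  have h2 := List.length_pos_of_ne_nil h1
  omega

/-- The descending chain `Z₀ = B'`, `Z_{k+1} = (B ∩ A·Z_k^G)'`. -/
def acSeq {G : Type u} [Group G] (A B : Subgroup G) : ℕ → Subgroup G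
  | 0 => ⁅B, B⁆
  | (k + 1) => ⁅B ⊓ (A ⊔ Subgroup.normalClosure (acSeq A B k : Set G)),
      B ⊓ (A ⊔ Subgroup.normalClosure (acSeq A B k : Set G))⁆

theorem acSeq_zero {G : Type u} [Group G] (A B : Subgroup G) : acSeq A B 0 = ⁅B, B⁆ := rfl

theorem acSeq_succ {G : Type u} [Group G] (A B : Subgroup G) (k : ℕ) :
    acSeq A B (k + 1) = ⁅B ⊓ (A ⊔ Subgroup.normalClosure (acSeq A B k : Set G)),
      B ⊓ (A ⊔ Subgroup.normalClosure (acSeq A B k : Set G))⁆ := rfl

theorem acSeq_le_comm {G : Type u} [Group G] (A B : Subgroup G) (k : ℕ) :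
    acSeq A B k ≤ ⁅B, B⁆ := by
  cases k with
  | zero => exact le_of_eq (acSeq_zero A B)
  | succ k =>
    rw [acSeq_succ]
    exact Subgroup.commutator_mono inf_le_left inf_le_left

theorem acSeq_anti {G : Type u} [Group G] (A B : Subgroup G) (k : ℕ) :
    acSeq A B (k + 1) ≤ acSeq A B k := by
  induction k with
  | zero => exact acSeq_le_comm A B 1
  | succ k ih =>
    rw [acSeq_succ A B (k + 1), acSeq_succ A B k]
    have h1 : Subgroup.normalClosure (acSeq A B (k + 1) : Set G)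
        ≤ Subgroup.normalClosure (acSeq A B k : Set G) :=
      Subgroup.normalClosure_mono ih
    have h2 := inf_le_inf_left B (sup_le_sup_left h1 A)
    exact Subgroup.commutator_mono h2 h2

theorem ac_derived_le {G : Type u} [Group G] (A B : Subgroup G)
    (hA : ∀ x ∈ A, ∀ y ∈ A, x * y = y * x)
    (hAB : ∀ g : G, ∃ a ∈ A, ∃ b ∈ B, g = a * b) (k : ℕ) :
    derivedSeries G (2 * (k + 1)) ≤ Subgroup.normalClosure (acSeq A B k : Set G) := by
  induction k with
  | zero =>
    have h1 : derivedSeries G (2 * (0 + 1)) =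
        ⁅⁅(⊤ : Subgroup G), (⊤ : Subgroup G)⁆, ⁅(⊤ : Subgroup G), (⊤ : Subgroup G)⁆⁆ := by
      change derivedSeries G (0 + 1 + 1) = _
      rw [derivedSeries_succ, derivedSeries_succ, derivedSeries_zero]
    rw [h1]
    apply ac_ito_rel A B ⊤ _ hA hAB le_top
    rw [inf_top_eq, acSeq_zero]
    exact Subgroup.le_normalClosure
  | succ k ih =>
    have h1 : derivedSeries G (2 * (k + 1 + 1)) =
        ⁅⁅derivedSeries G (2 * (k + 1)), derivedSeries G (2 * (k + 1))⁆,
          ⁅derivedSeries G (2 * (k + 1)), derivedSeries G (2 * (k + 1))⁆⁆ := by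
      have h2 : 2 * (k + 1 + 1) = 2 * (k + 1) + 1 + 1 := by ring
      rw [h2, derivedSeries_succ, derivedSeries_succ]
    rw [h1]
    have h3 : derivedSeries G (2 * (k + 1)) ≤
        A ⊔ Subgroup.normalClosure (acSeq A B k : Set G) := ih.trans le_sup_right
    refine (Subgroup.commutator_mono (Subgroup.commutator_mono h3 h3)
      (Subgroup.commutator_mono h3 h3)).trans ?_
    apply ac_ito_rel A B _ _ hA hAB le_sup_left
    rw [← acSeq_succ]
    exact Subgroup.le_normalClosure

theorem ac_strict {G : Type u} [Group G] [Group.IsSolvable G] (A B : Subgroup G)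
    (hA : ∀ x ∈ A, ∀ y ∈ A, x * y = y * x)
    (hB : ∀ z ∈ ⁅B, B⁆, ∀ b ∈ B, b * z = z * b)
    (hAB : ∀ g : G, ∃ a ∈ A, ∃ b ∈ B, g = a * b) (k : ℕ)
    (h : acSeq A B (k + 1) = acSeq A B k) : acSeq A B k = ⊥ := by
  have h1 := ac_comm_le A B (acSeq A B k) hA hAB
    (fun z hz b hb => hB z (acSeq_le_comm A B k hz) b hb)
  rw [← acSeq_succ, h] at h1
  have h2 : Subgroup.normalClosure (acSeq A B k : Set G) ≤
      ⁅Subgroup.normalClosure (acSeq A B k : Set G),
        Subgroup.normalClosure (acSeq A B k : Set G)⁆ :=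
    Subgroup.normalClosure_le_normal h1
  have h3 := ac_perfect_bot _ h2
  have h4 : acSeq A B k ≤ Subgroup.normalClosure (acSeq A B k : Set G) :=
    Subgroup.le_normalClosure
  rw [h3] at h4
  exact le_bot_iff.mp h4

theorem ac_measure {G : Type u} [Group G] [Finite G] [Group.IsSolvable G] (A B : Subgroup G)
    (hA : ∀ x ∈ A, ∀ y ∈ A, x * y = y * x)
    (hB : ∀ z ∈ ⁅B, B⁆, ∀ b ∈ B, b * z = z * b)
    (hAB : ∀ g : G, ∃ a ∈ A, ∃ b ∈ B, g = a * b) (k : ℕ) :
    acSeq A B k = ⊥ ∨ (Nat.card (acSeq A B k)).primeFactorsList.length + k ≤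
      (Nat.card (⁅B, B⁆ : Subgroup G)).primeFactorsList.length := by
  induction k with
  | zero => right; rw [acSeq_zero]; exact le_refl _
  | succ k ih =>
    rcases ih with ih | ih
    · left
      have h1 := acSeq_anti A B k
      rw [ih] at h1
      exact le_bot_iff.mp h1
    · by_cases hk : acSeq A B k = ⊥
      · left
        have h1 := acSeq_anti A B k
        rw [hk] at h1
        exact le_bot_iff.mp h1
      · right
        have hle := acSeq_anti A B k
        have hne : acSeq A B (k + 1) ≠ acSeq A B k := fun h => hk (ac_strict A B hA hB hAB k h)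
        have hdvd : Nat.card (acSeq A B (k + 1)) ∣ Nat.card (acSeq A B k) :=
          Subgroup.card_dvd_of_le hle
        have hlt : Nat.card (acSeq A B (k + 1)) < Nat.card (acSeq A B k) := by
          apply lt_of_le_of_ne (Nat.le_of_dvd Nat.card_pos hdvd)
          intro heq
          exact hne (Subgroup.eq_of_le_of_card_ge hle (le_of_eq heq.symm))
        have h5 := ac_omega_lt (Nat.card_pos (α := acSeq A B k)).ne' hdvd hlt
        omega

/-- Product of an abelian subgroup and a subgroup of class at most two: bound on the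
derived length. -/
theorem ac_derived {G : Type u} [Group G] [Finite G] (A B : Subgroup G)
    (hA : ∀ x ∈ A, ∀ y ∈ A, x * y = y * x)
    (hB : ∀ z ∈ ⁅B, B⁆, ∀ b ∈ B, b * z = z * b)
    (hAB : ∀ g : G, ∃ a ∈ A, ∃ b ∈ B, g = a * b) (hsol : Group.IsSolvable G) :
    derivedSeries G (2 * (1 + (Nat.card (⁅B, B⁆ : Subgroup G)).primeFactorsList.length)) = ⊥ := by
  obtain ⟨m, hm⟩ : ∃ m, m = (Nat.card (⁅B, B⁆ : Subgroup G)).primeFactorsList.length := ⟨_, rfl⟩
  rw [← hm]
  have h1 : acSeq A B m = ⊥ := by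
    rcases ac_measure A B hA hB hAB m with h | h
    · exact h
    · rw [← hm] at h
      have h2 : (Nat.card (acSeq A B m)).primeFactorsList.length = 0 := by omega
      have h3 : (Nat.card (acSeq A B m)).primeFactorsList = [] := List.length_eq_zero_iff.mp h2
      rcases (Nat.primeFactorsList_eq_nil _).mp h3 with h4 | h4
      · exact absurd h4 (Nat.card_pos (α := acSeq A B m)).ne'
      · exact Subgroup.card_eq_one.mp h4
  have h5 := ac_derived_le A B hA hAB m
  rw [h1] at h5
  have h6 : Subgroup.normalClosure (((⊥ : Subgroup G) : Set G)) ≤ ⊥ :=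
    Subgroup.normalClosure_le_normal (le_refl _)
  have h7 : 2 * (1 + m) = 2 * (m + 1) := by ring
  rw [h7]
  exact le_bot_iff.mp (h5.trans h6)

theorem ac_nilpotent_of_comm {A : Type u} [Group A] (h : ∀ x y : A, x * y = y * x) :
    Group.IsNilpotent A := by
  apply ac_nilpotent_of_class_two
  rw [commutator_def, Subgroup.commutator_le]
  intro x _ y _
  have h1 : ⁅x, y⁆ = 1 := by
    rw [commutatorElement_eq_one_iff_mul_comm]
    exact h x y
  rw [h1]
  exact Subgroup.one_mem _

/-- Statement-shaped version. -/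
theorem ac_main {G : Type u} [Group G] [Finite G] (A B : Subgroup G) [IsMulCommutative A]
    (hB : commutator ↥B ≤ Subgroup.center ↥B) (hAB : ∀ g : G, ∃ a ∈ A, ∃ b ∈ B, g = a * b) :
    derivedSeries G (2 * (1 + (Nat.card ↥(commutator ↥B)).primeFactorsList.length)) = ⊥ := by
  have hA : ∀ x ∈ A, ∀ y ∈ A, x * y = y * x := fun x hx y hy => setLike_mul_comm hx hy
  have hmap : (commutator ↥B).map B.subtype = ⁅B, B⁆ := Subgroup.map_subtype_commutator B
  have hB' : ∀ z ∈ ⁅B, B⁆, ∀ b ∈ B, b * z = z * b := by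
    intro z hz b hb
    rw [← hmap, Subgroup.mem_map] at hz
    obtain ⟨z', hz', rfl⟩ := hz
    have h1 := Subgroup.mem_center_iff.mp (hB hz') ⟨b, hb⟩
    exact congrArg Subtype.val h1
  have hcard : Nat.card ↥(commutator ↥B) = Nat.card (⁅B, B⁆ : Subgroup G) := by
    rw [← hmap, Subgroup.card_map_of_injective B.subtype_injective]
  have hAn : Group.IsNilpotent ↥A :=
    ac_nilpotent_of_comm (fun x y => Subtype.ext (hA x x.2 y y.2))
  have hBn : Group.IsNilpotent ↥B := ac_nilpotent_of_class_two hB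
  have hsol : Group.IsSolvable G := kw_solvable A B hAn hBn hAB
  rw [hcard]
  exact ac_derived A B hA hB' hAB hsol

end Cfsg.Agent.Lib.Helper13
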