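import Mathlib
import Cfsg.Agent.Lib.Helper61.BlkDefs

/-!
# S5634, piece BLK-G (for helper61): the diagonal step `stepG`

Conjugating the transvection `τ(c, φ)` by a block diagonal element of determinant `1` that fixes
`c`, scales the block-`l₀` component of `φ` and only touches one further block `l'`.
-/

set_option autoImplicit false

namespace Cfsg.Agent.Lib.Helper61.Blk

open Matrix Cfsg.Agent.Lib.Helper97

variable {ι : Type} [Fintype ι] [DecidableEq ι] {F : Type*} [Field F] {t : ℕ}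

lemma stepG_tv_det (u ψ : ι → F) : (tv u ψ).det = 1 + ψ ⬝ᵥ u := by
  rw [tv, Matrix.vecMulVec_eq Unit, Matrix.det_one_add_replicateCol_mul_replicateRow]

omit [Fintype ι] in
lemma stepG_bmono_tv (β : ι → Fin t) (l : Fin t) (u ψ : ι → F) (hu : InB β l u)
    (hψ : InB β l ψ) : BMono β 1 (tv u ψ) := by
  intro i j hij
  rw [Equiv.Perm.one_apply]
  by_contra hne
  apply hij
  have hij' : i ≠ j := fun h => hne (by rw [h])
  rw [tv, Matrix.add_apply, Matrix.one_apply_ne hij', zero_add, Matrix.vecMulVec_apply]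
  by_cases hi : β i = l
  · have hj : β j ≠ l := fun h => hne (hi.trans h.symm)
    rw [hψ j hj, mul_zero]
  · rw [hu i hi, zero_mul]

omit [DecidableEq ι] in
lemma stepG_bmono_mul (β : ι → Fin t) (A B : Matrix ι ι F) (hA : BMono β 1 A)
    (hB : BMono β 1 B) : BMono β 1 (A * B) := by
  intro i j hij
  rw [Matrix.mul_apply] at hij
  obtain ⟨k, -, hk⟩ := Finset.exists_ne_zero_of_sum_ne_zero hij
  have h1 : A i k ≠ 0 := left_ne_zero_of_mul hk
  have h2 : B k j ≠ 0 := right_ne_zero_of_mul hk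
  have h3 := hA i k h1
  have h4 := hB k j h2
  rw [Equiv.Perm.one_apply] at h3 h4 ⊢
  exact h3.trans h4

lemma stepG_aux (β : ι → Fin t) (hf : Fib2 β) (c : ι → F) (l' : Fin t) :
    ∃ χ w : ι → F, InB β l' χ ∧ InB β l' w ∧ χ ⬝ᵥ w = 1 ∧ χ ⬝ᵥ c = 0 := by
  obtain ⟨j1, j2, h12, h1, h2⟩ := hf l'
  have hs1 : ∀ a : F, InB β l' (Pi.single j1 a) := by
    intro a j hj
    rw [Pi.single_apply, if_neg (fun e : j = j1 => hj (by rw [e]; exact h1))]
  have hs2 : ∀ a : F, InB β l' (Pi.single j2 a) := by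
    intro a j hj
    rw [Pi.single_apply, if_neg (fun e : j = j2 => hj (by rw [e]; exact h2))]
  by_cases hc : c j1 = 0
  · refine ⟨Pi.single j1 1, Pi.single j1 1, hs1 1, hs1 1, ?_, ?_⟩
    · rw [single_dotProduct, Pi.single_eq_same, mul_one]
    · rw [single_dotProduct, hc, mul_zero]
  · refine ⟨Pi.single j2 1 - Pi.single j1 (c j2 / c j1), Pi.single j2 1, ?_, hs2 1, ?_, ?_⟩
    · intro j hj
      rw [Pi.sub_apply, hs2 1 j hj, hs1 _ j hj, sub_zero]
    · rw [sub_dotProduct, single_dotProduct, single_dotProduct, Pi.single_eq_same,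
        Pi.single_eq_of_ne h12, mul_one, mul_zero, sub_zero]
    · rw [sub_dotProduct, single_dotProduct, single_dotProduct, one_mul,
        div_mul_cancel₀ _ hc, sub_self]

/-- G -/
theorem stepG (β : ι → Fin t) (hf : Fib2 β) {X : Subgroup (GL ι F)} (hBD : BDg β X)
    {c φ : ι → F} (h : TM X c φ) (l₀ l' : Fin t) (hll : l₀ ≠ l') (hφ : Hit β l₀ φ)
    (h0 : bdot β l₀ φ c = 0) (δ : F) (hδ0 : δ ≠ 0) (hδ1 : δ ≠ 1) :
    ∃ ψ : ι → F, TM X c ψ ∧ Hit β l₀ ψ ∧ ∀ j, ψ j ≠ 0 → β j = l₀ ∨ β j = l' := by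
  obtain ⟨j0, hj0, hφj0⟩ := hφ
  obtain ⟨χ, w', hχ, hw', hχw, hχc⟩ := stepG_aux β hf c l'
  have hφ0B : InB β l₀ (res β l₀ φ) := by
    intro j hj
    unfold res
    rw [if_neg hj]
  have hwB : InB β l₀ (Pi.single j0 (φ j0)⁻¹ : ι → F) := by
    intro j hj
    rw [Pi.single_apply, if_neg (fun e : j = j0 => hj (by rw [e]; exact hj0))]
  have hφ0w : res β l₀ φ ⬝ᵥ (Pi.single j0 (φ j0)⁻¹ : ι → F) = 1 := by
    rw [dotProduct_single]
    unfold res
    rw [if_pos hj0, mul_inv_cancel₀ hφj0]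
  have hφw : φ ⬝ᵥ (Pi.single j0 (φ j0)⁻¹ : ι → F) = 1 := by
    rw [dotProduct_single, mul_inv_cancel₀ hφj0]
  have hφ0c : res β l₀ φ ⬝ᵥ c = 0 := by
    rw [← h0]
    unfold bdot dotProduct res
    apply Finset.sum_congr rfl
    intro j _
    by_cases hj : β j = l₀
    · rw [if_pos hj, if_pos hj]
    · rw [if_neg hj, if_neg hj, zero_mul]
  have hBw : InB β l₀ ((δ - 1) • (Pi.single j0 (φ j0)⁻¹ : ι → F)) := by
    intro j hj
    rw [Pi.smul_apply, hwB j hj, smul_zero]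
  have hBw' : InB β l' ((δ⁻¹ - 1) • w') := by
    intro j hj
    rw [Pi.smul_apply, hw' j hj, smul_zero]
  have hdet : (tv ((δ - 1) • (Pi.single j0 (φ j0)⁻¹ : ι → F)) (res β l₀ φ) *
      tv ((δ⁻¹ - 1) • w') χ).det = 1 := by
    rw [Matrix.det_mul, stepG_tv_det, stepG_tv_det, dotProduct_smul, dotProduct_smul, hφ0w, hχw,
      smul_eq_mul, smul_eq_mul, mul_one, mul_one, add_sub_cancel, add_sub_cancel,
      mul_inv_cancel₀ hδ0]
  obtain ⟨g, hgv⟩ : ∃ g : GL ι F, (g : Matrix ι ι F) =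
      tv ((δ - 1) • (Pi.single j0 (φ j0)⁻¹ : ι → F)) (res β l₀ φ) * tv ((δ⁻¹ - 1) • w') χ :=
    ⟨Matrix.GeneralLinearGroup.mkOfDetNeZero _ (by rw [hdet]; exact one_ne_zero), rfl⟩
  have hgX : g ∈ X := by
    apply hBD g
    · rw [hgv]
      exact stepG_bmono_mul β _ _ (stepG_bmono_tv β l₀ _ _ hBw hφ0B)
        (stepG_bmono_tv β l' _ _ hBw' hχ)
    · rw [hgv]
      exact hdet
  have hgc : (g : Matrix ι ι F) *ᵥ c = c := by
    rw [hgv, ← Matrix.mulVec_mulVec, tv_mulVec _ χ c, hχc, zero_smul, add_zero, tv_mulVec, hφ0c,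
      zero_smul, add_zero]
  have hginvc : ((g⁻¹ : GL ι F) : Matrix ι ι F) *ᵥ c = c := by
    conv_lhs => rw [← hgc]
    rw [Matrix.mulVec_mulVec, ← Units.val_mul, inv_mul_cancel, Units.val_one, Matrix.one_mulVec]
  have h1 := TM_conj h hgX
  rw [hginvc] at h1
  have h2 := TM_sub h1 h
  have hψ : ∃ s : F, φ ᵥ* (g : Matrix ι ι F) - φ = (δ - 1) • res β l₀ φ + s • χ := by
    refine ⟨(φ + (δ - 1) • res β l₀ φ) ⬝ᵥ ((δ⁻¹ - 1) • w'), ?_⟩
    rw [hgv, ← Matrix.vecMul_vecMul, vecMul_tv, vecMul_tv, dotProduct_smul, hφw, smul_eq_mul,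
      mul_one]
    abel
  obtain ⟨s, hs⟩ := hψ
  refine ⟨φ ᵥ* (g : Matrix ι ι F) - φ, h2, ⟨j0, hj0, ?_⟩, ?_⟩
  · rw [hs, Pi.add_apply, Pi.smul_apply, Pi.smul_apply, hχ j0 (by rw [hj0]; exact hll),
      smul_zero, add_zero, smul_eq_mul]
    unfold res
    rw [if_pos hj0]
    exact mul_ne_zero (sub_ne_zero.mpr hδ1) hφj0
  · intro j hj
    by_contra hne
    rw [not_or] at hne
    apply hj
    rw [hs, Pi.add_apply, Pi.smul_apply, Pi.smul_apply, hχ j hne.2, hφ0B j hne.1, smul_zero,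
      smul_zero, add_zero]

end Cfsg.Agent.Lib.Helper61.Blk
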