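import Mathlib
import Cfsg.Prelude.Def_SolvableStructure
import Cfsg.Agent.S0003
import Cfsg.Agent.Lib.Helper13.Compl
import Cfsg.Agent.Lib.Helper13.Perm
import Cfsg.Agent.Lib.Helper13.Nilp
import Cfsg.Agent.Lib.Helper12.HallSystem3

/-!
# System normalizers: existence, conjugates, nilpotent-by-nilpotent groups (helper13)
-/

set_option autoImplicit false

namespace Cfsg.Agent.Lib.Helper13

open Cfsg Pointwise

/-- In a finite nilpotent group a Hall `p`-complement is normal. -/
theorem normal_of_nilpotent_of_hall {X : Type*} [Group X] [Finite X] [Group.IsNilpotent X]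
    (L : Subgroup X) {p : ℕ} (hp : p.Prime) (a : ℕ) (hidx : L.index = p ^ a)
    (hcard : ¬ p ∣ Nat.card L) : L.Normal := by
  classical
  rw [← Subgroup.normalizer_eq_top_iff]
  by_contra hne
  have hlt : Subgroup.normalizer (L : Set X) < ⊤ := lt_top_iff_ne_top.mpr hne
  have hnc := Group.normalizerCondition_of_isNilpotent (G := X) _ hlt
  obtain ⟨g, hg, hgn⟩ := SetLike.exists_of_lt hnc
  apply hgn
  obtain ⟨N, hN⟩ : ∃ N : Subgroup X, N = Subgroup.normalizer (L : Set X) := ⟨_, rfl⟩
  rw [← hN] at hg
  have hLN : L ≤ N := by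
    rw [hN]
    exact Subgroup.le_normalizer
  haveI : (L.subgroupOf N).Normal := by
    rw [hN]
    exact Subgroup.normal_in_normalizer
  have hdvd : (L.subgroupOf N).index ∣ p ^ a := by
    rw [← hidx]
    exact Subgroup.relIndex_dvd_index_of_le hLN
  obtain ⟨k, -, hk⟩ := (Nat.dvd_prime_pow hp).mp hdvd
  have hcl := coprimeClosure_le_of_index p N (L.subgroupOf N) k hk
  rw [Subgroup.subgroupOf_map_subtype] at hcl
  apply Subgroup.mem_normalizer_fintype
  intro l hl
  have h1 : g * l * g⁻¹ ∈ N := (Subgroup.mem_normalizer_iff.mp hg l).mp (hLN hl)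
  have h2 : (orderOf (g * l * g⁻¹)).Coprime p := by
    have e : orderOf (g * l * g⁻¹) = orderOf l := by
      have := (MulAut.conj g).orderOf_eq l
      rwa [MulAut.conj_apply] at this
    rw [e]
    exact Nat.Coprime.coprime_dvd_left (Subgroup.orderOf_dvd_natCard L hl)
      ((Nat.Prime.coprime_iff_not_dvd hp).mpr hcard).symm
  exact (Subgroup.mem_inf.mp (hcl (Subgroup.subset_closure ⟨h1, h2⟩))).1

/-- A finite solvable group has a Hall complement system. -/
theorem exists_complementSystem {G : Type*} [Group G] [Finite G] [Group.IsSolvable G] :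
    ∃ K : Nat.Primes → Subgroup G, IsComplementSystem K := by
  have h : ∀ p : Nat.Primes, ∃ H : Subgroup G,
      H.index = (p : ℕ) ^ (Nat.card G).factorization p := by
    intro p
    have hpos : Nat.card G ≠ 0 := Nat.card_pos.ne'
    have e1 : Nat.card G = Nat.card G / (p : ℕ) ^ (Nat.card G).factorization p *
        (p : ℕ) ^ (Nat.card G).factorization p := by
      rw [mul_comm]
      exact (Nat.ordProj_mul_ordCompl_eq_self (Nat.card G) p).symm
    obtain ⟨H, hH⟩ := Cfsg.Agent.S0003.result (G := G)
      (Nat.card G / (p : ℕ) ^ (Nat.card G).factorization p)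
      ((p : ℕ) ^ (Nat.card G).factorization p) e1
      (Nat.Coprime.pow_left _ (Nat.coprime_ordCompl p.2 hpos)).symm
    refine ⟨H, ?_⟩
    have e := Subgroup.card_mul_index H
    rw [hH] at e
    have hpos2 : 0 < Nat.card G / (p : ℕ) ^ (Nat.card G).factorization p :=
      Nat.div_pos (Nat.le_of_dvd (Nat.pos_of_ne_zero hpos) (Nat.ordProj_dvd _ _))
        (pow_pos p.2.pos _)
    exact Nat.eq_of_mul_eq_mul_left hpos2 (e.trans e1)
  choose K hK using h
  exact ⟨K, hK⟩

/-- Conjugates of a Hall complement system form a Hall complement system. -/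
theorem isComplementSystem_conj {G : Type*} [Group G] {K : Nat.Primes → Subgroup G}
    (hK : IsComplementSystem K) (g : G) :
    IsComplementSystem (fun p => MulAut.conj g • K p) := by
  intro p
  have h1 : (MulAut.conj g • K p).index = (K p).index := by
    rw [Subgroup.pointwise_smul_def]
    exact Subgroup.index_map_equiv (K p) (MulAut.conj g)
  show (MulAut.conj g • K p).index = _
  rw [h1]
  exact hK p

/-- The system normalizer of the conjugate system is the conjugate of the system normalizer. -/
theorem systemNormalizer_conj {G : Type*} [Group G] (K : Nat.Primes → Subgroup G) (g : G) :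
    systemNormalizer (fun p => MulAut.conj g • K p) = MulAut.conj g • systemNormalizer K := by
  unfold systemNormalizer
  ext x
  rw [Subgroup.mem_iInf, mem_conj_smul_iff, Subgroup.mem_iInf]
  constructor
  · intro h p
    have h1 := h p
    rw [← conj_smul_normalizer, mem_conj_smul_iff] at h1
    exact h1
  · intro h p
    rw [← conj_smul_normalizer, mem_conj_smul_iff]
    exact h p

/-- In a nilpotent-by-nilpotent finite group, every system normalizer is self-normalizing. -/
theorem normalizer_systemNormalizer_of_nilpotent_by_nilpotent {G : Type*} [Group G] [Finite G]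
    [Group.IsSolvable G] (F : Subgroup G) [F.Normal] (hF : Group.IsNilpotent F)
    (hGF : Group.IsNilpotent (G ⧸ F)) (K : Nat.Primes → Subgroup G)
    (hK : IsComplementSystem K) :
    Subgroup.normalizer ((systemNormalizer K : Subgroup G) : Set G) = systemNormalizer K := by
  classical
  obtain ⟨D, hD⟩ : ∃ D : Subgroup G, D = systemNormalizer K := ⟨_, rfl⟩
  rw [← hD]
  have hDK : ∀ p, D ≤ Subgroup.normalizer (K p : Set G) := by
    intro p
    rw [hD]
    exact iInf_le _ p
  have hsurj := QuotientGroup.mk'_surjective F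
  have hKb := Cfsg.Agent.Lib.Helper12.isComplementSystem_map_mk hK F
  have hDb := Cfsg.Agent.Lib.Helper12.systemNormalizer_map_mk hK F
  rw [← hD] at hDb
  have hKbn : ∀ p : Nat.Primes, ((K p).map (QuotientGroup.mk' F)).Normal := fun p =>
    normal_of_nilpotent_of_hall _ p.2 _ (hKb p)
      (Cfsg.Agent.Lib.Helper12.not_dvd_card_of_isComplementSystem hKb p)
  have hDtop : D.map (QuotientGroup.mk' F) = ⊤ := by
    rw [← hDb, eq_top_iff]
    intro x _
    refine Subgroup.mem_iInf.mpr (fun p => ?_)
    haveI := hKbn p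
    rw [Subgroup.normalizer_eq_top]
    exact Subgroup.mem_top x
  have hDF : D ⊔ F = ⊤ := by
    have h1 := congrArg (Subgroup.comap (QuotientGroup.mk' F)) hDtop
    rwa [Subgroup.comap_map_eq, QuotientGroup.ker_mk', Subgroup.comap_top] at h1
  have hpidx : ∀ p : Nat.Primes, ((K p).subgroupOf D).index ∣
      (p : ℕ) ^ (Nat.card G).factorization p := by
    intro p
    rw [← hK p]
    exact Cfsg.Agent.Lib.Helper12.relIndex_dvd_index_of_le_normalizer (hDK p)
  have hstep2 : ∀ p : Nat.Primes, K p ≤ (D ⊓ K p) ⊔ F := by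
    intro p
    have hidx : ((D ⊓ K p).map (QuotientGroup.mk' F)).index ∣
        (p : ℕ) ^ (Nat.card G).factorization p := by
      have hf : Function.Surjective ((QuotientGroup.mk' F).comp D.subtype) := by
        intro y
        have hy : y ∈ D.map (QuotientGroup.mk' F) := by
          rw [hDtop]
          exact Subgroup.mem_top y
        obtain ⟨d, hd, rfl⟩ := hy
        exact ⟨⟨d, hd⟩, rfl⟩
      have h1 : ((K p).subgroupOf D).map ((QuotientGroup.mk' F).comp D.subtype) =
          (D ⊓ K p).map (QuotientGroup.mk' F) := by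
        rw [← Subgroup.map_map, Subgroup.subgroupOf_map_subtype, inf_comm]
      rw [← h1]
      exact (Subgroup.index_map_dvd _ hf).trans (hpidx p)
    have hle : (D ⊓ K p).map (QuotientGroup.mk' F) ≤ (K p).map (QuotientGroup.mk' F) :=
      Subgroup.map_mono inf_le_right
    have hrel : ((D ⊓ K p).map (QuotientGroup.mk' F)).relIndex
        ((K p).map (QuotientGroup.mk' F)) = 1 := by
      have h1 : ((D ⊓ K p).map (QuotientGroup.mk' F)).relIndex
          ((K p).map (QuotientGroup.mk' F)) ∣ (p : ℕ) ^ (Nat.card G).factorization p :=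
        (Subgroup.relIndex_dvd_index_of_le hle).trans hidx
      have h2 : ((D ⊓ K p).map (QuotientGroup.mk' F)).relIndex
          ((K p).map (QuotientGroup.mk' F)) ∣ Nat.card ((K p).map (QuotientGroup.mk' F)) :=
        Subgroup.relIndex_dvd_card _ _
      have hc : Nat.Coprime ((p : ℕ) ^ (Nat.card G).factorization p)
          (Nat.card ((K p).map (QuotientGroup.mk' F))) :=
        Nat.Coprime.pow_left _ ((Nat.Prime.coprime_iff_not_dvd p.2).mpr
          (Cfsg.Agent.Lib.Helper12.not_dvd_card_of_isComplementSystem hKb p))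
      exact Nat.eq_one_of_dvd_coprimes hc h1 h2
    have h3 : (K p).map (QuotientGroup.mk' F) ≤ (D ⊓ K p).map (QuotientGroup.mk' F) :=
      Subgroup.relIndex_eq_one.mp hrel
    have h4 := Subgroup.comap_mono (f := QuotientGroup.mk' F) h3
    rw [Subgroup.comap_map_eq, Subgroup.comap_map_eq, QuotientGroup.ker_mk'] at h4
    exact le_sup_left.trans h4
  have hstep3 : ∀ x ∈ F, x ∈ Subgroup.normalizer (D : Set G) → x ∈ D := by
    intro x hxF hxD
    rw [hD]
    refine Subgroup.mem_iInf.mpr (fun p => ?_)
    apply Subgroup.mem_normalizer_fintype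
    intro k hk
    have hk' := hstep2 p hk
    rw [Subgroup.mem_sup_of_normal_right] at hk'
    obtain ⟨a, ha, f, hf, rfl⟩ := hk'
    obtain ⟨haD, haK⟩ := Subgroup.mem_inf.mp ha
    have hfK : f ∈ K p := by
      have e : f = a⁻¹ * (a * f) := by group
      rw [e]
      exact (K p).mul_mem ((K p).inv_mem haK) hk
    have hcop : Nat.Coprime (Nat.card (K p)) p :=
      ((Nat.Prime.coprime_iff_not_dvd p.2).mpr
        (Cfsg.Agent.Lib.Helper12.not_dvd_card_of_isComplementSystem hK p)).symm
    have h1 : x * a * x⁻¹ ∈ K p := by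
      haveI : ((K p).subgroupOf D).Normal := Subgroup.normal_subgroupOf_of_le_normalizer (hDK p)
      obtain ⟨j, -, hj⟩ := (Nat.dvd_prime_pow p.2).mp (hpidx p)
      have hcl := coprimeClosure_le_of_index p D ((K p).subgroupOf D) j hj
      rw [Subgroup.subgroupOf_map_subtype] at hcl
      have hmem : x * a * x⁻¹ ∈ D := (Subgroup.mem_normalizer_iff.mp hxD a).mp haD
      have hord : (orderOf (x * a * x⁻¹)).Coprime p := by
        have e : orderOf (x * a * x⁻¹) = orderOf a := by
          have := (MulAut.conj x).orderOf_eq a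
          rwa [MulAut.conj_apply] at this
        rw [e]
        exact Nat.Coprime.coprime_dvd_left (Subgroup.orderOf_dvd_natCard (K p) haK) hcop
      exact (Subgroup.mem_inf.mp (hcl (Subgroup.subset_closure ⟨hmem, hord⟩))).1
    have h2 : x * f * x⁻¹ ∈ K p := by
      haveI : Group.IsNilpotent F := hF
      have hn : ((K p).subgroupOf F).Normal := by
        have hdvd : ((K p).subgroupOf F).index ∣ (p : ℕ) ^ (Nat.card G).factorization p := by
          rw [← hK p]
          show (K p).relIndex F ∣ (K p).index
          rw [← Subgroup.inf_relIndex_right,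
            ← Cfsg.Agent.Lib.Helper12.relIndex_sup_eq_of_normal (K p) F]
          exact Subgroup.relIndex_dvd_index_of_le le_sup_left
        obtain ⟨j, -, hj⟩ := (Nat.dvd_prime_pow p.2).mp hdvd
        refine normal_of_nilpotent_of_hall _ p.2 j hj ?_
        intro hd
        apply Cfsg.Agent.Lib.Helper12.not_dvd_card_of_isComplementSystem hK p
        exact hd.trans (Subgroup.card_comap_dvd_of_injective (K p) F.subtype F.subtype_injective)
      have h3 := hn.conj_mem ⟨f, hf⟩ (Subgroup.mem_subgroupOf.mpr hfK) ⟨x, hxF⟩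
      exact Subgroup.mem_subgroupOf.mp h3
    have e : x * (a * f) * x⁻¹ = (x * a * x⁻¹) * (x * f * x⁻¹) := by group
    rw [e]
    exact (K p).mul_mem h1 h2
  apply le_antisymm _ Subgroup.le_normalizer
  intro g hg
  have hg' : g ∈ D ⊔ F := by
    rw [hDF]
    exact Subgroup.mem_top g
  rw [Subgroup.mem_sup_of_normal_right] at hg'
  obtain ⟨d, hd, f, hf, rfl⟩ := hg'
  have hfn : f ∈ Subgroup.normalizer (D : Set G) := by
    have e : f = d⁻¹ * (d * f) := by group
    rw [e]
    exact Subgroup.mul_mem _ (Subgroup.inv_mem _ (Subgroup.le_normalizer hd)) hg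
  exact D.mul_mem hd (hstep3 f hf hfn)

end Cfsg.Agent.Lib.Helper13
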