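import Mathlib
import Cfsg.Prelude.Def_SolvableStructure
import Cfsg.Agent.S0005
import Cfsg.Agent.S0045
import Cfsg.Agent.Lib.Helper1.Coprime
import Cfsg.Agent.Lib.Helper13.Avoid2
import Cfsg.Agent.Lib.Helper13.SysNorm

/-!
# Carter subgroups contain system normalizers (helper13)
-/

set_option autoImplicit false

namespace Cfsg.Agent.Lib.Helper13

open Cfsg Pointwise

universe u

/-- A `p'`-subgroup of a finite solvable group lies in a Hall `p`-complement. -/
theorem exists_hall_compl_ge {G : Type*} [Group G] [Finite G] [Group.IsSolvable G]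
    (p : Nat.Primes) (L : Subgroup G) (hL : ¬ (p : ℕ) ∣ Nat.card L) :
    ∃ H : Subgroup G, H.index = (p : ℕ) ^ (Nat.card G).factorization p ∧ L ≤ H ∧
      ¬ (p : ℕ) ∣ Nat.card H := by
  have hpos : Nat.card G ≠ 0 := Nat.card_pos.ne'
  have e1 : Nat.card G = Nat.card G / (p : ℕ) ^ (Nat.card G).factorization p *
      (p : ℕ) ^ (Nat.card G).factorization p := by
    rw [mul_comm]
    exact (Nat.ordProj_mul_ordCompl_eq_self (Nat.card G) p).symm
  obtain ⟨H, hH, hLH⟩ := Cfsg.Agent.S0005.result (G := G)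
    (Nat.card G / (p : ℕ) ^ (Nat.card G).factorization p)
    ((p : ℕ) ^ (Nat.card G).factorization p) e1
    (Nat.Coprime.pow_left _ (Nat.coprime_ordCompl p.2 hpos)).symm L
    (Nat.Coprime.pow_right _ ((Nat.Prime.coprime_iff_not_dvd p.2).mpr hL).symm)
  refine ⟨H, ?_, hLH, ?_⟩
  · have e := Subgroup.card_mul_index H
    rw [hH] at e
    have hpos2 : 0 < Nat.card G / (p : ℕ) ^ (Nat.card G).factorization p :=
      Nat.div_pos (Nat.le_of_dvd (Nat.pos_of_ne_zero hpos) (Nat.ordProj_dvd _ _))
        (pow_pos p.2.pos _)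
    exact Nat.eq_of_mul_eq_mul_left hpos2 (e.trans e1)
  · rw [hH]
    exact Nat.not_dvd_ordCompl p.2 hpos

/-- A Carter subgroup of `G` contained in `M` is a Carter subgroup of `M`. -/
theorem isCarter_subgroupOf {G : Type*} [Group G] [Finite G] (C M : Subgroup G) (hCM : C ≤ M)
    (hC : IsCarterSubgroup C) : IsCarterSubgroup (C.subgroupOf M) := by
  constructor
  · haveI := hC.1
    exact Group.nilpotent_of_mulEquiv (Subgroup.subgroupOfEquivOfLe hCM).symm
  · apply le_antisymm _ Subgroup.le_normalizer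
    intro x hx
    rw [Subgroup.mem_subgroupOf]
    have h1 : (x : G) ∈ Subgroup.normalizer (C : Set G) := by
      apply Subgroup.mem_normalizer_fintype
      intro c hc
      have h2 : (⟨c, hCM hc⟩ : M) ∈ C.subgroupOf M := Subgroup.mem_subgroupOf.mpr hc
      have h3 := (Subgroup.mem_normalizer_iff.mp hx ⟨c, hCM hc⟩).mp h2
      exact Subgroup.mem_subgroupOf.mp h3
    rw [hC.2] at h1
    exact h1

/-- Conjugates of Carter subgroups are Carter subgroups. -/
theorem isCarter_conj {G : Type*} [Group G] (C : Subgroup G) (g : G) (hC : IsCarterSubgroup C) :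
    IsCarterSubgroup (MulAut.conj g • C) := by
  constructor
  · haveI := hC.1
    exact Group.nilpotent_of_mulEquiv (Subgroup.equivSMul (MulAut.conj g) C)
  · rw [← conj_smul_normalizer, hC.2]

/-- Every subgroup containing a Carter subgroup is self-normalizing. -/
theorem normalizer_eq_of_carter_le {G : Type*} [Group G] [Finite G] [Group.IsSolvable G]
    (C M : Subgroup G) (hC : IsCarterSubgroup C) (hCM : C ≤ M) :
    Subgroup.normalizer (M : Set G) = M := by
  apply le_antisymm _ Subgroup.le_normalizer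
  intro g hg
  have hgM : MulAut.conj g • M = M :=
    (Cfsg.Agent.Lib.Helper1.mem_normalizer_iff_conj_smul g M).mp hg
  have h1 : MulAut.conj g • C ≤ M := by
    have h0 : MulAut.conj g • C ≤ MulAut.conj g • M :=
      Subgroup.pointwise_smul_le_pointwise_smul_iff.mpr hCM
    exact h0.trans hgM.le
  have hc1 := isCarter_subgroupOf C M hCM hC
  have hc2 := isCarter_subgroupOf _ M h1 (isCarter_conj C g hC)
  obtain ⟨m, hm⟩ := (Cfsg.Agent.S0045.result (G := M)).2 _ _ hc1.1 hc1.2 hc2.1 hc2.2
  rw [Subgroup.conj_smul_subgroupOf hCM m] at hm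
  have hm' : MulAut.conj (m : G) • C = MulAut.conj g • C := by
    have h2 := congrArg (Subgroup.map M.subtype) hm
    rwa [Subgroup.subgroupOf_map_subtype, Subgroup.subgroupOf_map_subtype,
      inf_of_le_left (Subgroup.conj_smul_le_of_le hCM m), inf_of_le_left h1] at h2
  have h3 : (m : G)⁻¹ * g ∈ Subgroup.normalizer (C : Set G) := by
    rw [Cfsg.Agent.Lib.Helper1.mem_normalizer_iff_conj_smul, map_mul, mul_smul, ← hm', ← mul_smul,
      ← map_mul]
    simp
  rw [hC.2] at h3
  have e : g = (m : G) * ((m : G)⁻¹ * g) := by group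
  rw [e]
  exact M.mul_mem m.2 (hCM h3)

/-- If a non-central minimal normal `p`-subgroup `N` is complemented by `M`, then `M` contains the
normalizer of each Hall `p`-complement that it contains. -/
theorem normalizer_hall_le_of_complement {Q : Type*} [Group Q] [Finite Q] [Group.IsSolvable Q]
    (N M : Subgroup Q) [hNn : N.Normal] (hN : N ≠ ⊥)
    (hmin : ∀ K : Subgroup Q, K.Normal → K ≤ N → K = ⊥ ∨ K = N)
    (hnc : ¬ N ≤ Subgroup.center Q) (hNM : N ⊓ M = ⊥) (htop : N ⊔ M = ⊤)
    {p : ℕ} (hp : p.Prime) (hNp : IsPGroup p N)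
    (H : Subgroup Q) (hHM : H ≤ M) (a : ℕ) (hHidx : H.index = p ^ a)
    (hHcard : ¬ p ∣ Nat.card H) :
    Subgroup.normalizer (H : Set Q) ≤ M := by
  classical
  intro g hg
  obtain ⟨n, hn, m, hm, rfl⟩ := exists_mul_of_sup_eq_top N M htop g
  have hH'idx : (MulAut.conj m • H).index = p ^ a := by
    rw [← hHidx, Subgroup.pointwise_smul_def]
    exact Subgroup.index_map_equiv H (MulAut.conj m)
  have hH'card : ¬ p ∣ Nat.card (MulAut.conj m • H : Subgroup Q) := by
    rw [← Nat.card_congr (Subgroup.equivSMul (MulAut.conj m) H).toEquiv]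
    exact hHcard
  have hn' : n ∈ Subgroup.normalizer ((MulAut.conj m • H : Subgroup Q) : Set Q) := by
    apply Subgroup.mem_normalizer_fintype
    intro x hx
    have hx' : m⁻¹ * x * m ∈ H := (mem_conj_smul_iff m x H).mp hx
    have h1 : n * x * n⁻¹ ∈ H := by
      have h2 := (Subgroup.mem_normalizer_iff.mp hg (m⁻¹ * x * m)).mp hx'
      have e : n * m * (m⁻¹ * x * m) * (n * m)⁻¹ = n * x * n⁻¹ := by group
      rwa [e] at h2
    have hxM : x ∈ M := by
      have e : x = m * (m⁻¹ * x * m) * m⁻¹ := by group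
      rw [e]
      exact M.mul_mem (M.mul_mem hm (hHM hx')) (M.inv_mem hm)
    have h3 : n * x * n⁻¹ * x⁻¹ ∈ N ⊓ M := by
      refine Subgroup.mem_inf.mpr ⟨?_, ?_⟩
      · have e : n * x * n⁻¹ * x⁻¹ = n * (x * n⁻¹ * x⁻¹) := by group
        rw [e]
        exact N.mul_mem hn (hNn.conj_mem _ (N.inv_mem hn) x)
      · exact M.mul_mem (hHM h1) (M.inv_mem hxM)
    rw [hNM, Subgroup.mem_bot] at h3
    have e : n * x * n⁻¹ = (n * x * n⁻¹ * x⁻¹) * x := by group
    rw [e, h3, one_mul]
    exact hx
  have h4 : n ∈ N ⊓ Subgroup.normalizer ((MulAut.conj m • H : Subgroup Q) : Set Q) :=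
    Subgroup.mem_inf.mpr ⟨hn, hn'⟩
  rw [minimal_normal_inf_normalizer_hall N hN hmin hnc hp hNp _ a hH'idx hH'card,
    Subgroup.mem_bot] at h4
  rw [h4, one_mul]
  exact hm

/-- Every Carter subgroup of a finite solvable group contains a system normalizer. -/
theorem exists_system_le_carter (n : ℕ) : ∀ {G : Type u} [Group G] [Finite G]
    [Group.IsSolvable G] (C : Subgroup G), Nat.card G = n → IsCarterSubgroup C →
    ∃ K : Nat.Primes → Subgroup G, IsComplementSystem K ∧ systemNormalizer K ≤ C := by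
  induction n using Nat.strong_induction_on with
  | _ n ih =>
  intro G _ _ _ C hn hC
  classical
  by_cases hCtop : C = ⊤
  · obtain ⟨K, hK⟩ := exists_complementSystem (G := G)
    exact ⟨K, hK, by rw [hCtop]; exact le_top⟩
  obtain ⟨M, hM, hCM⟩ := (eq_top_or_exists_le_coatom C).resolve_left hCtop
  have hMnn : ¬ M.Normal := by
    intro h
    have h1 := normalizer_eq_of_carter_le C M hC hCM
    rw [Subgroup.normalizer_eq_top_iff.mpr h] at h1
    exact hM.1 h1.symm
  have hMlt : Nat.card M < n := by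
    rw [← hn]
    have h1 := Subgroup.card_mul_index M
    have h2 : M.index ≠ 1 := fun h => hM.1 (Subgroup.index_eq_one.mp h)
    have h3 : 0 < M.index := Nat.pos_of_ne_zero Subgroup.index_ne_zero_of_finite
    have h4 : 0 < Nat.card M := Nat.card_pos
    have h5 : 2 ≤ M.index := by omega
    rw [← h1]
    nlinarith
  obtain ⟨KM, hKM, hDM⟩ := ih (Nat.card M) hMlt (C.subgroupOf M) rfl
    (isCarter_subgroupOf C M hCM hC)
  obtain ⟨R, hR⟩ : ∃ R : Subgroup G, R = M.normalCore := ⟨_, rfl⟩
  have hRM : R ≤ M := by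
    rw [hR]
    exact Subgroup.normalCore_le M
  haveI hRn : R.Normal := by
    rw [hR]
    exact Subgroup.normalCore_normal M
  have hπ := QuotientGroup.mk'_surjective R
  have hRtop : R ≠ ⊤ := by
    intro h
    apply hM.1
    rw [eq_top_iff, ← h]
    exact hRM
  haveI : Nontrivial (G ⧸ R) := QuotientGroup.nontrivial_iff.mpr hRtop
  obtain ⟨Nb, -, hNbn, hNb, hNbmin⟩ := exists_minimal_normal_le (⊤ : Subgroup (G ⧸ R))
    inferInstance top_ne_bot
  obtain ⟨q, hq, hqd, hNbcomm, -, hNbq⟩ := minimal_normal_solvable Nb hNbn hNb hNbmin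
  haveI : Fact q.Prime := ⟨hq⟩
  obtain ⟨Mb, hMb⟩ : ∃ Mb : Subgroup (G ⧸ R), Mb = M.map (QuotientGroup.mk' R) := ⟨_, rfl⟩
  have hcomapMb : Mb.comap (QuotientGroup.mk' R) = M := by
    rw [hMb, Subgroup.comap_map_eq, QuotientGroup.ker_mk']
    exact sup_eq_left.mpr hRM
  have hMbco : IsCoatom Mb := by
    constructor
    · intro h
      apply hM.1
      rw [← hcomapMb, h, Subgroup.comap_top]
    · intro X hX
      have h1 : M < X.comap (QuotientGroup.mk' R) := by
        rw [← hcomapMb]
        exact (Subgroup.comap_lt_comap_of_surjective hπ).mpr hX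
      have h2 := hM.2 _ h1
      rw [← Subgroup.map_comap_eq_self_of_surjective hπ X, h2,
        Subgroup.map_top_of_surjective _ hπ]
  have hNbM : ¬ Nb ≤ Mb := by
    intro h
    apply hNb
    have h1 : Nb.comap (QuotientGroup.mk' R) ≤ M := by
      rw [← hcomapMb]
      exact Subgroup.comap_mono h
    have h2 : Nb.comap (QuotientGroup.mk' R) ≤ R := by
      haveI : (Nb.comap (QuotientGroup.mk' R)).Normal := hNbn.comap _
      have h2' : Nb.comap (QuotientGroup.mk' R) ≤ M.normalCore :=
        Subgroup.normal_le_normalCore.mpr h1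
      exact h2'.trans hR.ge
    rw [← Subgroup.map_comap_eq_self_of_surjective hπ Nb, Subgroup.map_eq_bot_iff,
      QuotientGroup.ker_mk']
    exact h2
  have hcompl := isComplement'_of_minimal_normal_of_isCoatom Nb Mb hNbn hNbcomm hNbmin hMbco hNbM
  have hNbMb : Nb ⊓ Mb = ⊥ := hcompl.disjoint.eq_bot
  have hNbMbtop : Nb ⊔ Mb = ⊤ := hcompl.sup_eq_top
  obtain ⟨a, ha⟩ := hNbq.exists_card_eq
  have hMidx : M.index = q ^ a := by
    have h1 : Mb.index = M.index := by
      rw [hMb]
      exact Subgroup.index_map_eq M hπ (by rw [QuotientGroup.ker_mk']; exact hRM)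
    have h2 := hcompl.card_mul_card
    have h3 := Subgroup.card_mul_index Mb
    have h4 : 0 < Nat.card Mb := Nat.card_pos
    rw [← h1, ← ha]
    have h5 : Nat.card Mb * Mb.index = Nat.card Mb * Nat.card Nb := by
      rw [h3, ← h2, mul_comm]
    exact Nat.eq_of_mul_eq_mul_left h4 h5
  have hNbnc : ¬ Nb ≤ Subgroup.center (G ⧸ R) := by
    intro h
    apply hMnn
    have hMbn : Mb.Normal := by
      rw [← Subgroup.normalizer_eq_top_iff, eq_top_iff, ← hNbMbtop]
      apply sup_le
      · intro x hx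
        have hxc := h hx
        rw [Subgroup.mem_normalizer_iff]
        intro y
        rw [← Subgroup.mem_center_iff.mp hxc y, mul_inv_cancel_right]
      · exact Subgroup.le_normalizer
    rw [← hcomapMb]
    exact hMbn.comap _
  have hex : ∀ p : Nat.Primes, ∃ Kp : Subgroup G,
      Kp.index = (p : ℕ) ^ (Nat.card G).factorization p ∧
      Kp ⊓ M = (KM p).map M.subtype ∧ ((p : ℕ) = q → Kp ≤ M) := by
    intro p
    have hLcard : ¬ (p : ℕ) ∣ Nat.card ((KM p).map M.subtype) := by
      rw [Subgroup.card_map_of_injective M.subtype_injective]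
      exact Cfsg.Agent.Lib.Helper12.not_dvd_card_of_isComplementSystem hKM p
    have hLM : (KM p).map M.subtype ≤ M := Subgroup.map_subtype_le _
    by_cases hpq : (p : ℕ) = q
    · refine ⟨(KM p).map M.subtype, ?_, inf_of_le_left hLM, fun _ => hLM⟩
      have h1 : ((KM p).map M.subtype).index =
          (p : ℕ) ^ ((Nat.card M).factorization p + a) := by
        rw [Subgroup.index_map_subtype, hKM p, hMidx, ← hpq, ← pow_add]
      exact Cfsg.Agent.Lib.Helper12.index_eq_of_not_dvd_card p.2 hLcard h1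
    · obtain ⟨H, hH, hLH, hHcard⟩ := exists_hall_compl_ge p _ hLcard
      refine ⟨H, hH, ?_, fun h => absurd h hpq⟩
      apply le_antisymm _ (le_inf hLH hLM)
      rw [← Subgroup.relIndex_eq_one]
      have h1 : ((KM p).map M.subtype).relIndex (H ⊓ M) ∣ Nat.card H :=
        (Subgroup.relIndex_dvd_card _ _).trans (Subgroup.card_dvd_of_le inf_le_left)
      have h2 : ((KM p).map M.subtype).relIndex (H ⊓ M) ∣
          (p : ℕ) ^ (Nat.card M).factorization p := by
        rw [← hKM p]
        have e : ((KM p).map M.subtype).relIndex M = (KM p).index := by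
          show (((KM p).map M.subtype).subgroupOf M).index = _
          rw [Subgroup.subgroupOf, Subgroup.comap_map_eq_self_of_injective M.subtype_injective]
        rw [← e, ← Subgroup.relIndex_mul_relIndex _ (H ⊓ M) M (le_inf hLH hLM) inf_le_right]
        exact dvd_mul_right _ _
      exact Nat.eq_one_of_dvd_coprimes
        (Nat.Coprime.pow_right _ ((Nat.Prime.coprime_iff_not_dvd p.2).mpr hHcard).symm) h1 h2
  choose K hK1 hK2 hK3 using hex
  have hKsys : IsComplementSystem K := hK1
  refine ⟨K, hKsys, ?_⟩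
  have hDleM : systemNormalizer K ≤ M := by
    obtain ⟨qq, hqq⟩ : ∃ qq : Nat.Primes, (qq : ℕ) = q := ⟨⟨q, hq⟩, rfl⟩
    have hKq : K qq ≤ M := hK3 qq hqq
    have hKqcard : ¬ q ∣ Nat.card (K qq) := by
      rw [← hqq]
      exact Cfsg.Agent.Lib.Helper12.not_dvd_card_of_isComplementSystem hKsys qq
    have hidx : ((K qq).map (QuotientGroup.mk' R)).index ∣
        q ^ (Nat.card G).factorization q := by
      have h0 := hK1 qq
      rw [hqq] at h0
      rw [← h0]
      exact Subgroup.index_map_dvd _ hπ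
    obtain ⟨b, -, hb⟩ := (Nat.dvd_prime_pow hq).mp hidx
    have hcard : ¬ q ∣ Nat.card ((K qq).map (QuotientGroup.mk' R)) :=
      fun h => hKqcard (h.trans (Subgroup.card_map_dvd _ _))
    have h1 : Subgroup.normalizer
        (((K qq).map (QuotientGroup.mk' R) : Subgroup (G ⧸ R)) : Set (G ⧸ R)) ≤ Mb := by
      haveI := hNbn
      have hle : (K qq).map (QuotientGroup.mk' R) ≤ Mb := by
        rw [hMb]
        exact Subgroup.map_mono hKq
      exact normalizer_hall_le_of_complement Nb Mb hNb hNbmin hNbnc hNbMb hNbMbtop hq hNbq _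
        hle b hb hcard
    intro d hd
    have hd' : d ∈ Subgroup.normalizer ((K qq : Subgroup G) : Set G) :=
      Subgroup.mem_iInf.mp hd qq
    have h2 : (QuotientGroup.mk' R) d ∈ Mb :=
      h1 (Subgroup.le_normalizer_map (QuotientGroup.mk' R) (Subgroup.mem_map_of_mem _ hd'))
    rw [← hcomapMb]
    exact h2
  intro d hd
  have hdM := hDleM hd
  have h1 : (⟨d, hdM⟩ : M) ∈ systemNormalizer KM := by
    refine Subgroup.mem_iInf.mpr (fun p => ?_)
    apply Subgroup.mem_normalizer_fintype
    intro x hx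
    have hxK : (x : G) ∈ K p ⊓ M := by
      rw [hK2 p]
      exact Subgroup.mem_map_of_mem M.subtype hx
    have hdp : d ∈ Subgroup.normalizer ((K p : Subgroup G) : Set G) := Subgroup.mem_iInf.mp hd p
    have h2 : d * x * d⁻¹ ∈ K p ⊓ M :=
      Subgroup.mem_inf.mpr ⟨(Subgroup.mem_normalizer_iff.mp hdp x).mp (Subgroup.mem_inf.mp hxK).1,
        M.mul_mem (M.mul_mem hdM x.2) (M.inv_mem hdM)⟩
    rw [hK2 p] at h2
    obtain ⟨y, hy, hyx⟩ := h2
    have e : (⟨d, hdM⟩ : M) * x * (⟨d, hdM⟩ : M)⁻¹ = y := Subtype.ext hyx.symm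
    rw [SetLike.mem_coe, e]
    exact hy
  exact Subgroup.mem_subgroupOf.mp (hDM h1)

end Cfsg.Agent.Lib.Helper13
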