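import Mathlib
import Cfsg.Agent.Lib.Helper52.QuadFin
import Cfsg.Agent.Lib.Helper51.Gram

/-!
# S2700, piece GT-MINUS (for helper53)

A symmetric invertible matrix `N` of size `2(k+1)` over a finite field of odd order whose
determinant lies in the square class of the minus-type form: `v ↦ vᵀ N v` is isometric to
`quadFormMinus k F a b`.
-/

set_option autoImplicit false

namespace Cfsg.Agent.Lib.Helper13.GTMINUS

open Matrix Cfsg Cfsg.Agent.Lib.Helper51

section QN

variable {F : Type*} [Field F] {ι : Type} [Fintype ι] [DecidableEq ι]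

/-- the quadratic form `v ↦ v ⬝ᵥ N *ᵥ v` -/
noncomputable def QN (N : Matrix ι ι F) : QuadraticForm F (ι → F) := Matrix.toQuadraticForm' N

theorem QN_apply (N : Matrix ι ι F) (v : ι → F) : QN N v = v ⬝ᵥ (N *ᵥ v) := by
  unfold QN Matrix.toQuadraticForm'
  rw [LinearMap.BilinMap.toQuadraticMap_apply, Matrix.toLinearMap₂'_apply']

theorem polar_QN (N : Matrix ι ι F) (hN : N.transpose = N) (u v : ι → F) :
    QuadraticMap.polar ⇑(QN N) u v = 2 * (u ⬝ᵥ (N *ᵥ v)) := by
  unfold QuadraticMap.polar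
  rw [QN_apply, QN_apply, QN_apply, Matrix.mulVec_add, add_dotProduct, dotProduct_add,
    dotProduct_add]
  have h1 : v ⬝ᵥ (N *ᵥ u) = u ⬝ᵥ (N *ᵥ v) := by
    rw [Matrix.dotProduct_mulVec, ← Matrix.mulVec_transpose, hN, dotProduct_comm]
  rw [h1]
  ring

theorem gram_QN (N : Matrix ι ι F) (hN : N.transpose = N) : Helper51.gram (QN N) = (2 : F) • N := by
  ext i j
  rw [Helper51.gram_apply, polar_QN N hN, Matrix.smul_apply, smul_eq_mul]
  simp

theorem gram_eq_of (Q : QuadraticForm F (ι → F)) :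
    Matrix.of (fun i j : ι => QuadraticMap.polar ⇑Q (Pi.basisFun F ι i) (Pi.basisFun F ι j))
      = Helper51.gram Q := by
  ext i j
  rw [Matrix.of_apply, Helper51.gram_apply, Pi.basisFun_apply, Pi.basisFun_apply]

end QN

/-- GT-MINUS -/
theorem form_minus {F : Type*} [Field F] [Fintype F] (h2 : (2 : F) ≠ 0) (k : ℕ)
    (N : Matrix (Fin (2 * (k + 1))) (Fin (2 * (k + 1))) F) (hN : N.transpose = N)
    (hdet : N.det ≠ 0) (a b : F) (hab : a ^ 2 - 4 * b ≠ 0)
    (hsq : IsSquare ((-1) ^ (k + 1) * (a ^ 2 - 4 * b) * N.det)) :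
    ∃ e : ((Fin k ⊕ Fin k) ⊕ Fin 2 → F) ≃ₗ[F] (Fin (2 * (k + 1)) → F),
      ∀ v, e v ⬝ᵥ (N *ᵥ e v) = Cfsg.quadFormMinus k F a b v := by
  have hg1 : (Helper51.gram (QMinus k F a b)).det ≠ 0 := by
    rw [det_gram_QMinus]
    refine mul_ne_zero (pow_ne_zero _ (neg_ne_zero.mpr one_ne_zero)) ?_
    intro h
    apply hab
    linear_combination -h
  have hg2 : (Helper51.gram (QN N)).det ≠ 0 := by
    rw [gram_QN N hN, Matrix.det_smul]
    exact mul_ne_zero (pow_ne_zero _ h2) hdet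
  have hnd1 := nondegenerate_of_det_gram_ne_zero _ hg1
  have hnd2 := nondegenerate_of_det_gram_ne_zero _ hg2
  have hdim : Module.finrank F ((Fin k ⊕ Fin k) ⊕ Fin 2 → F)
      = Module.finrank F (Fin (2 * (k + 1)) → F) := by
    rw [Module.finrank_fintype_fun_eq_card, Module.finrank_fintype_fun_eq_card]
    simp only [Fintype.card_sum, Fintype.card_fin]
    ring
  have hprod : IsSquare
      ((Matrix.of (fun i j : (Fin k ⊕ Fin k) ⊕ Fin 2 =>
          QuadraticMap.polar ⇑(QMinus k F a b) (Pi.basisFun F _ i) (Pi.basisFun F _ j))).det *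
        (Matrix.of (fun i j : Fin (2 * (k + 1)) =>
          QuadraticMap.polar ⇑(QN N) (Pi.basisFun F _ i) (Pi.basisFun F _ j))).det) := by
    rw [gram_eq_of, gram_eq_of, det_gram_QMinus, gram_QN N hN, Matrix.det_smul,
      Fintype.card_fin]
    obtain ⟨r, hr⟩ := hsq
    refine ⟨2 ^ (k + 1) * r, ?_⟩
    have e1 : (2 : F) ^ (2 * (k + 1)) = 2 ^ (k + 1) * 2 ^ (k + 1) := by
      rw [← pow_add, two_mul]
    rw [e1]
    have e2 : (2 : F) ^ (k + 1) * r * (2 ^ (k + 1) * r) = 2 ^ (k + 1) * 2 ^ (k + 1) * (r * r) := by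
      ring
    rw [e2, ← hr, pow_succ]
    ring
  obtain ⟨e⟩ := Cfsg.Agent.Lib.Helper52.equivalent_of_gram h2 (QMinus k F a b) (QN N) hnd1 hnd2
    hdim (Pi.basisFun F _) (Pi.basisFun F _) hprod
  refine ⟨e.toLinearEquiv, fun v => ?_⟩
  have h3 := e.map_app v
  rw [QN_apply] at h3
  rw [← coe_QMinus]
  exact h3

end Cfsg.Agent.Lib.Helper13.GTMINUS
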