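import Mathlib
import Cfsg.Prelude.Def_HallClasses

/-!
# Hall subgroups of symmetric groups: shared definitions (project HALL-SYM, S2536)
-/

set_option autoImplicit false

namespace Cfsg.Agent.Lib.Helper13.HS

open Equiv

/-- The permutations of `s` induced by elements of `H` (those `σ : Perm s` that agree on `s`
with some `h ∈ H`). When `s` is `H`-invariant this is the image of `H` under restriction. -/
def restr {Ω : Type*} (H : Subgroup (Perm Ω)) (s : Set Ω) : Subgroup (Perm ↥s) where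
  carrier := {σ | ∃ h ∈ H, ∀ y : ↥s, h (y : Ω) = (σ y : Ω)}
  mul_mem' := by
    rintro σ τ ⟨h, hh, hσ⟩ ⟨k, hk, hτ⟩
    refine ⟨h * k, H.mul_mem hh hk, fun y => ?_⟩
    rw [Perm.mul_apply, hτ y, hσ (τ y), Perm.mul_apply]
  one_mem' := ⟨1, H.one_mem, fun y => rfl⟩
  inv_mem' := by
    rintro σ ⟨h, hh, hσ⟩
    refine ⟨h⁻¹, H.inv_mem hh, fun y => ?_⟩
    have h1 := hσ (σ⁻¹ y)
    have h2 : σ (σ⁻¹ y) = y := by simp
    rw [h2] at h1
    rw [Perm.inv_eq_iff_eq]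
    exact h1.symm

theorem mem_restr {Ω : Type*} (H : Subgroup (Perm Ω)) (s : Set Ω) (σ : Perm ↥s) :
    σ ∈ restr H s ↔ ∃ h ∈ H, ∀ y : ↥s, h (y : Ω) = (σ y : Ω) := Iff.rfl

/-- at least two primes of `π` are `≤ n` -/
def A1 (π : Set ℕ) (n : ℕ) : Prop :=
  ∃ r s : ℕ, r.Prime ∧ s.Prime ∧ r ≠ s ∧ r ∈ π ∧ s ∈ π ∧ r ≤ n ∧ s ≤ n

/-- some prime `≤ n` is not in `π` -/
def A2 (π : Set ℕ) (n : ℕ) : Prop :=
  ∃ r : ℕ, r.Prime ∧ r ≤ n ∧ r ∉ π

/-- `n` is prime and the primes of `π` that are `≤ n` are exactly the primes `< n` -/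
def Cc (π : Set ℕ) (n : ℕ) : Prop :=
  n.Prime ∧ ∀ r : ℕ, r.Prime → r ≤ n → (r ∈ π ↔ r < n)

/-- `n ∈ {7, 8}` and the primes of `π` that are `≤ n` are exactly 2 and 3 -/
def Cd (π : Set ℕ) (n : ℕ) : Prop :=
  (n = 7 ∨ n = 8) ∧ ∀ r : ℕ, r.Prime → r ≤ n → (r ∈ π ↔ (r = 2 ∨ r = 3))

end Cfsg.Agent.Lib.Helper13.HS
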