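import Mathlib
import Cfsg.Prelude.Def_HallClasses
import Cfsg.Agent.Lib.Helper13.HSDefs

/-!
# Hall subgroups of alternating groups: shared definitions (project HALL-ALT, S2535 / S2538)
-/

set_option autoImplicit false

namespace Cfsg.Agent.Lib.Helper13.HA

open Equiv
open scoped Pointwise

/-- the alternating group of a finite type, as a subgroup of `Perm Ω`, without instance
arguments (so that statements only need `[Finite Ω]`) -/
noncomputable def altOf (Ω : Type*) [Finite Ω] : Subgroup (Perm Ω) :=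
  @alternatingGroup Ω (Fintype.ofFinite Ω) (Classical.decEq Ω)

theorem altOf_eq (Ω : Type*) [Fintype Ω] [DecidableEq Ω] : altOf Ω = alternatingGroup Ω := by
  unfold altOf
  congr!

/-- `M ≤ Perm Ω` lies in the alternating group and is a Hall `π`-subgroup of it -/
def HallAlt {Ω : Type*} [Finite Ω] (π : Set ℕ) (M : Subgroup (Perm Ω)) : Prop :=
  M ≤ altOf Ω ∧ (∀ p : ℕ, p.Prime → p ∣ Nat.card M → p ∈ π) ∧
    (∀ p : ℕ, p.Prime → p ∈ π → ¬ p ∣ M.relIndex (altOf Ω))

/-- the stabiliser of the pair `{B, Bᶜ}`: the permutations `g` with `g • B = B` or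
`g • B = Bᶜ` -/
def blockPair {Ω : Type*} (B : Set Ω) : Subgroup (Perm Ω) :=
  MulAction.stabilizer (Perm Ω) ({B, Bᶜ} : Set (Set Ω))

end Cfsg.Agent.Lib.Helper13.HA
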