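import Mathlib
import Cfsg.Prelude.Def_HallClasses
import Cfsg.Agent.Lib.Helper13.HSDefs
import Cfsg.Agent.Lib.Helper13.HADefs

/-! Project HALL-ALT (S2535 / S2538), piece AARITH. Paper proofs: team note (topic S2538).
Auxiliary names in this file must start with `aarith_`. -/

set_option autoImplicit false

namespace Cfsg.Agent.Lib.Helper13.HA

open Equiv
open scoped Pointwise
open Cfsg.Agent.Lib.Helper13.HS

theorem choose_prime_factor (p k : ℕ) (hp : p.Prime) (hk : 2 ≤ k) (hk' : k + 2 ≤ p) :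
    ∃ r : ℕ, r.Prime ∧ r < p ∧ r ∣ Nat.choose p k := by
  obtain ⟨t, ht⟩ := hp.dvd_choose_self (by omega : k ≠ 0) (by omega : k < p)
  obtain ⟨q, rfl⟩ : ∃ q, p = q + 1 := ⟨p - 1, by omega⟩
  obtain ⟨j, rfl⟩ : ∃ j, k = j + 1 := ⟨k - 1, by omega⟩
  have h1 : (q + 1) * Nat.choose q j = Nat.choose (q + 1) (j + 1) * (j + 1) :=
    Nat.add_one_mul_choose_eq q j
  rw [ht] at h1
  have h2 : Nat.choose q j = t * (j + 1) := by
    have h0 : (q + 1) * Nat.choose q j = (q + 1) * (t * (j + 1)) := by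
      rw [h1]
      ring
    exact Nat.eq_of_mul_eq_mul_left (by omega) h0
  have h3 : j + 1 < Nat.choose q j := by
    have h4 : Nat.choose (j + 2) j ≤ Nat.choose q j := Nat.choose_le_choose j (by omega)
    have h5 : Nat.choose (j + 2) j = Nat.choose (j + 2) 2 := by
      have h0 := Nat.choose_symm (n := j + 2) (k := 2) (by omega)
      simpa using h0
    have h6 : Nat.choose (j + 2) 2 = (j + 2) * (j + 1) / 2 := by
      rw [Nat.choose_two_right]
      simp
    have h7 : j + 2 ≤ (j + 2) * (j + 1) / 2 := by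
      rw [Nat.le_div_iff_mul_le (by norm_num)]
      nlinarith
    omega
  have ht2 : 2 ≤ t := by
    by_contra h
    have h0 : t ≤ 1 := by omega
    have h00 : t * (j + 1) ≤ 1 * (j + 1) := Nat.mul_le_mul_right _ h0
    omega
  have hpr : (t.minFac).Prime := Nat.minFac_prime (by omega)
  refine ⟨t.minFac, hpr, ?_, ?_⟩
  · have h8 : t.minFac ∣ Nat.choose q j := Dvd.dvd.trans (Nat.minFac_dvd t) ⟨j + 1, h2⟩
    have h9 : Nat.choose q j ∣ q.factorial := by
      have h0 := Nat.choose_mul_factorial_mul_factorial (n := q) (k := j) (by omega)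
      exact ⟨j.factorial * (q - j).factorial, by rw [← h0]; ring⟩
    have h10 := (Nat.Prime.dvd_factorial hpr).mp (h8.trans h9)
    omega
  · exact Dvd.dvd.trans (Nat.minFac_dvd t) ⟨q + 1, by rw [ht]; ring⟩

end Cfsg.Agent.Lib.Helper13.HA
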