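import Mathlib
import Cfsg.Prelude.Def_HallClasses
import Cfsg.Agent.Lib.Helper13.HSDefs

/-! Project HALL-SYM (S2536), piece BLOCK. Paper proofs: team note (topic S2536). -/

set_option autoImplicit false

namespace Cfsg.Agent.Lib.Helper13.HS

open Equiv
open scoped Pointwise

/-- a block of `X ≤ Perm Ω` that a cycle `g ∈ X` moves and that meets the support of `g`:
its size divides the cycle length -/
theorem block_moved {Ω : Type*} [Fintype Ω] [DecidableEq Ω] (X : Subgroup (Perm Ω))
    (B : Set Ω) (hB : MulAction.IsBlock ↥X B) (g : Perm Ω) (hg : g ∈ X) (hc : g.IsCycle)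
    (x : Ω) (hxB : x ∈ B) (hxs : g x ≠ x) (hmv : g • B ≠ B) :
    B.ncard ∣ g.support.card := by
  classical
  let Z : Subgroup (Perm Ω) := Subgroup.zpowers g
  have hZX : Z ≤ X := by
    rw [Subgroup.zpowers_le]; exact hg
  have hBZ : MulAction.IsBlock ↥Z B := fun z₁ z₂ h =>
    hB (g₁ := ⟨z₁.1, hZX z₁.2⟩) (g₂ := ⟨z₂.1, hZX z₂.2⟩) h
  have hdisj : Disjoint (g • B) B := by
    have h1 := hB (g₁ := ⟨g, hg⟩) (g₂ := 1)
    rw [one_smul] at h1
    exact h1 hmv
  have hsub : B ⊆ (g.support : Set Ω) := by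
    intro y hy
    simp only [Finset.mem_coe, Perm.mem_support]
    intro hgy
    exact Set.disjoint_left.mp hdisj ⟨y, hy, hgy⟩ hy
  have horb : MulAction.orbit ↥Z x = (g.support : Set Ω) := by
    ext y
    constructor
    · rintro ⟨⟨z, hz⟩, rfl⟩
      obtain ⟨i, rfl⟩ := Subgroup.mem_zpowers_iff.mp hz
      simp only [Finset.mem_coe]
      exact (Perm.zpow_apply_mem_support).mpr (Perm.mem_support.mpr hxs)
    · intro hy
      obtain ⟨i, hi⟩ := hc.exists_zpow_eq hxs (Perm.mem_support.mp (Finset.mem_coe.mp hy))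
      exact ⟨⟨g ^ i, Subgroup.zpow_mem_zpowers g i⟩, hi⟩
  let j : ↥(MulAction.orbit ↥Z x) →ₑ[@id ↥Z] Ω :=
    { toFun := Subtype.val, map_smul' := fun _ _ => rfl }
  have hB' : MulAction.IsBlock ↥Z (j ⁻¹' B) := hBZ.preimage j
  have hne : (j ⁻¹' B).Nonempty := ⟨⟨x, MulAction.mem_orbit_self x⟩, hxB⟩
  have hdvd := hB'.ncard_dvd_card hne
  have hcard1 : (j ⁻¹' B).ncard = B.ncard := by
    apply Set.ncard_preimage_of_injective_subset_range Subtype.val_injective
    rw [Subtype.range_coe, horb]; exact hsub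
  have hcard2 : Nat.card ↥(MulAction.orbit ↥Z x) = g.support.card := by
    rw [Nat.card_coe_set_eq, horb, Set.ncard_coe_finset]
  rw [hcard1, hcard2] at hdvd
  exact hdvd

/-- BC: a transitive, imprimitive group `X ≤ Perm Ω` has a block size `a` (`1 < a < |Ω|`,
`a ∣ |Ω|`) such that every cycle of prime-power length `q ^ k` in `X` either has `a` a power
of `q` (the cycle moves a block) or has length `≤ a` (its support lies in one block). -/
theorem block_cycle {Ω : Type*} [Fintype Ω] [DecidableEq Ω] (X : Subgroup (Perm Ω))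
    (htr : MulAction.IsPretransitive ↥X Ω) (hnp : ¬ MulAction.IsPreprimitive ↥X Ω) :
    ∃ a : ℕ, 1 < a ∧ a < Nat.card Ω ∧ a ∣ Nat.card Ω ∧
      ∀ g ∈ X, g.IsCycle → ∀ q k : ℕ, q.Prime → g.support.card = q ^ k →
        ((∃ j : ℕ, a = q ^ j) ∨ q ^ k ≤ a) := by
  classical
  have hex : ∃ B : Set Ω, MulAction.IsBlock ↥X B ∧ ¬ MulAction.IsTrivialBlock B := by
    by_contra hcon
    push Not at hcon
    exact hnp { toIsPretransitive := htr, isTrivialBlock_of_isBlock := fun {B} hB => hcon B hB }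
  obtain ⟨B, hB, hnt⟩ := hex
  have hns : ¬ B.Subsingleton := fun h => hnt (Or.inl h)
  have hnu : B ≠ Set.univ := fun h => hnt (Or.inr h)
  have hne : B.Nonempty := by
    by_contra h
    rw [Set.not_nonempty_iff_eq_empty] at h
    exact hns (h ▸ Set.subsingleton_empty)
  refine ⟨B.ncard, ?_, ?_, hB.ncard_dvd_card hne, ?_⟩
  · rw [Set.one_lt_ncard_iff_nontrivial]
    exact Set.not_subsingleton_iff.mp hns
  · rw [← Set.ncard_univ]
    exact Set.ncard_lt_ncard (Set.ssubset_univ_iff.mpr hnu)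
  · intro g hg hc q k hq hcard
    obtain ⟨x, hx⟩ := hc.nonempty_support
    have hxs : g x ≠ x := Perm.mem_support.mp hx
    obtain ⟨b, hb⟩ := hne
    obtain ⟨t, ht⟩ := htr.exists_smul_eq b x
    have hB' : MulAction.IsBlock ↥X (t • B) := hB.translate t
    have hxB' : x ∈ t • B := ⟨b, hb, ht⟩
    have hcardB' : (t • B).ncard = B.ncard :=
      Set.ncard_image_of_injective _ (MulAction.injective t)
    by_cases hmv : g • (t • B) = t • B
    · right
      have hsub : (g.support : Set Ω) ⊆ t • B := by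
        intro y hy
        obtain ⟨i, hi⟩ := hc.exists_zpow_eq hxs (Perm.mem_support.mp (Finset.mem_coe.mp hy))
        rw [← hi]
        have hst : g ∈ MulAction.stabilizer (Perm Ω) (t • B) := MulAction.mem_stabilizer_iff.mpr hmv
        have hst' : g ^ i ∈ MulAction.stabilizer (Perm Ω) (t • B) := zpow_mem hst i
        have h2 : (g ^ i) • (t • B) = t • B := MulAction.mem_stabilizer_iff.mp hst'
        rw [← h2]
        exact ⟨x, hxB', rfl⟩
      rw [← hcard, ← hcardB', ← Set.ncard_coe_finset]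
      exact Set.ncard_le_ncard hsub
    · left
      have hd := block_moved X (t • B) hB' g hg hc x hxB' hxs hmv
      rw [hcardB', hcard] at hd
      obtain ⟨j, _, hj⟩ := (Nat.dvd_prime_pow hq).mp hd
      exact ⟨j, hj⟩

end Cfsg.Agent.Lib.Helper13.HS
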