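import Mathlib
import Cfsg.Prelude.Def_HallClasses
import Cfsg.Agent.Lib.Helper13.HSDefs
import Cfsg.Agent.Lib.Helper13.HADefs
import Cfsg.Agent.Lib.Helper13.HSBlock

/-! Project HALL-ALT (S2535 / S2538), piece ABLOCK. Paper proofs: team note (topic S2538).
Auxiliary names in this file must start with `ablock_`. -/

set_option autoImplicit false

namespace Cfsg.Agent.Lib.Helper13.HA

open Equiv
open scoped Pointwise
open Cfsg.Agent.Lib.Helper13.HS

theorem block_cycle_set {Ω : Type} [Fintype Ω] [DecidableEq Ω] (X : Subgroup (Perm Ω))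
    (htr : MulAction.IsPretransitive ↥X Ω) (hnp : ¬ MulAction.IsPreprimitive ↥X Ω) (ω : Ω) :
    ∃ B : Set Ω, ω ∈ B ∧ MulAction.IsBlock ↥X B ∧ 1 < B.ncard ∧ B.ncard < Nat.card Ω ∧
      B.ncard ∣ Nat.card Ω ∧
      ∀ g ∈ X, g.IsCycle → ∀ q k : ℕ, q.Prime → g.support.card = q ^ k →
        ((∃ j : ℕ, B.ncard = q ^ j) ∨ q ^ k ≤ B.ncard) := by
  classical
  have hex : ∃ B : Set Ω, MulAction.IsBlock ↥X B ∧ ¬ MulAction.IsTrivialBlock B := by
    by_contra hcon
    push Not at hcon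
    exact hnp { toIsPretransitive := htr, isTrivialBlock_of_isBlock := fun {B} hB => hcon B hB }
  obtain ⟨B, hB, hnt⟩ := hex
  have hns : ¬ B.Subsingleton := fun h => hnt (Or.inl h)
  have hnu : B ≠ Set.univ := fun h => hnt (Or.inr h)
  have hne : B.Nonempty := by
    by_contra h
    rw [Set.not_nonempty_iff_eq_empty] at h
    exact hns (h ▸ Set.subsingleton_empty)
  obtain ⟨b, hb⟩ := hne
  obtain ⟨t₀, ht₀⟩ := htr.exists_smul_eq b ω
  have hBblock : MulAction.IsBlock ↥X (t₀ • B) := hB.translate t₀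
  have hcard0 : (t₀ • B).ncard = B.ncard :=
    Set.ncard_image_of_injective _ (MulAction.injective t₀)
  refine ⟨t₀ • B, ⟨b, hb, ht₀⟩, hBblock, ?_, ?_, ?_, ?_⟩
  · rw [hcard0, Set.one_lt_ncard_iff_nontrivial]
    exact Set.not_subsingleton_iff.mp hns
  · rw [hcard0, ← Set.ncard_univ]
    exact Set.ncard_lt_ncard (Set.ssubset_univ_iff.mpr hnu)
  · rw [hcard0]
    exact hB.ncard_dvd_card ⟨b, hb⟩
  · rw [hcard0]
    intro g hg hc q k hq hcard
    obtain ⟨x, hx⟩ := hc.nonempty_support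
    have hxs : g x ≠ x := Perm.mem_support.mp hx
    obtain ⟨t, ht⟩ := htr.exists_smul_eq b x
    have hB' : MulAction.IsBlock ↥X (t • B) := hB.translate t
    have hxB' : x ∈ t • B := ⟨b, hb, ht⟩
    have hcardB' : (t • B).ncard = B.ncard :=
      Set.ncard_image_of_injective _ (MulAction.injective t)
    by_cases hmv : g • (t • B) = t • B
    · right
      have hsub : (g.support : Set Ω) ⊆ t • B := by
        intro y hy
        obtain ⟨i, hi⟩ := hc.exists_zpow_eq hxs (Perm.mem_support.mp (Finset.mem_coe.mp hy))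
        rw [← hi]
        have hst : g ∈ MulAction.stabilizer (Perm Ω) (t • B) := MulAction.mem_stabilizer_iff.mpr hmv
        have hst' : g ^ i ∈ MulAction.stabilizer (Perm Ω) (t • B) := zpow_mem hst i
        have h2 : (g ^ i) • (t • B) = t • B := MulAction.mem_stabilizer_iff.mp hst'
        rw [← h2]
        exact ⟨x, hxB', rfl⟩
      rw [← hcard, ← hcardB', ← Set.ncard_coe_finset]
      exact Set.ncard_le_ncard hsub
    · left
      have hd := block_moved X (t • B) hB' g hg hc x hxB' hxs hmv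
      rw [hcardB', hcard] at hd
      obtain ⟨j, _, hj⟩ := (Nat.dvd_prime_pow hq).mp hd
      exact ⟨j, hj⟩

theorem block_point_invariant {Ω : Type} [Finite Ω] (X : Subgroup (Perm Ω)) (ω : Ω)
    (B : Set Ω) (hω : ω ∈ B) (hB : MulAction.IsBlock ↥X B) :
    ∃ s : Set ↥({ω}ᶜ : Set Ω), s.ncard + 1 = B.ncard ∧
      ∀ σ ∈ restr X ({ω}ᶜ : Set Ω), ∀ y ∈ s, σ y ∈ s := by
  classical
  refine ⟨{y | (y : Ω) ∈ B}, ?_, ?_⟩
  · have h1 : ({y : ↥({ω}ᶜ : Set Ω) | (y : Ω) ∈ B}).ncard = (B \ {ω}).ncard := by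
      rw [← Set.ncard_image_of_injective _ Subtype.val_injective]
      congr 1
      ext x
      constructor
      · rintro ⟨y, hy, rfl⟩
        exact ⟨hy, y.2⟩
      · rintro ⟨hx, hxω⟩
        exact ⟨⟨x, hxω⟩, hx, rfl⟩
    rw [h1, Set.ncard_sdiff_singleton_add_one hω (Set.toFinite B)]
  · rintro σ ⟨h, hh, hσ⟩ y hy
    have hfix : h ω = ω := by
      by_contra hne
      obtain ⟨z, hz⟩ := σ.surjective ⟨h ω, hne⟩
      have h1 := hσ z
      rw [hz] at h1
      have h2 : (z : Ω) = ω := h.injective h1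
      exact z.2 h2
    have hsm : (⟨h, hh⟩ : ↥X) • B = B := by
      rcases MulAction.isBlock_iff_smul_eq_or_disjoint.mp hB ⟨h, hh⟩ with h1 | h1
      · exact h1
      · exfalso
        exact Set.disjoint_left.mp h1 ⟨ω, hω, hfix⟩ hω
    have hgoal : ((σ y : ↥({ω}ᶜ : Set Ω)) : Ω) ∈ B := by
      rw [← hσ y]
      have h3 : h (y : Ω) ∈ (⟨h, hh⟩ : ↥X) • B := ⟨y, hy, rfl⟩
      rw [hsm] at h3
      exact h3
    exact hgoal

end Cfsg.Agent.Lib.Helper13.HA
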