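import Mathlib
import Cfsg.Prelude.Def_HallClasses
import Cfsg.Agent.Lib.Helper13.HSDefs
import Cfsg.Agent.Lib.Helper13.HADefs

/-! Project HALL-ALT (S2535 / S2538), piece BRIDGE. Paper proofs: team note (topic S2538).
Auxiliary names in this file must start with `bridge_`. -/

set_option autoImplicit false

namespace Cfsg.Agent.Lib.Helper13.HA

open Equiv
open scoped Pointwise
open Cfsg.Agent.Lib.Helper13.HS

theorem bridge_card {G : Type*} [Group G] (A : Subgroup G) (M : Subgroup ↥A) :
    Nat.card ↥(M.map A.subtype) = Nat.card ↥M :=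
  Subgroup.card_map_of_injective (Subgroup.subtype_injective A)

theorem bridge_relIndex {G : Type*} [Group G] (A : Subgroup G) (M : Subgroup ↥A) :
    (M.map A.subtype).relIndex A = M.index := by
  have h : (M.map A.subtype).subgroupOf A = M := by
    ext x
    simp [Subgroup.mem_subgroupOf]
  unfold Subgroup.relIndex
  rw [h]

theorem hallAlt_map {Ω : Type} [Fintype Ω] [DecidableEq Ω] (π : Set ℕ)
    (M : Subgroup ↥(alternatingGroup Ω)) :
    Cfsg.IsPiHall π M ↔ HallAlt π (M.map (alternatingGroup Ω).subtype) := by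
  unfold Cfsg.IsPiHall HallAlt
  rw [altOf_eq, bridge_card, bridge_relIndex]
  constructor
  · rintro ⟨h1, h2⟩
    exact ⟨Subgroup.map_subtype_le M, h1, h2⟩
  · rintro ⟨-, h1, h2⟩
    exact ⟨h1, h2⟩

end Cfsg.Agent.Lib.Helper13.HA
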