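import Mathlib
import Cfsg.Prelude.Def_HallClasses
import Cfsg.Agent.Lib.Helper13.HSDefs

/-! Project HALL-SYM (S2536), piece CHOOSE. Paper proofs: team note (topic S2536). -/

set_option autoImplicit false

namespace Cfsg.Agent.Lib.Helper13.HS

open Equiv

open scoped Pointwise in
/-- the stabiliser of a set `s` in `Perm Ω` contains every subgroup leaving `s` invariant, and
its index is a binomial coefficient -/
theorem choose_stab_index {Ω : Type*} [Finite Ω] (H : Subgroup (Perm Ω)) (s : Set Ω)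
    (hs : ∀ h ∈ H, ∀ x ∈ s, h x ∈ s) :
    ∃ S : Subgroup (Perm Ω), H ≤ S ∧ S.index = Nat.choose (Nat.card Ω) s.ncard := by
  classical
  have : Fintype Ω := Fintype.ofFinite Ω
  have hsfin : s.Finite := Set.toFinite s
  obtain ⟨t, ht⟩ : ∃ t : Set.powersetCard Ω s.ncard, (t : Set Ω) = s := by
    refine ⟨⟨hsfin.toFinset, ?_⟩, ?_⟩
    · rw [Set.powersetCard.mem_iff]; exact (Set.ncard_eq_toFinset_card s hsfin).symm
    · ext x
      simp
  have := Set.powersetCard.isPretransitive (α := Ω) (n := s.ncard)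
  refine ⟨MulAction.stabilizer (Perm Ω) t, ?_, ?_⟩
  · intro h hh
    rw [Set.powersetCard.stabilizer_coe, MulAction.mem_stabilizer_iff, ht]
    refine Set.eq_of_subset_of_ncard_le ?_ ?_ (Set.toFinite _)
    · rintro _ ⟨x, hx, rfl⟩
      exact hs h hh x hx
    · rw [Set.ncard_smul_set]
  · rw [MulAction.index_stabilizer_of_transitive, Set.powersetCard.card]

/-- G3: if a Hall `π`-subgroup `H` of `Perm Ω` leaves the set `s` invariant then no prime of `π`
divides `choose |Ω| |s|` (the index of the set stabiliser of `s`, which contains `H`). -/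
theorem hall_choose {Ω : Type*} [Finite Ω] (π : Set ℕ) (H : Subgroup (Perm Ω)) (s : Set Ω)
    (hH : Cfsg.IsPiHall π H) (hs : ∀ h ∈ H, ∀ x ∈ s, h x ∈ s) (p : ℕ) (hp : p.Prime)
    (hpπ : p ∈ π) : ¬ p ∣ Nat.choose (Nat.card Ω) s.ncard := by
  obtain ⟨S, hle, hidx⟩ := choose_stab_index H s hs
  intro hdvd
  rw [← hidx] at hdvd
  exact hH.2 p hp hpπ (dvd_trans hdvd (Subgroup.index_dvd_of_le hle))

end Cfsg.Agent.Lib.Helper13.HS
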