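import Mathlib
import Cfsg.Prelude.Def_HallClasses
import Cfsg.Agent.Lib.Helper13.HSDefs
import Cfsg.Agent.Lib.Helper13.HADefs
import Cfsg.Agent.Lib.Helper13.HSChoose

/-! Project HALL-ALT (S2535 / S2538), piece ACHOOSE. Paper proofs: team note (topic S2538).
Auxiliary names in this file must start with `achoose_`. -/

set_option autoImplicit false

namespace Cfsg.Agent.Lib.Helper13.HA

open Equiv
open scoped Pointwise
open Cfsg.Agent.Lib.Helper13.HS

set_option backward.isDefEq.respectTransparency false in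
/-- the stabiliser of a set `s` in the alternating group contains (the trace of) every subgroup
leaving `s` invariant, and its index is a binomial coefficient (for `3 ≤ |Ω|`). -/
theorem achoose_stab_index {Ω : Type} [Fintype Ω] [DecidableEq Ω] (M : Subgroup (Perm Ω))
    (s : Set Ω) (hn : 3 ≤ Nat.card Ω) (hs : ∀ h ∈ M, ∀ x ∈ s, h x ∈ s) :
    ∃ S : Subgroup (alternatingGroup Ω), M.subgroupOf (alternatingGroup Ω) ≤ S ∧
      S.index = Nat.choose (Nat.card Ω) s.ncard := by
  have hsfin : s.Finite := Set.toFinite s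
  obtain ⟨t, ht⟩ : ∃ t : Set.powersetCard Ω s.ncard, (t : Set Ω) = s := by
    refine ⟨⟨hsfin.toFinset, ?_⟩, ?_⟩
    · rw [Set.powersetCard.mem_iff]; exact (Set.ncard_eq_toFinset_card s hsfin).symm
    · ext x
      simp
  have := Set.powersetCard.isPretransitive_alternatingGroup (α := Ω) (n := s.ncard) hn
  refine ⟨MulAction.stabilizer (alternatingGroup Ω) t, ?_, ?_⟩
  · intro h hh
    rw [Subgroup.mem_subgroupOf] at hh
    rw [Set.powersetCard.stabilizer_coe, MulAction.mem_stabilizer_iff, ht]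
    refine Set.eq_of_subset_of_ncard_le ?_ ?_ (Set.toFinite _)
    · rintro _ ⟨x, hx, rfl⟩
      exact hs (h : Perm Ω) hh x hx
    · rw [Set.ncard_smul_set]
  · rw [MulAction.index_stabilizer_of_transitive, Set.powersetCard.card]

theorem hallAlt_choose {Ω : Type} [Finite Ω] (π : Set ℕ) (M : Subgroup (Perm Ω)) (s : Set Ω)
    (hM : HallAlt π M) (hn : 3 ≤ Nat.card Ω) (hs : ∀ h ∈ M, ∀ x ∈ s, h x ∈ s) (p : ℕ)
    (hp : p.Prime) (hpπ : p ∈ π) : ¬ p ∣ Nat.choose (Nat.card Ω) s.ncard := by
  classical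
  haveI : Fintype Ω := Fintype.ofFinite Ω
  obtain ⟨-, -, hidx⟩ := hM
  rw [altOf_eq] at hidx
  obtain ⟨S, hle, hS⟩ := achoose_stab_index M s hn hs
  intro hdvd
  rw [← hS] at hdvd
  exact hidx p hp hpπ (dvd_trans hdvd (Subgroup.index_dvd_of_le hle))

end Cfsg.Agent.Lib.Helper13.HA
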