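import Mathlib
import Cfsg.Prelude.Def_HallClasses
import Cfsg.Agent.Lib.Helper13.HSDefs
import Cfsg.Agent.Lib.Helper13.HADefs

/-! Project HALL-ALT (S2535 / S2538), piece GCONJ. Paper proofs: team note (topic S2538).
Auxiliary names in this file must start with `gconj_`. -/

set_option autoImplicit false

namespace Cfsg.Agent.Lib.Helper13.HA

open Equiv
open scoped Pointwise
open Cfsg.Agent.Lib.Helper13.HS

theorem gconj_bot {G : Type*} [Group G] [Finite G] (π : Set ℕ)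
    (h0 : ∀ r : ℕ, r.Prime → r ∈ π → ¬ r ∣ Nat.card G)
    (H : Subgroup G) (hH : Cfsg.IsPiHall π H) : H = ⊥ := by
  have hc : Nat.card H = 1 := by
    rw [Nat.eq_one_iff_not_exists_prime_dvd]
    intro p hp hpd
    exact h0 p hp (hH.1 p hp hpd) (hpd.trans (Subgroup.card_subgroup_dvd_card H))
  exact Subgroup.eq_bot_of_card_eq H hc

theorem gconj_sylow {G : Type*} [Group G] [Finite G] (π : Set ℕ) (p : ℕ) [Fact p.Prime]
    (hpπ : p ∈ π)
    (h1 : ∀ r : ℕ, r.Prime → r ∈ π → r ∣ Nat.card G → r = p)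
    (H : Subgroup G) (hH : Cfsg.IsPiHall π H) : ∃ P : Sylow p G, (P : Subgroup G) = H := by
  have hp : p.Prime := Fact.out
  have hpg : IsPGroup p H := by
    have hne : Nat.card H ≠ 0 := Nat.card_pos.ne'
    have := Nat.eq_prime_pow_of_unique_prime_dvd hne (p := p) (fun {d} hd hdd =>
      h1 d hd (hH.1 d hd hdd) (hdd.trans (Subgroup.card_subgroup_dvd_card H)))
    exact IsPGroup.of_card this
  exact ⟨hpg.toSylow (hH.2 p hp hpπ), IsPGroup.toSylow_coe _ _⟩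

theorem hall_conj_one_prime {G : Type*} [Group G] [Finite G] (π : Set ℕ)
    (h1 : ∀ r s : ℕ, r.Prime → s.Prime → r ∈ π → s ∈ π → r ∣ Nat.card G → s ∣ Nat.card G → r = s)
    (H K : Subgroup G) (hH : Cfsg.IsPiHall π H) (hK : Cfsg.IsPiHall π K) :
    ∃ g : G, K = H.map (MulAut.conj g).toMonoidHom := by
  by_cases h0 : ∀ r : ℕ, r.Prime → r ∈ π → ¬ r ∣ Nat.card G
  · refine ⟨1, ?_⟩
    rw [gconj_bot π h0 H hH, gconj_bot π h0 K hK, Subgroup.map_bot]
  · push Not at h0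
    obtain ⟨p, hp, hpπ, hpd⟩ := h0
    have : Fact p.Prime := ⟨hp⟩
    have h1' : ∀ r : ℕ, r.Prime → r ∈ π → r ∣ Nat.card G → r = p :=
      fun r hr hrπ hrd => h1 r p hr hp hrπ hpπ hrd hpd
    obtain ⟨P, hP⟩ := gconj_sylow π p hpπ h1' H hH
    obtain ⟨Q, hQ⟩ := gconj_sylow π p hpπ h1' K hK
    obtain ⟨g, hg⟩ := MulAction.exists_smul_eq G P Q
    refine ⟨g, ?_⟩
    rw [← hQ, ← hg, ← hP, Sylow.coe_subgroup_smul]
    rfl

end Cfsg.Agent.Lib.Helper13.HA
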