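import Mathlib
import Cfsg.Prelude.Def_HallClasses
import Cfsg.Agent.Lib.Helper13.HSDefs
import Cfsg.Agent.Lib.Helper13.HADefs

/-! Project HALL-ALT (S2535 / S2538), piece GMAX. Paper proofs: team note (topic S2538).
Auxiliary names in this file must start with `gmax_`. -/

set_option autoImplicit false

namespace Cfsg.Agent.Lib.Helper13.HA

open Equiv
open scoped Pointwise
open Cfsg.Agent.Lib.Helper13.HS

theorem hall_max {G : Type*} [Group G] [Finite G] (π : Set ℕ) (H L : Subgroup G)
    (hH : Cfsg.IsPiHall π H) (hle : H ≤ L)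
    (hL : ∀ p : ℕ, p.Prime → p ∣ Nat.card L → p ∈ π) : H = L := by
  apply le_antisymm hle
  rw [← Subgroup.relIndex_eq_one]
  by_contra hne
  obtain ⟨p, hp, hpd⟩ := Nat.exists_prime_and_dvd hne
  have h1 : H.relIndex L ∣ H.index := Subgroup.relIndex_dvd_index_of_le hle
  have h2 : H.relIndex L ∣ Nat.card L := Subgroup.relIndex_dvd_card H L
  exact hH.2 p hp (hL p hp (hpd.trans h2)) (hpd.trans h1)

end Cfsg.Agent.Lib.Helper13.HA
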