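import Mathlib
import Cfsg.Prelude.Def_HallClasses
import Cfsg.Agent.Lib.Helper13.HSDefs
import Cfsg.Agent.Lib.Helper13.HADefs

/-! Project HALL-ALT (S2535 / S2538), piece GTOP. Paper proofs: team note (topic S2538).
Auxiliary names in this file must start with `gtop_`. -/

set_option autoImplicit false

namespace Cfsg.Agent.Lib.Helper13.HA

open Equiv
open scoped Pointwise
open Cfsg.Agent.Lib.Helper13.HS

theorem hall_eq_top {G : Type*} [Group G] [Finite G] (π : Set ℕ)
    (hall : ∀ r : ℕ, r.Prime → r ∣ Nat.card G → r ∈ π) (H : Subgroup G)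
    (hH : Cfsg.IsPiHall π H) : H = ⊤ := by
  by_contra hne
  have hidx : H.index ≠ 1 := fun h => hne (Subgroup.index_eq_one.mp h)
  obtain ⟨p, hp, hpd⟩ := Nat.exists_prime_and_dvd hidx
  have hpG : p ∣ Nat.card G := dvd_trans hpd (Subgroup.index_dvd_card H)
  exact hH.2 p hp (hall p hp hpG) hpd

end Cfsg.Agent.Lib.Helper13.HA
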