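import Mathlib
import Cfsg.Prelude.Def_HallClasses
import Cfsg.Agent.Lib.Helper13.HSDefs

/-! Project HALL-SYM (S2536), piece EXIST. Paper proofs: team note (topic S2536). -/

set_option autoImplicit false

namespace Cfsg.Agent.Lib.Helper13.HS

open Equiv

theorem exist_card_range {A B : Type*} [Group A] [Group B] (φ : A →* B)
    (hφ : Function.Injective φ) : Nat.card φ.range = Nat.card A :=
  (Nat.card_congr (MonoidHom.ofInjective hφ).toEquiv).symm

theorem exist_index {B : Type*} [Group B] (H : Subgroup B) (a b : ℕ) (ha : 0 < a)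
    (hH : Nat.card H = a) (hB : Nat.card B = a * b) : H.index = b := by
  have h1 := Subgroup.card_mul_index H
  rw [hH, hB] at h1
  exact Nat.eq_of_mul_eq_mul_left ha h1

theorem exist_prime_dvd_144 {p : ℕ} (hp : p.Prime) (h : p ∣ 144) : p = 2 ∨ p = 3 := by
  have h1 : p ∣ 2 ^ 4 * 3 ^ 2 := by norm_num; exact h
  rcases (Nat.Prime.dvd_mul hp).mp h1 with h2 | h2
  · exact Or.inl ((Nat.prime_dvd_prime_iff_eq hp Nat.prime_two).mp (hp.dvd_of_dvd_pow h2))
  · exact Or.inr ((Nat.prime_dvd_prime_iff_eq hp Nat.prime_three).mp (hp.dvd_of_dvd_pow h2))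

theorem exist_prime_dvd_1152 {p : ℕ} (hp : p.Prime) (h : p ∣ 1152) : p = 2 ∨ p = 3 := by
  have h1 : p ∣ 2 ^ 7 * 3 ^ 2 := by norm_num; exact h
  rcases (Nat.Prime.dvd_mul hp).mp h1 with h2 | h2
  · exact Or.inl ((Nat.prime_dvd_prime_iff_eq hp Nat.prime_two).mp (hp.dvd_of_dvd_pow h2))
  · exact Or.inr ((Nat.prime_dvd_prime_iff_eq hp Nat.prime_three).mp (hp.dvd_of_dvd_pow h2))

theorem exist_prime_dvd_35 {p : ℕ} (hp : p.Prime) (h : p ∣ 35) : p = 5 ∨ p = 7 := by
  have h1 : p ∣ 5 * 7 := by norm_num; exact h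
  rcases (Nat.Prime.dvd_mul hp).mp h1 with h2 | h2
  · exact Or.inl ((Nat.prime_dvd_prime_iff_eq hp (by norm_num)).mp h2)
  · exact Or.inr ((Nat.prime_dvd_prime_iff_eq hp (by norm_num)).mp h2)

/-- a subgroup of order `144` or `1152` and index `35` is a Hall subgroup in the case `Cd` -/
theorem exist_hall_of_card {n : ℕ} {π : Set ℕ} (h : Cd π n) (H : Subgroup (Perm (Fin n)))
    (hc : Nat.card H = 144 ∨ Nat.card H = 1152) (hi : H.index = 35) : Cfsg.IsPiHall π H := by
  obtain ⟨hn, hπ⟩ := h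
  have hn7 : 7 ≤ n := by rcases hn with rfl | rfl <;> omega
  refine ⟨?_, ?_⟩
  · intro p hp hdvd
    have h23 : p = 2 ∨ p = 3 := by
      rcases hc with hc | hc
      · rw [hc] at hdvd; exact exist_prime_dvd_144 hp hdvd
      · rw [hc] at hdvd; exact exist_prime_dvd_1152 hp hdvd
    exact (hπ p hp (by rcases h23 with rfl | rfl <;> omega)).mpr h23
  · intro p hp hpπ hdvd
    rw [hi] at hdvd
    have h57 := exist_prime_dvd_35 hp hdvd
    have h23 := (hπ p hp (by rcases h57 with rfl | rfl <;> omega)).mp hpπ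
    rcases h57 with rfl | rfl <;> rcases h23 with h | h <;> omega

/-- for `n` prime, a point stabiliser is a Hall subgroup for the primes `< n` -/
theorem hall_exists_prime (n : ℕ) (π : Set ℕ) (h : Cc π n) :
    Cfsg.IsEPiGroup π (Perm (Fin n)) := by
  obtain ⟨hn, hπ⟩ := h
  have hn2 := hn.two_le
  have hφ : Function.Injective (Equiv.Perm.viaEmbeddingHom (Fin.castLEEmb (Nat.sub_le n 1))) :=
    Equiv.Perm.viaEmbeddingHom_injective _
  have hcard : Nat.card (Equiv.Perm.viaEmbeddingHom (Fin.castLEEmb (Nat.sub_le n 1))).range =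
      (n - 1).factorial := by
    rw [exist_card_range _ hφ, Nat.card_perm, Nat.card_fin]
  refine ⟨(Equiv.Perm.viaEmbeddingHom (Fin.castLEEmb (Nat.sub_le n 1))).range, ?_, ?_⟩
  · intro p hp hdvd
    rw [hcard] at hdvd
    have hle : p ≤ n - 1 := (Nat.Prime.dvd_factorial hp).mp hdvd
    exact (hπ p hp (by omega)).mpr (by omega)
  · intro p hp hpπ hdvd
    have hidx : (Equiv.Perm.viaEmbeddingHom (Fin.castLEEmb (Nat.sub_le n 1))).range.index = n := by
      apply exist_index _ (n - 1).factorial n (Nat.factorial_pos _) hcard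
      rw [Nat.card_perm, Nat.card_fin, mul_comm]
      exact (Nat.mul_factorial_pred hn.pos.ne').symm
    rw [hidx] at hdvd
    have hpn : p = n := (Nat.prime_dvd_prime_iff_eq hp hn).mp hdvd
    have h1 := (hπ p hp (by omega)).mp hpπ
    omega

/-- `S₇` and `S₈` have Hall `{2,3}`-subgroups (of index 35: the stabiliser of a 3-set, resp. of
a partition into two 4-sets) -/
theorem hall_exists_78 (n : ℕ) (π : Set ℕ) (h : Cd π n) :
    Cfsg.IsEPiGroup π (Perm (Fin n)) := by
  have hn := h.1
  rcases hn with rfl | rfl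
  · -- `S₃ × S₄ ≤ S₇`
    have hφ : Function.Injective ((finSumFinEquiv (m := 3) (n := 4)).permCongrHom.toMonoidHom.comp
        (Equiv.Perm.sumCongrHom (Fin 3) (Fin 4))) :=
      fun a b hab => Equiv.Perm.sumCongrHom_injective
        ((finSumFinEquiv (m := 3) (n := 4)).permCongrHom.injective hab)
    have hcard : Nat.card ((finSumFinEquiv (m := 3) (n := 4)).permCongrHom.toMonoidHom.comp
        (Equiv.Perm.sumCongrHom (Fin 3) (Fin 4))).range = 144 := by
      rw [exist_card_range _ hφ, Nat.card_prod, Nat.card_perm, Nat.card_perm, Nat.card_fin,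
        Nat.card_fin]
      rfl
    refine ⟨((finSumFinEquiv (m := 3) (n := 4)).permCongrHom.toMonoidHom.comp
        (Equiv.Perm.sumCongrHom (Fin 3) (Fin 4))).range, ?_⟩
    refine exist_hall_of_card h _ (Or.inl hcard) ?_
    apply exist_index _ 144 35 (by norm_num) hcard
    rw [Nat.card_perm, Nat.card_fin]
    rfl
  · -- `S₄ ≀ C₂ ≤ S₈`
    have he : Nat.card (Fin 4 × Perm (Fin 2)) = 8 := by
      rw [Nat.card_prod, Nat.card_perm, Nat.card_fin, Nat.card_fin]
      rfl
    have hφ : Function.Injective ((Finite.equivFinOfCardEq he).permCongrHom.toMonoidHom.comp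
        (RegularWreathProduct.toPerm (Perm (Fin 4)) (Perm (Fin 2)) (Fin 4))) :=
      fun a b hab => RegularWreathProduct.toPermInj (Perm (Fin 4)) (Perm (Fin 2)) (Fin 4)
        ((Finite.equivFinOfCardEq he).permCongrHom.injective hab)
    have hcard : Nat.card ((Finite.equivFinOfCardEq he).permCongrHom.toMonoidHom.comp
        (RegularWreathProduct.toPerm (Perm (Fin 4)) (Perm (Fin 2)) (Fin 4))).range = 1152 := by
      rw [exist_card_range _ hφ, RegularWreathProduct.card, Nat.card_perm, Nat.card_perm,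
        Nat.card_fin, Nat.card_fin]
      rfl
    refine ⟨((Finite.equivFinOfCardEq he).permCongrHom.toMonoidHom.comp
        (RegularWreathProduct.toPerm (Perm (Fin 4)) (Perm (Fin 2)) (Fin 4))).range, ?_⟩
    refine exist_hall_of_card h _ (Or.inr hcard) ?_
    apply exist_index _ 1152 35 (by norm_num) hcard
    rw [Nat.card_perm, Nat.card_fin]
    rfl

end Cfsg.Agent.Lib.Helper13.HS
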