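import Mathlib
import Cfsg.Prelude.Def_HallClasses
import Cfsg.Agent.Lib.Helper13.HSDefs
import Cfsg.Agent.Lib.Helper13.HADefs
import Cfsg.Agent.Lib.Helper13.HSChoose
import Cfsg.Agent.Lib.Helper13.HSExist

/-! Project HALL-ALT (S2535 / S2538), piece PAIR8. Paper proofs: team note (topic S2538).
Auxiliary names in this file must start with `pair8_`. -/

set_option autoImplicit false

namespace Cfsg.Agent.Lib.Helper13.HA

open Equiv
open scoped Pointwise
open Cfsg.Agent.Lib.Helper13.HS

/-- a set as an element of `Set.powersetCard` -/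
theorem pair8_exists_powersetCard {Ω : Type} [Finite Ω] (s : Set Ω) (n : ℕ) (hn : s.ncard = n) :
    ∃ t : Set.powersetCard Ω n, (t : Set Ω) = s := by
  classical
  subst hn
  have : Fintype Ω := Fintype.ofFinite Ω
  have hsfin : s.Finite := Set.toFinite s
  refine ⟨⟨hsfin.toFinset, ?_⟩, ?_⟩
  · rw [Set.powersetCard.mem_iff]; exact (Set.ncard_eq_toFinset_card s hsfin).symm
  · ext x
    simp

/-- the index of a set stabiliser -/
theorem pair8_stab_index {Ω : Type} [Finite Ω] (s : Set Ω) :
    (MulAction.stabilizer (Perm Ω) s).index = Nat.choose (Nat.card Ω) s.ncard := by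
  classical
  obtain ⟨t, ht⟩ := pair8_exists_powersetCard s s.ncard rfl
  have := Set.powersetCard.isPretransitive (α := Ω) (n := s.ncard)
  have h1 : MulAction.stabilizer (Perm Ω) s = MulAction.stabilizer (Perm Ω) t := by
    rw [Set.powersetCard.stabilizer_coe, ht]
  rw [h1, MulAction.index_stabilizer_of_transitive, Set.powersetCard.card]

/-- two sets of the same size are conjugate under `Perm Ω` -/
theorem pair8_exists_smul {Ω : Type} [Finite Ω] (s s' : Set Ω) (h : s.ncard = s'.ncard) :
    ∃ g : Perm Ω, g • s = s' := by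
  classical
  obtain ⟨t, ht⟩ := pair8_exists_powersetCard s s.ncard rfl
  obtain ⟨t', ht'⟩ := pair8_exists_powersetCard s' s.ncard h.symm
  have := Set.powersetCard.isPretransitive (α := Ω) (n := s.ncard)
  obtain ⟨g, hg⟩ := MulAction.exists_smul_eq (Perm Ω) t t'
  refine ⟨g, ?_⟩
  have h1 : ((g • t : Set.powersetCard Ω s.ncard) : Finset Ω) = g • (t : Finset Ω) :=
    Set.powersetCard.coe_smul
  rw [hg] at h1
  have h2 : ((t' : Finset Ω) : Set Ω) = ((g • (t : Finset Ω) : Finset Ω) : Set Ω) := by rw [h1]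
  rw [Finset.coe_smul_finset] at h2
  rw [← ht, ← ht']
  exact h2.symm

theorem pair8_ne_compl {Ω : Type} [Nonempty Ω] (B : Set Ω) : B ≠ Bᶜ := by
  intro h
  obtain ⟨x⟩ := ‹Nonempty Ω›
  by_cases hx : x ∈ B
  · have : x ∈ Bᶜ := by rw [← h]; exact hx
    exact this hx
  · have : x ∈ B := by rw [h]; exact hx
    exact hx this

theorem mem_blockPair {Ω : Type} (B : Set Ω) (g : Perm Ω) :
    g ∈ blockPair B ↔ (g • B = B ∨ g • B = Bᶜ) := by
  unfold blockPair
  rw [MulAction.mem_stabilizer_iff]
  have h1 : g • ({B, Bᶜ} : Set (Set Ω)) = {g • B, (g • B)ᶜ} := by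
    rw [← Set.image_smul, Set.image_pair, Set.smul_set_compl]
  rw [h1]
  constructor
  · intro h
    have h2 : g • B ∈ ({B, Bᶜ} : Set (Set Ω)) := by
      rw [← h]
      exact Set.mem_insert _ _
    rcases h2 with h3 | h3
    · exact Or.inl h3
    · exact Or.inr h3
  · rintro (h | h)
    · rw [h]
    · rw [h, compl_compl, Set.pair_comm]

theorem hall_blockPair8 {Ω : Type} [Finite Ω] (π : Set ℕ) (hcard : Nat.card Ω = 8)
    (hd : Cd π 8) (B : Set Ω) (hB : B.ncard = 4) : Cfsg.IsPiHall π (blockPair B) := by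
  classical
  haveI : Nonempty Ω := by
    have h0 : 0 < Nat.card Ω := by rw [hcard]; norm_num
    exact (Nat.card_pos_iff.1 h0).1
  have hBc : Bᶜ.ncard = 4 := by
    have := Set.ncard_add_ncard_compl B
    rw [hB, hcard] at this
    omega
  obtain ⟨t, ht⟩ := pair8_exists_smul B Bᶜ (by rw [hB, hBc])
  have hne : B ≠ Bᶜ := pair8_ne_compl B
  have hle : MulAction.stabilizer (Perm Ω) B ≤ blockPair B := by
    intro g hg
    rw [MulAction.mem_stabilizer_iff] at hg
    exact (mem_blockPair B g).2 (Or.inl hg)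
  have hrel : (MulAction.stabilizer (Perm Ω) B).relIndex (blockPair B) = 2 := by
    rw [Subgroup.relIndex_eq_two_iff]
    refine ⟨t, (mem_blockPair B t).2 (Or.inr ht), fun b hb => ?_⟩
    have hbt : b * t ∈ MulAction.stabilizer (Perm Ω) B ↔ b • B = Bᶜ := by
      rw [MulAction.mem_stabilizer_iff, mul_smul, ht, Set.smul_set_compl]
      constructor
      · intro h
        exact (compl_eq_comm.1 h).symm
      · intro h
        rw [h, compl_compl]
    rw [hbt, MulAction.mem_stabilizer_iff]
    rcases (mem_blockPair B b).1 hb with h | h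
    · right
      refine ⟨h, fun h' => hne (h.symm.trans h')⟩
    · left
      refine ⟨h, fun h' => hne (h'.symm.trans h)⟩
  have hidxS : (MulAction.stabilizer (Perm Ω) B).index = 70 := by
    rw [pair8_stab_index, hcard, hB]
    rfl
  have hidx : (blockPair B).index = 35 := by
    have := Subgroup.relIndex_mul_index hle
    rw [hrel, hidxS] at this
    omega
  have hcardP : Nat.card (Perm Ω) = 40320 := by
    rw [Nat.card_perm, hcard]
    rfl
  have hcardB : Nat.card (blockPair B) = 1152 := by
    have := Subgroup.card_mul_index (blockPair B)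
    rw [hidx, hcardP] at this
    omega
  obtain ⟨-, hπ⟩ := hd
  refine ⟨?_, ?_⟩
  · intro p hp hdvd
    rw [hcardB] at hdvd
    have h23 := exist_prime_dvd_1152 hp hdvd
    exact (hπ p hp (by rcases h23 with rfl | rfl <;> omega)).mpr h23
  · intro p hp hpπ hdvd
    rw [hidx] at hdvd
    have h57 := exist_prime_dvd_35 hp hdvd
    have h23 := (hπ p hp (by rcases h57 with rfl | rfl <;> omega)).mp hpπ
    rcases h57 with rfl | rfl <;> rcases h23 with h | h <;> omega

end Cfsg.Agent.Lib.Helper13.HA
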