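import Mathlib
import Cfsg.Prelude.Def_HallClasses
import Cfsg.Agent.Lib.Helper13.HSDefs
import Cfsg.Agent.Lib.Helper13.HADefs
import Cfsg.Agent.Lib.Helper13.HSChoose
import Cfsg.Agent.Lib.Helper13.HSExist

/-! Project HALL-ALT (S2535 / S2538), piece STAB7. Paper proofs: team note (topic S2538).
Auxiliary names in this file must start with `stab7_`. -/

set_option autoImplicit false

namespace Cfsg.Agent.Lib.Helper13.HA

open Equiv
open scoped Pointwise
open Cfsg.Agent.Lib.Helper13.HS

theorem hall_stab_set7 {Ω : Type} [Finite Ω] (π : Set ℕ) (hcard : Nat.card Ω = 7)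
    (hd : Cd π 7) (s : Set Ω) (hs : s.ncard = 3) :
    Cfsg.IsPiHall π (MulAction.stabilizer (Perm Ω) s) := by
  classical
  have : Fintype Ω := Fintype.ofFinite Ω
  have hsfin : s.Finite := Set.toFinite s
  obtain ⟨t, ht⟩ : ∃ t : Set.powersetCard Ω s.ncard, (t : Set Ω) = s := by
    refine ⟨⟨hsfin.toFinset, ?_⟩, ?_⟩
    · rw [Set.powersetCard.mem_iff]; exact (Set.ncard_eq_toFinset_card s hsfin).symm
    · ext x
      simp
  have := Set.powersetCard.isPretransitive (α := Ω) (n := s.ncard)
  have hstab : MulAction.stabilizer (Perm Ω) s = MulAction.stabilizer (Perm Ω) t := by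
    rw [Set.powersetCard.stabilizer_coe, ht]
  have hidx : (MulAction.stabilizer (Perm Ω) s).index = 35 := by
    rw [hstab, MulAction.index_stabilizer_of_transitive, Set.powersetCard.card, hcard, hs]
    rfl
  have hcardS : Nat.card (MulAction.stabilizer (Perm Ω) s) = 144 := by
    have h1 := Subgroup.card_mul_index (MulAction.stabilizer (Perm Ω) s)
    rw [hidx, Nat.card_perm, hcard] at h1
    have h2 : Nat.factorial 7 = 144 * 35 := by rfl
    omega
  obtain ⟨-, hπ⟩ := hd
  refine ⟨?_, ?_⟩
  · intro p hp hdvd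
    rw [hcardS] at hdvd
    have h23 := exist_prime_dvd_144 hp hdvd
    exact (hπ p hp (by rcases h23 with rfl | rfl <;> omega)).mpr h23
  · intro p hp hpπ hdvd
    rw [hidx] at hdvd
    have h57 := exist_prime_dvd_35 hp hdvd
    have h23 := (hπ p hp (by rcases h57 with rfl | rfl <;> omega)).mp hpπ
    rcases h57 with rfl | rfl <;> rcases h23 with h | h <;> omega

end Cfsg.Agent.Lib.Helper13.HA
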