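import Mathlib
import Cfsg.Prelude.Def_HallClasses
import Cfsg.Agent.Lib.Helper13.HSDefs
import Cfsg.Agent.Lib.Helper13.HADefs

/-! Project HALL-ALT (S2535 / S2538), piece STABPT. Paper proofs: team note (topic S2538).
Auxiliary names in this file must start with `stabpt_`. -/

set_option autoImplicit false

namespace Cfsg.Agent.Lib.Helper13.HA

open Equiv
open scoped Pointwise
open Cfsg.Agent.Lib.Helper13.HS

theorem hall_stab_point {Ω : Type} [Finite Ω] (π : Set ℕ) (hc : Cc π (Nat.card Ω)) (ω : Ω) :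
    Cfsg.IsPiHall π (MulAction.stabilizer (Perm Ω) ω) := by
  classical
  obtain ⟨hn, hπ⟩ := hc
  have hn2 := hn.two_le
  have hidx : (MulAction.stabilizer (Perm Ω) ω).index = Nat.card Ω :=
    MulAction.index_stabilizer_of_transitive (Perm Ω) ω
  have hcard : Nat.card (MulAction.stabilizer (Perm Ω) ω) = (Nat.card Ω - 1).factorial := by
    have h1 := Subgroup.card_mul_index (MulAction.stabilizer (Perm Ω) ω)
    rw [hidx, Nat.card_perm] at h1
    have h2 : (Nat.card Ω).factorial = (Nat.card Ω - 1).factorial * Nat.card Ω := by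
      rw [mul_comm]
      exact (Nat.mul_factorial_pred hn.pos.ne').symm
    rw [h2] at h1
    exact Nat.eq_of_mul_eq_mul_right hn.pos h1
  refine ⟨?_, ?_⟩
  · intro p hp hdvd
    rw [hcard] at hdvd
    have hle : p ≤ Nat.card Ω - 1 := (Nat.Prime.dvd_factorial hp).mp hdvd
    exact (hπ p hp (by omega)).mpr (by omega)
  · intro p hp hpπ hdvd
    rw [hidx] at hdvd
    have hpn : p = Nat.card Ω := (Nat.prime_dvd_prime_iff_eq hp hn).mp hdvd
    have h1 := (hπ p hp (by omega)).mp hpπ
    omega

end Cfsg.Agent.Lib.Helper13.HA
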