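import Mathlib
import Cfsg.Prelude.Def_HallClasses
import Cfsg.Agent.Lib.Helper13.HSDefs

/-! Project HALL-SYM (S2536), piece RESTR. Paper proofs: team note (topic S2536). -/

set_option autoImplicit false

namespace Cfsg.Agent.Lib.Helper13.HS

open Equiv

/-- the permutations preserving `s` -/
def restr_Y {Ω : Type*} (s : Set Ω) : Subgroup (Perm Ω) where
  carrier := {g | ∀ x, g x ∈ s ↔ x ∈ s}
  mul_mem' := by
    intro a b ha hb x
    rw [Perm.mul_apply, ha, hb]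
  one_mem' := fun x => Iff.rfl
  inv_mem' := by
    intro a ha x
    have h1 := ha (a⁻¹ x)
    rw [Perm.inv_def, Equiv.apply_symm_apply] at h1
    exact h1.symm

/-- restriction to `s` -/
def restr_hom {Ω : Type*} (s : Set Ω) : ↥(restr_Y s) →* Perm ↥s where
  toFun g := Perm.subtypePerm g.1 g.2
  map_one' := by
    ext x
    rfl
  map_mul' := by
    intro a b
    ext x
    rfl

theorem restr_hom_apply {Ω : Type*} (s : Set Ω) (g : ↥(restr_Y s)) (y : ↥s) :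
    ((restr_hom s g y : ↥s) : Ω) = g.1 (y : Ω) := rfl

theorem restr_hom_surjective {Ω : Type*} (s : Set Ω) : Function.Surjective (restr_hom s) := by
  classical
  intro σ
  refine ⟨⟨Perm.ofSubtype σ, Perm.ofSubtype_apply_mem_iff_mem σ⟩, ?_⟩
  exact Perm.subtypePerm_ofSubtype σ

theorem restr_le_Y {Ω : Type*} (H : Subgroup (Perm Ω)) (s : Set Ω)
    (hs : ∀ h ∈ H, ∀ x ∈ s, h x ∈ s) : H ≤ restr_Y s := by
  intro h hh x
  constructor
  · intro hx
    have h1 := hs h⁻¹ (H.inv_mem hh) (h x) hx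
    rwa [Perm.inv_def, Equiv.symm_apply_apply] at h1
  · exact hs h hh x

theorem restr_eq_map {Ω : Type*} (H : Subgroup (Perm Ω)) (s : Set Ω)
    (hs : ∀ h ∈ H, ∀ x ∈ s, h x ∈ s) :
    restr H s = (H.subgroupOf (restr_Y s)).map (restr_hom s) := by
  ext σ
  rw [mem_restr]
  constructor
  · rintro ⟨h, hh, hσ⟩
    refine ⟨⟨h, restr_le_Y H s hs hh⟩, Subgroup.mem_subgroupOf.mpr hh, ?_⟩
    ext y
    rw [restr_hom_apply]
    exact hσ y
  · rintro ⟨g, hg, rfl⟩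
    exact ⟨g.1, Subgroup.mem_subgroupOf.mp hg, fun y => rfl⟩

theorem restr_orbit_inv {Ω : Type*} (H : Subgroup (Perm Ω)) (x : Ω) :
    ∀ h ∈ H, ∀ w ∈ MulAction.orbit ↥H x, h w ∈ MulAction.orbit ↥H x := by
  rintro h hh w ⟨k, rfl⟩
  exact ⟨⟨h, hh⟩ * k, mul_smul _ _ _⟩

/-- G2: the restriction of a Hall `π`-subgroup of `Perm Ω` to an invariant set `s` is a Hall
`π`-subgroup of `Perm s`. -/
theorem hall_restr {Ω : Type*} [Finite Ω] (π : Set ℕ) (H : Subgroup (Perm Ω)) (s : Set Ω)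
    (hH : Cfsg.IsPiHall π H) (hs : ∀ h ∈ H, ∀ x ∈ s, h x ∈ s) :
    Cfsg.IsPiHall π (restr H s) := by
  have hle := restr_le_Y H s hs
  rw [restr_eq_map H s hs]
  constructor
  · intro p hp hdvd
    apply hH.1 p hp
    refine dvd_trans hdvd ?_
    have h1 : Nat.card ↥((H.subgroupOf (restr_Y s)).map (restr_hom s)) ∣
        Nat.card ↥(H.subgroupOf (restr_Y s)) :=
      Subgroup.card_dvd_of_surjective ((restr_hom s).subgroupMap _)
        ((restr_hom s).subgroupMap_surjective _)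
    rwa [Nat.card_congr (Subgroup.subgroupOfEquivOfLe hle).toEquiv] at h1
  · intro p hp hpπ hdvd
    apply hH.2 p hp hpπ
    refine dvd_trans hdvd ?_
    exact dvd_trans (Subgroup.index_map_dvd _ (restr_hom_surjective s))
      (Subgroup.relIndex_dvd_index_of_le hle)

/-- the restriction of `H` to one of its orbits is transitive -/
theorem restr_pretransitive {Ω : Type*} (H : Subgroup (Perm Ω)) (x : Ω) :
    MulAction.IsPretransitive ↥(restr H (MulAction.orbit ↥H x)) ↥(MulAction.orbit ↥H x) := by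
  constructor
  rintro ⟨y, h₁, rfl⟩ ⟨z, h₂, rfl⟩
  have hmem : (h₂ * h₁⁻¹ : ↥H).1 ∈ restr_Y (MulAction.orbit ↥H x) :=
    restr_le_Y H _ (restr_orbit_inv H x) (h₂ * h₁⁻¹ : ↥H).2
  refine ⟨⟨restr_hom _ ⟨(h₂ * h₁⁻¹ : ↥H).1, hmem⟩, ⟨(h₂ * h₁⁻¹ : ↥H).1, (h₂ * h₁⁻¹ : ↥H).2,
    fun y => rfl⟩⟩, ?_⟩
  apply Subtype.ext
  show (h₂ * h₁⁻¹ : ↥H).1 (h₁ • x) = h₂ • x
  have e : (h₂ * h₁⁻¹ : ↥H) • (h₁ • x) = h₂ • x := by
    rw [smul_smul, inv_mul_cancel_right]
  exact e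

/-- a point of an invariant set fixed by the restriction is fixed by `H` -/
theorem restr_fixed {Ω : Type*} (H : Subgroup (Perm Ω)) (s : Set Ω)
    (hs : ∀ h ∈ H, ∀ x ∈ s, h x ∈ s) (y : ↥s) (hy : ∀ σ ∈ restr H s, σ y = y) :
    ∀ h ∈ H, h (y : Ω) = y := by
  intro h hh
  have h1 := hy (restr_hom s ⟨h, restr_le_Y H s hs hh⟩) ⟨h, hh, fun y => rfl⟩
  exact congrArg Subtype.val h1

end Cfsg.Agent.Lib.Helper13.HS
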