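import Mathlib
import Cfsg.Prelude.Def_HallClasses
import Cfsg.Agent.Lib.Helper13.HSDefs
import Cfsg.Agent.Lib.Helper13.HADefs
import Cfsg.Agent.Lib.Helper13.HSRestr

/-! Project HALL-ALT (S2535 / S2538), piece AFIXED. Paper proofs: team note (topic S2538).
Auxiliary names in this file must start with `afixed_`. -/

set_option autoImplicit false

namespace Cfsg.Agent.Lib.Helper13.HA

open Equiv
open scoped Pointwise
open Cfsg.Agent.Lib.Helper13.HS

theorem afixed_mem_altOf {Ω : Type} [Fintype Ω] [DecidableEq Ω] (g : Perm Ω) :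
    g ∈ altOf Ω ↔ Equiv.Perm.sign g = 1 := by
  rw [altOf_eq]; exact Equiv.Perm.mem_alternatingGroup

theorem hallAlt_restr_fixed {Ω : Type} [Finite Ω] (π : Set ℕ) (M : Subgroup (Perm Ω)) (ω : Ω)
    (hM : HallAlt π M) (hω : ∀ h ∈ M, h ω = ω) :
    HallAlt π (restr M ({ω}ᶜ : Set Ω)) := by
  classical
  have := Fintype.ofFinite Ω
  obtain ⟨hle, h1, h3⟩ := hM
  let φ : Perm ↥({ω}ᶜ : Set Ω) →* Perm Ω := Equiv.Perm.ofSubtype
  have hφinj : Function.Injective φ := Equiv.Perm.ofSubtype_injective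
  have hmap : (restr M ({ω}ᶜ : Set Ω)).map φ = M := by
    ext g
    rw [Subgroup.mem_map]
    constructor
    · rintro ⟨σ, ⟨h, hh, hσ⟩, rfl⟩
      have e : φ σ = h := by
        ext x
        by_cases hx : x ∈ ({ω}ᶜ : Set Ω)
        · have h5 := hσ ⟨x, hx⟩
          show Equiv.Perm.ofSubtype σ x = h x
          rw [Equiv.Perm.ofSubtype_apply_of_mem σ hx]; exact h5.symm
        · have hxω : x = ω := by simpa using hx
          show Equiv.Perm.ofSubtype σ x = h x
          rw [Equiv.Perm.ofSubtype_apply_of_not_mem σ hx, hxω, hω h hh]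
      rw [e]; exact hh
    · intro hg
      have hinv : ∀ x, g x ∈ ({ω}ᶜ : Set Ω) ↔ x ∈ ({ω}ᶜ : Set Ω) := by
        intro x
        simp only [Set.mem_compl_iff, Set.mem_singleton_iff]
        rw [not_iff_not]
        constructor
        · intro hx
          exact g.injective (hx.trans (hω g hg).symm)
        · intro hx; rw [hx]; exact hω g hg
      refine ⟨g.subtypePerm hinv, ⟨g, hg, fun y => rfl⟩, ?_⟩
      exact Equiv.Perm.ofSubtype_subtypePerm hinv (fun x hx => by
        simp only [Set.mem_compl_iff, Set.mem_singleton_iff]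
        intro hxω; exact hx (hxω ▸ hω g hg))
  have hsign : ∀ σ : Perm ↥({ω}ᶜ : Set Ω), Equiv.Perm.sign (φ σ) = Equiv.Perm.sign σ := by
    intro σ
    exact Equiv.Perm.sign_ofSubtype σ
  have hRle : restr M ({ω}ᶜ : Set Ω) ≤ altOf ↥({ω}ᶜ : Set Ω) := by
    intro σ hσ
    have h5 : φ σ ∈ M := by rw [← hmap]; exact Subgroup.mem_map_of_mem φ hσ
    have h6 := (afixed_mem_altOf (φ σ)).mp (hle h5)
    rw [hsign σ] at h6
    exact (afixed_mem_altOf σ).mpr h6
  have hAle : (altOf ↥({ω}ᶜ : Set Ω)).map φ ≤ altOf Ω := by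
    rintro g ⟨σ, hσ, rfl⟩
    have h6 := (afixed_mem_altOf σ).mp hσ
    rw [← hsign σ] at h6
    exact (afixed_mem_altOf (φ σ)).mpr h6
  have hcard : Nat.card (restr M ({ω}ᶜ : Set Ω)) = Nat.card M := by
    have h7 : Nat.card ((restr M ({ω}ᶜ : Set Ω)).map φ) = Nat.card (restr M ({ω}ᶜ : Set Ω)) :=
      Subgroup.card_map_of_injective hφinj
    rw [hmap] at h7
    exact h7.symm
  refine ⟨hRle, fun p hp hdvd => h1 p hp (hcard ▸ hdvd), fun p hp hpπ hdvd => ?_⟩
  have hrel : (restr M ({ω}ᶜ : Set Ω)).relIndex (altOf ↥({ω}ᶜ : Set Ω))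
      = M.relIndex ((altOf ↥({ω}ᶜ : Set Ω)).map φ) := by
    rw [← Subgroup.relIndex_map_map_of_injective _ _ hφinj, hmap]
  have hMA : M ≤ (altOf ↥({ω}ᶜ : Set Ω)).map φ := by
    rw [← hmap]; exact Subgroup.map_mono hRle
  have hmul := Subgroup.relIndex_mul_relIndex _ _ _ hMA hAle
  apply h3 p hp hpπ
  rw [← hmul, ← hrel]
  exact Dvd.dvd.mul_right hdvd _

end Cfsg.Agent.Lib.Helper13.HA
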