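import Mathlib
import Cfsg.Prelude.Def_HallClasses
import Cfsg.Agent.Lib.Helper13.HSDefs

/-! Project HALL-SYM (S2536), piece CYCLE. Paper proofs: team note (topic S2536). -/

set_option autoImplicit false

namespace Cfsg.Agent.Lib.Helper13.HS

open Equiv

theorem cycle_exists_formPerm {Ω : Type*} [Fintype Ω] [DecidableEq Ω] (m : ℕ) (hm : 2 ≤ m)
    (hle : m ≤ Fintype.card Ω) : ∃ c : Perm Ω, c.IsCycle ∧ c.support.card = m := by
  obtain ⟨s, -, hs⟩ := Finset.exists_subset_card_eq (s := (Finset.univ : Finset Ω)) (n := m)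
    (by rwa [Finset.card_univ])
  refine ⟨s.toList.formPerm, ?_, ?_⟩
  · apply List.isCycle_formPerm (Finset.nodup_toList s)
    rw [Finset.length_toList, hs]; exact hm
  · rw [List.support_formPerm_of_nodup _ (Finset.nodup_toList s)]
    · rw [Finset.toList_toFinset, hs]
    · intro x hx
      have h1 := congrArg List.length hx
      rw [Finset.length_toList, hs] at h1
      simp at h1
      omega

/-- G1: a Hall `π`-subgroup of `Perm Ω` contains a cycle of every length `q ^ k ≤ |Ω|`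
(`q ∈ π` prime, `k ≥ 1`): it contains a Sylow `q`-subgroup of `Perm Ω`, and Sylow's theorem. -/
theorem hall_exists_cycle {Ω : Type*} [Fintype Ω] [DecidableEq Ω] (π : Set ℕ)
    (H : Subgroup (Perm Ω)) (hH : Cfsg.IsPiHall π H) (q k : ℕ) (hq : q.Prime) (hqπ : q ∈ π)
    (hk : 1 ≤ k) (hle : q ^ k ≤ Nat.card Ω) :
    ∃ g ∈ H, g.IsCycle ∧ g.support.card = q ^ k := by
  classical
  haveI : Fact q.Prime := ⟨hq⟩
  have hq2 : 2 ≤ q ^ k := by
    calc 2 ≤ q := hq.two_le
      _ = q ^ 1 := (pow_one q).symm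
      _ ≤ q ^ k := Nat.pow_le_pow_right hq.pos hk
  rw [Nat.card_eq_fintype_card] at hle
  obtain ⟨c, hc, hcs⟩ := cycle_exists_formPerm (q ^ k) hq2 hle
  have hord : orderOf c = q ^ k := by rw [hc.orderOf, hcs]
  have hzp : IsPGroup q (Subgroup.zpowers c) :=
    IsPGroup.of_card (n := k) (by rw [Nat.card_zpowers, hord])
  obtain ⟨P, hP⟩ := hzp.exists_le_sylow
  obtain ⟨Q⟩ : Nonempty (Sylow q H) := inferInstance
  have hcardQ : Nat.card ((Q : Subgroup H).map H.subtype) =
      q ^ (Nat.card (Perm Ω)).factorization q := by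
    rw [← Nat.card_congr
      ((Q : Subgroup H).equivMapOfInjective H.subtype H.subtype_injective).toEquiv]
    rw [Sylow.card_eq_multiplicity]
    congr 1
    have h1 : Nat.card (Perm Ω) = Nat.card H * H.index := (Subgroup.card_mul_index H).symm
    rw [h1, Nat.factorization_mul Nat.card_pos.ne' Subgroup.index_ne_zero_of_finite,
      Finsupp.add_apply, Nat.factorization_eq_zero_of_not_dvd (hH.2 q hq hqπ), add_zero]
  obtain ⟨x, hx⟩ := MulAction.exists_smul_eq (Perm Ω) P (Sylow.ofCard _ hcardQ)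
  refine ⟨x * c * x⁻¹, ?_, hc.conj, ?_⟩
  · have h1 : c ∈ (P : Subgroup (Perm Ω)) := hP (Subgroup.mem_zpowers c)
    have h2 : x * c * x⁻¹ ∈ ((x • P : Sylow q (Perm Ω)) : Subgroup (Perm Ω)) := by
      rw [Sylow.coe_subgroup_smul]
      have h3 := Subgroup.smul_mem_pointwise_smul c (MulAut.conj x) (P : Subgroup (Perm Ω)) h1
      simpa [MulAut.smul_def] using h3
    rw [hx] at h2
    have h3 : x * c * x⁻¹ ∈ (Q : Subgroup H).map H.subtype := h2
    exact Subgroup.map_subtype_le _ h3
  · rw [Equiv.Perm.card_support_conj, hcs]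

end Cfsg.Agent.Lib.Helper13.HS
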