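import Mathlib
import Cfsg.Prelude.Def_HallClasses
import Cfsg.Agent.Lib.Helper13.HSDefs
import Cfsg.Agent.Lib.Helper13.HADefs
import Cfsg.Agent.Lib.Helper13.HSCycle

/-! Project HALL-ALT (S2535 / S2538), piece ACYCLE. Paper proofs: team note (topic S2538).
Auxiliary names in this file must start with `acycle_`. -/

set_option autoImplicit false

namespace Cfsg.Agent.Lib.Helper13.HA

open Equiv
open scoped Pointwise
open Cfsg.Agent.Lib.Helper13.HS

theorem hallAlt_exists_cycle {Ω : Type} [Fintype Ω] [DecidableEq Ω] (π : Set ℕ)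
    (M : Subgroup (Perm Ω)) (hM : HallAlt π M) (q k : ℕ) (hq : q.Prime) (hq2 : q ≠ 2)
    (hqπ : q ∈ π) (hk : 1 ≤ k) (hqk : q ^ k ≤ Nat.card Ω) :
    ∃ g ∈ M, g.IsCycle ∧ g.support.card = q ^ k := by
  classical
  have : Fact q.Prime := ⟨hq⟩
  obtain ⟨hMalt, hMπ, hMidx⟩ := hM
  obtain ⟨Q⟩ : Nonempty (Sylow q M) := inferInstance
  have hq3 : 2 ≤ q := hq.two_le
  have hcard3 : 1 < Fintype.card Ω := by
    rw [Nat.card_eq_fintype_card] at hqk
    have h1 : q ^ 1 ≤ q ^ k := Nat.pow_le_pow_right hq.pos hk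
    rw [pow_one] at h1
    omega
  have : Nontrivial Ω := Fintype.one_lt_card_iff_nontrivial.mp hcard3
  have hP : Cfsg.IsPiHall ({q} : Set ℕ) ((Q : Subgroup M).map M.subtype) := by
    constructor
    · intro p hp hdvd
      rw [← Nat.card_congr
        ((Q : Subgroup M).equivMapOfInjective M.subtype M.subtype_injective).toEquiv] at hdvd
      obtain ⟨m, hm⟩ := IsPGroup.iff_card.mp Q.isPGroup'
      rw [hm] at hdvd
      exact (Nat.prime_dvd_prime_iff_eq hp hq).mp (hp.dvd_of_dvd_pow hdvd)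
    · intro p hp hpq hdvd
      rw [Set.mem_singleton_iff] at hpq
      subst hpq
      rw [Subgroup.index_map_subtype, ← Subgroup.relIndex_mul_index hMalt, altOf_eq,
        alternatingGroup.index_eq_two] at hdvd
      rcases (Nat.Prime.dvd_mul hp).mp hdvd with h | h
      · exact Q.not_dvd_index h
      · rcases (Nat.Prime.dvd_mul hp).mp h with h' | h'
        · rw [altOf_eq] at hMidx
          exact hMidx p hp hqπ h'
        · exact hq2 ((Nat.prime_dvd_prime_iff_eq hp Nat.prime_two).mp h')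
  obtain ⟨g, hg, hcyc, hcard⟩ := hall_exists_cycle {q} _ hP q k hq rfl hk hqk
  exact ⟨g, Subgroup.map_subtype_le _ hg, hcyc, hcard⟩

end Cfsg.Agent.Lib.Helper13.HA
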