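import Mathlib

/-! Project HALL-SYM (S2536), piece ARITH. Paper proof: team note (topic S2536). -/

set_option autoImplicit false

namespace Cfsg.Agent.Lib.Helper13.HS

/-- a number all of whose prime factors are `≤ M` is coprime to `C` -/
theorem arith_coprime (M x C : ℕ) (hxs : ∀ r : ℕ, r.Prime → r ∣ x → r ≤ M)
    (h : ∀ r : ℕ, r.Prime → r ≤ M → ¬ r ∣ C) : Nat.Coprime x C :=
  Nat.coprime_of_dvd fun r hr hrx hrC => h r hr (hxs r hr hrx) hrC

/-- prime factors of a composite number are at most half of it -/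
theorem arith_pf_le (x r : ℕ) (hx2 : 2 ≤ x) (hnp : ¬ x.Prime) (hr : r.Prime) (hrx : r ∣ x) :
    2 * r ≤ x := by
  obtain ⟨t, ht⟩ := hrx
  rcases Nat.lt_or_ge t 2 with h | h
  · exfalso
    interval_cases t
    · omega
    · rw [mul_one] at ht
      rw [ht] at hnp
      exact hnp hr
  · rw [ht]
    nlinarith [hr.two_le]

/-- NT1: if `2 ≤ μ ≤ M` and no prime `≤ M` divides `choose (M + μ) μ` then `(M, μ) = (4, 3)`. -/
theorem choose_coprime_small (M μ : ℕ) (hμ : 2 ≤ μ) (hle : μ ≤ M)
    (h : ∀ r : ℕ, r.Prime → r ≤ M → ¬ r ∣ Nat.choose (M + μ) μ) : M = 4 ∧ μ = 3 := by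
  -- step 0
  have hlt : μ < M := by
    rcases Nat.lt_or_ge μ M with h1 | h1
    · exact h1
    · exfalso
      have hMμ : μ = M := by omega
      subst hMμ
      apply h 2 Nat.prime_two (by omega)
      have := Nat.two_dvd_centralBinom_of_one_le (show 0 < μ by omega)
      rw [Nat.centralBinom, two_mul] at this
      exact this
  set n := M + μ with hn
  set C := Nat.choose n μ with hC
  -- (W1) `n` is prime
  have hnprime : n.Prime := by
    by_contra hnp
    have hcop : Nat.Coprime n C := arith_coprime M n C (fun r hr hrn => by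
      have := arith_pf_le n r (by omega) hnp hr hrn
      omega) h
    have hid := Nat.add_one_mul_choose_eq (n - 1) (μ - 1)
    rw [show n - 1 + 1 = n by omega, show μ - 1 + 1 = μ by omega] at hid
    have hdvd : n ∣ C * μ := ⟨_, hid.symm⟩
    have := Nat.le_of_dvd (by omega) (hcop.dvd_of_dvd_mul_left hdvd)
    omega
  -- (W2) `M + 1` is prime
  have hM1prime : (M + 1).Prime := by
    by_contra hnp
    have hcop : Nat.Coprime (M + 1) C := arith_coprime M (M + 1) C (fun r hr hrn => by
      have := arith_pf_le (M + 1) r (by omega) hnp hr hrn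
      omega) h
    have hid := Nat.choose_succ_right_eq n (μ - 1)
    rw [show μ - 1 + 1 = μ by omega, show n - (μ - 1) = M + 1 by omega] at hid
    have hdvd : (M + 1) ∣ C * μ := ⟨_, by rw [hid]; ring⟩
    have := Nat.le_of_dvd (by omega) (hcop.dvd_of_dvd_mul_left hdvd)
    omega
  have hMeven : 2 ∣ M := by
    rcases hM1prime.eq_two_or_odd with h2 | h2
    · omega
    · omega
  have hM4 : 4 ≤ M := by omega
  -- (W3) `(M + 2) ∣ μ (μ - 1)`
  have hW3 : (M + 2) ∣ μ * (μ - 1) := by
    have hnp : ¬ (M + 2).Prime := by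
      intro hp
      rcases hp.eq_two_or_odd with h2 | h2
      · omega
      · omega
    have hcop : Nat.Coprime (M + 2) C := arith_coprime M (M + 2) C (fun r hr hrn => by
      have := arith_pf_le (M + 2) r (by omega) hnp hr hrn
      omega) h
    have hid1 := Nat.choose_succ_right_eq n (μ - 1)
    rw [show μ - 1 + 1 = μ by omega, show n - (μ - 1) = M + 1 by omega] at hid1
    have hid2 := Nat.choose_succ_right_eq n (μ - 2)
    rw [show μ - 2 + 1 = μ - 1 by omega, show n - (μ - 2) = M + 2 by omega] at hid2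
    have hdvd : (M + 2) ∣ C * (μ * (μ - 1)) := by
      refine ⟨Nat.choose n (μ - 2) * (M + 1), ?_⟩
      calc C * (μ * (μ - 1)) = (C * μ) * (μ - 1) := by ring
        _ = (Nat.choose n (μ - 1) * (M + 1)) * (μ - 1) := by rw [hid1]
        _ = (Nat.choose n (μ - 1) * (μ - 1)) * (M + 1) := by ring
        _ = (Nat.choose n (μ - 2) * (M + 2)) * (M + 1) := by rw [hid2]
        _ = (M + 2) * (Nat.choose n (μ - 2) * (M + 1)) := by ring
    exact hcop.dvd_of_dvd_mul_left hdvd
  -- (W4) `(μ + 1) ∣ M`
  have hW4 : (μ + 1) ∣ M := by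
    have hcop : Nat.Coprime (μ + 1) C := arith_coprime M (μ + 1) C (fun r hr hrn => by
      have := Nat.le_of_dvd (by omega) hrn
      omega) h
    have hid := Nat.choose_succ_right_eq n μ
    rw [show n - μ = M by omega] at hid
    have hdvd : (μ + 1) ∣ C * M := ⟨Nat.choose n (μ + 1), by rw [← hid]; ring⟩
    exact hcop.dvd_of_dvd_mul_left hdvd
  obtain ⟨k, rfl⟩ : ∃ k, μ = k + 2 := ⟨μ - 2, by omega⟩
  rw [show k + 2 - 1 = k + 1 by omega] at hW3
  by_cases hcase : M = k + 2 + 1
  · -- Case A
    subst hcase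
    have h12 : (k + 5) ∣ 12 := by
      have h1 : (k + 5) ∣ (k + 2) * (k + 1) + 4 * (k + 5) :=
        Dvd.dvd.add (by simpa using hW3) (dvd_mul_left _ _)
      have h2 : (k + 2) * (k + 1) + 4 * (k + 5) = (k + 5) * (k + 2) + 12 := by ring
      rw [h2] at h1
      exact (Nat.dvd_add_right (dvd_mul_right _ _)).mp h1
    have hk7 : k + 5 ≤ 12 := Nat.le_of_dvd (by norm_num) h12
    have hk7' : k ≤ 7 := by omega
    have hk : k = 1 ∨ k = 7 := by
      clear hW3 h hC hnprime hM1prime hMeven
      interval_cases k <;> first | omega | (exfalso; revert h12; decide)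
    rcases hk with rfl | rfl
    · exact ⟨rfl, rfl⟩
    · exfalso
      exact h 2 Nat.prime_two (by norm_num) (by decide)
  · -- Case B
    exfalso
    obtain ⟨c, hc⟩ := hW4
    have hc2 : 2 ≤ c := by
      rcases Nat.lt_or_ge c 2 with h1 | h1
      · interval_cases c <;> omega
      · exact h1
    obtain ⟨e, he⟩ := hW3
    have he1 : 1 ≤ e := by
      rcases Nat.eq_zero_or_pos e with h0 | h0
      · subst h0
        simp at he
      · exact h0
    obtain ⟨e', rfl⟩ : ∃ e', e = e' + 1 := ⟨e - 1, by omega⟩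
    -- `(k + 3) * c * (e' + 1) + 2 * e' = (k + 3) * k`
    have heq : (k + 3) * (c * (e' + 1)) + 2 * e' = (k + 3) * k := by
      have h1 : (k + 2) * (k + 1) = (k + 3) * k + 2 := by ring
      have h2 : (k + 2) * (k + 1) = ((k + 2 + 1) * c + 2) * (e' + 1) := by rw [he, hc]
      have h3 : ((k + 2 + 1) * c + 2) * (e' + 1) = (k + 3) * (c * (e' + 1)) + 2 * e' + 2 := by
        ring
      rw [h3, h1] at h2
      omega
    have hdvd : (k + 3) ∣ 2 * e' := by
      have : (k + 3) ∣ (k + 3) * (c * (e' + 1)) + 2 * e' := by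
        rw [heq]
        exact dvd_mul_right _ _
      exact (Nat.dvd_add_right (dvd_mul_right _ _)).mp this
    have he0 : e' = 0 := by
      by_contra hne
      have hpos : 0 < 2 * e' := by omega
      have hle' := Nat.le_of_dvd hpos hdvd
      have h1 : (k + 3) * (2 * (e' + 1)) ≤ (k + 3) * (c * (e' + 1)) :=
        Nat.mul_le_mul_left _ (Nat.mul_le_mul_right _ hc2)
      have h2 : (k + 3) * (k + 5) ≤ (k + 3) * (2 * (e' + 1)) :=
        Nat.mul_le_mul_left _ (by omega)
      have h3 : (k + 3) * (k + 5) = (k + 3) * k + 5 * (k + 3) := by ring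
      linarith
    subst he0
    have hck : c = k := by
      have : (k + 3) * c = (k + 3) * k := by nlinarith
      exact Nat.eq_of_mul_eq_mul_left (by omega) this
    subst hck
    have hM : M = (c + 3) * c := by rw [hc]
    -- (W5)
    have hW5 : (c + 4) ∣ M * (M - 1) := by
      have hcop : Nat.Coprime (c + 4) C := arith_coprime M (c + 4) C (fun r hr hrn => by
        have := Nat.le_of_dvd (by omega) hrn
        omega) h
      have hid1 := Nat.choose_succ_right_eq n (c + 2)
      rw [show n - (c + 2) = M by omega] at hid1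
      have hid2 := Nat.choose_succ_right_eq n (c + 2 + 1)
      rw [show n - (c + 2 + 1) = M - 1 by omega] at hid2
      have hdvd : (c + 4) ∣ C * (M * (M - 1)) := by
        refine ⟨Nat.choose n (c + 2 + 1 + 1) * (c + 2 + 1), ?_⟩
        calc C * (M * (M - 1)) = (C * M) * (M - 1) := by ring
          _ = (Nat.choose n (c + 2 + 1) * (c + 2 + 1)) * (M - 1) := by rw [hid1]
          _ = (Nat.choose n (c + 2 + 1) * (M - 1)) * (c + 2 + 1) := by ring
          _ = (Nat.choose n (c + 2 + 1 + 1) * (c + 2 + 1 + 1)) * (c + 2 + 1) := by rw [hid2]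
          _ = (c + 4) * (Nat.choose n (c + 2 + 1 + 1) * (c + 2 + 1)) := by ring
      exact hcop.dvd_of_dvd_mul_left hdvd
    have h12 : ((c : ℤ) + 4) ∣ 12 := by
      have hz : ((c + 4 : ℕ) : ℤ) ∣ ((M * (M - 1) : ℕ) : ℤ) := Int.natCast_dvd_natCast.mpr hW5
      have hM1 : ((M - 1 : ℕ) : ℤ) = (M : ℤ) - 1 := by
        rw [Nat.cast_sub (by omega)]; simp
      have hMz : (M : ℤ) = ((c : ℤ) + 3) * c := by
        rw [hM]; push_cast; ring
      rw [Nat.cast_mul, hM1, hMz] at hz
      push_cast at hz
      have e : (12 : ℤ) = ((c : ℤ) + 3) * c * (((c : ℤ) + 3) * c - 1) -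
          ((c : ℤ) + 4) * (((c : ℤ) + 4) ^ 3 - 10 * ((c : ℤ) + 4) ^ 2 + 32 * ((c : ℤ) + 4) - 35) := by
        ring
      rw [e]
      exact dvd_sub hz (dvd_mul_right _ _)
    have h12' : (c + 4) ∣ 12 := by
      have : ((c + 4 : ℕ) : ℤ) ∣ ((12 : ℕ) : ℤ) := by
        push_cast
        exact h12
      exact Int.natCast_dvd_natCast.mp this
    have hc8 : c + 4 ≤ 12 := Nat.le_of_dvd (by norm_num) h12'
    have hc8' : c ≤ 8 := by omega
    have hc' : c = 2 ∨ c = 8 := by
      clear hW5 h12 h hC hnprime hM1prime hMeven hM hc he hdvd heq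
      interval_cases c <;> first | omega | (exfalso; revert h12'; decide)
    rcases hc' with rfl | rfl
    · have hM10 : M = 10 := by rw [hM]
      have : n = 14 := by omega
      rw [this] at hnprime
      exact absurd hnprime (by norm_num)
    · have hM88 : M = 88 := by rw [hM]
      have : n = 98 := by omega
      rw [this] at hnprime
      exact absurd hnprime (by norm_num)

end Cfsg.Agent.Lib.Helper13.HS
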