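import Mathlib
import Cfsg.Prelude.Def_HallClasses
import Cfsg.Agent.Lib.Helper13.HSDefs

/-! Project HALL-SYM (S2536), piece POINT. Paper proofs: team note (topic S2536). -/

set_option autoImplicit false

namespace Cfsg.Agent.Lib.Helper13.HS

open Equiv

/-- G9: for a transitive Hall `π`-subgroup `X` of `Perm Ω`, the point stabiliser (restricted to
the complement of the point) is a Hall `π`-subgroup of `Perm ({ω}ᶜ)`, and every prime divisor
of `|Ω|` lies in `π`. -/
theorem hall_point_stab {Ω : Type*} [Finite Ω] (π : Set ℕ) (X : Subgroup (Perm Ω))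
    (hX : Cfsg.IsPiHall π X) (htr : MulAction.IsPretransitive ↥X Ω) (ω : Ω) :
    Cfsg.IsPiHall π (restr X ({ω}ᶜ : Set Ω)) ∧
      ∀ p : ℕ, p.Prime → p ∣ Nat.card Ω → p ∈ π := by
  classical
  haveI := htr
  have hne : Nonempty Ω := ⟨ω⟩
  let f : Perm ↥({ω}ᶜ : Set Ω) →* Perm Ω := Equiv.Perm.ofSubtype
  have hf : Function.Injective f := Equiv.Perm.ofSubtype_injective
  have hmem : ∀ x : Ω, x ∈ ({ω}ᶜ : Set Ω) ↔ x ≠ ω := fun x => by simp
  -- `restr` is the preimage of `X` under extension by the identity
  have hrestr : restr X ({ω}ᶜ : Set Ω) = X.comap f := by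
    ext σ
    rw [mem_restr, Subgroup.mem_comap]
    constructor
    · rintro ⟨h, hh, hσ⟩
      have hfh : f σ = h := by
        ext x
        by_cases hx : x ∈ ({ω}ᶜ : Set Ω)
        · have h1 := hσ ⟨x, hx⟩
          show Equiv.Perm.ofSubtype σ x = h x
          rw [Equiv.Perm.ofSubtype_apply_of_mem σ hx]
          exact h1.symm
        · show Equiv.Perm.ofSubtype σ x = h x
          rw [Equiv.Perm.ofSubtype_apply_of_not_mem σ hx]
          by_contra hne'
          have hxω : x = ω := by
            by_contra hxω
            exact hx ((hmem x).mpr hxω)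
          have hz : h x ∈ ({ω}ᶜ : Set Ω) := by
            rw [hmem]
            intro e
            apply hne'
            rw [e, hxω]
          obtain ⟨y, hy⟩ := σ.surjective ⟨h x, hz⟩
          have h1 := hσ y
          rw [hy] at h1
          have h2 : (y : Ω) = x := h.injective h1
          exact hx (h2 ▸ y.2)
      rw [hfh]
      exact hh
    · intro h
      exact ⟨f σ, h, fun y => Equiv.Perm.ofSubtype_apply_coe σ y⟩
  -- the range of `f` is the stabiliser of `ω`
  have hrange : f.range = MulAction.stabilizer (Perm Ω) ω := by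
    ext g
    rw [MonoidHom.mem_range, MulAction.mem_stabilizer_iff]
    constructor
    · rintro ⟨σ, rfl⟩
      show Equiv.Perm.ofSubtype σ ω = ω
      exact Equiv.Perm.ofSubtype_apply_of_not_mem σ (by simp)
    · intro hg
      have hg' : g ω = ω := hg
      have h1 : ∀ x, g x ∈ ({ω}ᶜ : Set Ω) ↔ x ∈ ({ω}ᶜ : Set Ω) := by
        intro x
        rw [hmem, hmem]
        constructor
        · intro hx e
          apply hx
          rw [e, hg']
        · intro hx e
          apply hx
          apply g.injective
          rw [e, hg']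
      refine ⟨g.subtypePerm h1, ?_⟩
      apply Equiv.Perm.ofSubtype_subtypePerm
      intro x hx
      rw [hmem]
      intro e
      apply hx
      rw [e, hg']
  -- index computation
  have hidx : (X.comap f).index = X.index := by
    rw [Subgroup.index_comap, hrange]
    have h1 := Subgroup.relIndex_mul_index
      (inf_le_right : X ⊓ MulAction.stabilizer (Perm Ω) ω ≤ MulAction.stabilizer (Perm Ω) ω)
    have h2 := Subgroup.relIndex_mul_index
      (inf_le_left : X ⊓ MulAction.stabilizer (Perm Ω) ω ≤ X)
    rw [Subgroup.inf_relIndex_right] at h1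
    rw [Subgroup.inf_relIndex_left] at h2
    have h3 : (MulAction.stabilizer (Perm Ω) ω).index = Nat.card Ω :=
      MulAction.index_stabilizer_of_transitive (Perm Ω) ω
    have h4 : (MulAction.stabilizer (Perm Ω) ω).relIndex X = Nat.card Ω := by
      have h5 : (MulAction.stabilizer (Perm Ω) ω).subgroupOf X = MulAction.stabilizer ↥X ω := by
        ext x
        rfl
      rw [Subgroup.relIndex, h5]
      exact MulAction.index_stabilizer_of_transitive ↥X ω
    rw [h3] at h1
    rw [h4] at h2
    have hpos : 0 < Nat.card Ω := Nat.card_pos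
    have h6 : X.relIndex (MulAction.stabilizer (Perm Ω) ω) * Nat.card Ω =
        X.index * Nat.card Ω := by
      rw [h1, ← h2, mul_comm]
    exact Nat.eq_of_mul_eq_mul_right hpos h6
  have hcard_dvd : Nat.card (X.comap f) ∣ Nat.card X :=
    Subgroup.card_comap_dvd_of_injective X f hf
  have hΩ : Nat.card Ω ∣ Nat.card X := by
    have h1 : (MulAction.stabilizer ↥X ω).index = Nat.card Ω :=
      MulAction.index_stabilizer_of_transitive ↥X ω
    rw [← h1]
    exact Subgroup.index_dvd_card _
  refine ⟨?_, fun p hp hpΩ => hX.1 p hp (hpΩ.trans hΩ)⟩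
  rw [hrestr]
  refine ⟨fun p hp hpd => hX.1 p hp (hpd.trans hcard_dvd), fun p hp hpπ => ?_⟩
  rw [hidx]
  exact hX.2 p hp hpπ

end Cfsg.Agent.Lib.Helper13.HS
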