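import Mathlib
import Cfsg.Prelude.Def_HallClasses
import Cfsg.Agent.Lib.Helper13.HSDefs
import Cfsg.Agent.Lib.Helper13.HSCycle

/-! Project HALL-SYM (S2536), piece PRIM. Paper proofs: team note (topic S2536). -/

set_option autoImplicit false

namespace Cfsg.Agent.Lib.Helper13.HS

open Equiv

/-- if the whole group `Perm Ω` is a Hall `π`-subgroup then every prime `≤ |Ω|` is in `π` -/
theorem hall_top_primes {Ω : Type*} [Finite Ω] (π : Set ℕ)
    (hH : Cfsg.IsPiHall π (⊤ : Subgroup (Perm Ω))) (r : ℕ) (hr : r.Prime)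
    (hle : r ≤ Nat.card Ω) : r ∈ π := by
  apply hH.1 r hr
  rw [Subgroup.card_top, Nat.card_perm]
  exact Nat.dvd_factorial hr.pos hle

/-- G5: a primitive Hall `π`-subgroup with `2 ∈ π` is everything (it contains a transposition;
Jordan: `Equiv.Perm.subgroup_eq_top_of_isPreprimitive_of_isSwap_mem`). -/
theorem prim_hall_two {Ω : Type*} [Finite Ω] (π : Set ℕ) (X : Subgroup (Perm Ω))
    (hX : Cfsg.IsPiHall π X) (hprim : MulAction.IsPreprimitive ↥X Ω) (h2 : 2 ∈ π)
    (hc : 2 ≤ Nat.card Ω) : X = ⊤ := by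
  classical
  haveI : Fintype Ω := Fintype.ofFinite Ω
  obtain ⟨g, hg, hgc, hgs⟩ := hall_exists_cycle π X hX 2 1 Nat.prime_two h2 le_rfl
    (by simpa using hc)
  have hsw : g.IsSwap := Equiv.Perm.card_support_eq_two.mp (by simpa using hgs)
  exact Equiv.Perm.subgroup_eq_top_of_isPreprimitive_of_isSwap_mem hprim g hsw hg

/-- G6: a primitive group containing a cycle with at least one fixed point is 2-transitive
(Jordan: `MulAction.IsPreprimitive.is_two_pretransitive` with
`Equiv.Perm.isPretransitive_of_isCycle_mem`), hence of even order. -/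
theorem prim_cycle_even {Ω : Type*} [Fintype Ω] [DecidableEq Ω] (X : Subgroup (Perm Ω))
    (hprim : MulAction.IsPreprimitive ↥X Ω) (g : Perm Ω) (hg : g ∈ X) (hgc : g.IsCycle)
    (hlt : g.support.card < Nat.card Ω) : 2 ∣ Nat.card X := by
  have h2 : 2 ≤ g.support.card := hgc.two_le_card_support
  have hs : ((g.support : Set Ω)ᶜ).ncard = Nat.card Ω - g.support.card := by
    rw [Set.ncard_compl, Set.ncard_coe_finset]
  have hsn : ((g.support : Set Ω)ᶜ).ncard = (Nat.card Ω - g.support.card - 1) + 1 := by omega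
  have hsn' : (Nat.card Ω - g.support.card - 1) + 2 < Nat.card Ω := by omega
  have h2t := hprim.is_two_pretransitive hsn hsn'
    (Equiv.Perm.isPretransitive_of_isCycle_mem hgc hg)
  rw [MulAction.is_two_pretransitive_iff] at h2t
  obtain ⟨a, ha⟩ : ∃ a, a ∈ g.support := Finset.card_pos.mp (by omega)
  have hab : a ≠ g a := fun h => (Equiv.Perm.mem_support.mp ha) h.symm
  obtain ⟨x, hx1, hx2⟩ := h2t hab hab.symm
  by_contra hodd
  have ho : ¬ 2 ∣ orderOf x := fun h => hodd (h.trans (orderOf_dvd_natCard x))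
  have hodd' : Odd (orderOf x) := Nat.odd_iff.mpr (Nat.two_dvd_ne_zero.mp ho)
  obtain ⟨m, hm⟩ := hodd'
  have h1 : x ^ (2 * m + 2) = x := by
    have h0 : x ^ (2 * m + 2) = x ^ (orderOf x) * x := by rw [hm, ← pow_succ]
    rw [h0, pow_orderOf_eq_one, one_mul]
  have h3 : (x ^ 2) • a = a := by rw [pow_two, mul_smul, hx1, hx2]
  have h4 : ∀ j : ℕ, ((x ^ 2) ^ j) • a = a := by
    intro j
    induction j with
    | zero => simp
    | succ j ih => rw [pow_succ, mul_smul, h3, ih]
  have h5 : x • a = a := by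
    have h6 := h4 (m + 1)
    rw [← pow_mul, show 2 * (m + 1) = 2 * m + 2 by ring, h1] at h6
    exact h6
  exact hab (h5.symm.trans hx1)

end Cfsg.Agent.Lib.Helper13.HS
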