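import Mathlib
import Cfsg.Prelude.Def_HallClasses
import Cfsg.Agent.Lib.Helper13.HSDefs
import Cfsg.Agent.Lib.Helper13.HSCycle
import Cfsg.Agent.Lib.Helper13.HSPrim
import Cfsg.Agent.Lib.Helper13.HSPoint
import Cfsg.Agent.Lib.Helper13.HSBlock

/-! Project HALL-SYM (S2536), piece TRANS. Paper proof: team note (topic S2536). -/

set_option autoImplicit false

namespace Cfsg.Agent.Lib.Helper13.HS

open Equiv

/-- the common contradiction of the imprimitive case -/
theorem trans_imprim {Ω : Type} [Fintype Ω] [DecidableEq Ω] (π : Set ℕ) (X : Subgroup (Perm Ω))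
    (hX : Cfsg.IsPiHall π X) (htr : MulAction.IsPretransitive ↥X Ω)
    (hA2 : A2 π (Nat.card Ω)) (h2 : 2 ∈ π) (h3 : 3 ∈ π) (hm6 : 6 ≤ Nat.card Ω)
    (hcase : Nat.card Ω = 9 ∨ ((Nat.card Ω - 1).Prime ∧
      ∀ r : ℕ, r.Prime → r ≤ Nat.card Ω - 1 → (r ∈ π ↔ r < Nat.card Ω - 1))) : False := by
  obtain ⟨r0, hr0, hr0m, hr0π⟩ := hA2
  -- `X` is not primitive
  have hnp : ¬ MulAction.IsPreprimitive ↥X Ω := by
    intro hprim
    have htop := prim_hall_two π X hX hprim h2 (by omega)
    rw [htop] at hX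
    exact hr0π (hall_top_primes π hX r0 hr0 hr0m)
  obtain ⟨a, ha1, ham, hadvd, hcyc⟩ := block_cycle X htr hnp
  set m := Nat.card Ω with hm
  obtain ⟨b, hb⟩ := hadvd
  have hb2 : 2 ≤ b := by
    rcases Nat.lt_or_ge b 2 with h | h
    · interval_cases b
      · omega
      · omega
    · exact h
  have h2a : 2 * a ≤ m := by nlinarith
  -- the 2-power cycle
  have hk2 : 1 ≤ Nat.log 2 m := Nat.log_pos (by norm_num) (by omega)
  have hk2le : 2 ^ Nat.log 2 m ≤ m := Nat.pow_log_le_self 2 (by omega)
  have hk2lt : m < 2 ^ (Nat.log 2 m + 1) := Nat.lt_pow_succ_log_self (by norm_num) m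
  obtain ⟨g2, hg2X, hg2c, hg2s⟩ := hall_exists_cycle π X hX 2 (Nat.log 2 m) Nat.prime_two h2 hk2 hk2le
  have ha2 : ∃ j : ℕ, a = 2 ^ j := by
    rcases hcyc g2 hg2X hg2c 2 (Nat.log 2 m) Nat.prime_two hg2s with h | h
    · exact h
    · exfalso
      rw [pow_succ] at hk2lt
      omega
  obtain ⟨j, hj⟩ := ha2
  have hj1 : 1 ≤ j := by
    rcases Nat.eq_zero_or_pos j with h | h
    · subst h
      simp at hj
      omega
    · exact h
  have ha_even : 2 ∣ a := by
    rw [hj]
    exact dvd_pow_self 2 (by omega)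
  -- the 3-power cycle
  have hk3 : 1 ≤ Nat.log 3 m := Nat.log_pos (by norm_num) (by omega)
  have hk3le : 3 ^ Nat.log 3 m ≤ m := Nat.pow_log_le_self 3 (by omega)
  have hk3lt : m < 3 ^ (Nat.log 3 m + 1) := Nat.lt_pow_succ_log_self (by norm_num) m
  obtain ⟨g3, hg3X, hg3c, hg3s⟩ := hall_exists_cycle π X hX 3 (Nat.log 3 m) Nat.prime_three h3 hk3 hk3le
  have h3a : 3 ^ Nat.log 3 m ≤ a := by
    rcases hcyc g3 hg3X hg3c 3 (Nat.log 3 m) Nat.prime_three hg3s with h | h
    · exfalso
      obtain ⟨j', hj'⟩ := h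
      rw [hj'] at ha_even
      have := Nat.Prime.dvd_of_dvd_pow Nat.prime_two ha_even
      omega
    · exact h
  have hm2a : m = 2 * a := by
    rw [pow_succ] at hk3lt
    have hb3 : b < 3 := by
      by_contra hcon
      have : 3 ≤ b := by omega
      nlinarith
    have : b = 2 := by omega
    subst this
    omega
  rcases hcase with h9 | ⟨hprime, hiff⟩
  · omega
  · -- `a = 2 ^ j` with `j ≥ 2` is not prime
    have ha3 : 3 ≤ a := by omega
    have ha_np : ¬ a.Prime := by
      intro hap
      have := (Nat.prime_dvd_prime_iff_eq Nat.prime_two hap).mp ha_even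
      omega
    obtain ⟨p', hp', hlt, hle⟩ := Nat.exists_prime_lt_and_le_two_mul (a - 1) (by omega)
    have hp'a : a < p' := by
      rcases Nat.lt_or_ge a p' with h | h
      · exact h
      · exfalso
        have : p' = a := by omega
        rw [this] at hp'
        exact ha_np hp'
    have hp'π : p' ∈ π := (hiff p' hp' (by omega)).mpr (by omega)
    obtain ⟨g', hg'X, hg'c, hg's⟩ := hall_exists_cycle π X hX p' 1 hp' hp'π le_rfl (by
      rw [pow_one]; omega)
    rcases hcyc g' hg'X hg'c p' 1 hp' hg's with h | h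
    · obtain ⟨j'', hj''⟩ := h
      rcases Nat.eq_zero_or_pos j'' with h0 | h0
      · subst h0
        simp at hj''
        omega
      · have : p' ≤ p' ^ j'' := Nat.le_self_pow (by omega) p'
        omega
    · rw [pow_one] at h
      omega

/-- T-step: a transitive Hall `π`-subgroup of `Perm Ω` (at least two primes of `π` are `≤ |Ω|`,
some prime `≤ |Ω|` is not in `π`) forces `|Ω| = 8` and `π ∩ primes = {2,3}`, given the
classification `hC` in smaller degrees. -/
theorem trans_step {Ω : Type} [Finite Ω] (π : Set ℕ) (X : Subgroup (Perm Ω))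
    (hX : Cfsg.IsPiHall π X) (htr : MulAction.IsPretransitive ↥X Ω)
    (hA1 : A1 π (Nat.card Ω)) (hA2 : A2 π (Nat.card Ω))
    (hC : ∀ (Ω' : Type) [Finite Ω'] (Y : Subgroup (Perm Ω')), Nat.card Ω' < Nat.card Ω →
      Cfsg.IsPiHall π Y → A1 π (Nat.card Ω') → A2 π (Nat.card Ω') →
      ((Cc π (Nat.card Ω') ∧ ∃ ω : Ω', ∀ y ∈ Y, y ω = ω) ∨ Cd π (Nat.card Ω'))) :
    Nat.card Ω = 8 ∧ Cd π 8 := by
  classical
  haveI : Fintype Ω := Fintype.ofFinite Ω
  set m := Nat.card Ω with hm
  have hA1' := hA1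
  have hA2' := hA2
  obtain ⟨r, s, hr, hs, hrs, hrπ, hsπ, hrm, hsm⟩ := hA1
  obtain ⟨r0, hr0, hr0m, hr0π⟩ := hA2
  have hr2 := hr.two_le
  have hs2 := hs.two_le
  have hm3 : 3 ≤ m := by omega
  have hne : Nonempty Ω := by
    by_contra hcon
    rw [not_nonempty_iff] at hcon
    have : Nat.card Ω = 0 := Nat.card_of_isEmpty
    omega
  obtain ⟨ω⟩ := hne
  obtain ⟨hY, hdiv⟩ := hall_point_stab π X hX htr ω
  have hcard' : Nat.card ↥({ω}ᶜ : Set Ω) = m - 1 := by
    rw [Nat.card_coe_set_eq, Set.ncard_compl, Set.ncard_singleton]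
  by_cases h2' : A2 π (m - 1)
  · by_cases h1' : A1 π (m - 1)
    · -- case (c)
      have hCY := hC ↥({ω}ᶜ : Set Ω) (restr X ({ω}ᶜ : Set Ω)) (by rw [hcard']; omega) hY
        (by rw [hcard']; exact h1') (by rw [hcard']; exact h2')
      rw [hcard'] at hCY
      rcases hCY with ⟨⟨hprime, hiff⟩, _⟩ | ⟨h78, hiff⟩
      · -- Cc (m - 1)
        exfalso
        obtain ⟨r1, s1, hr1, hs1, hrs1, hr1π, hs1π, hr1m, hs1m⟩ := h1'
        have hr1lt := (hiff r1 hr1 hr1m).mp hr1π
        have hs1lt := (hiff s1 hs1 hs1m).mp hs1π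
        have hr12 := hr1.two_le
        have hs12 := hs1.two_le
        have hm5 : 5 ≤ m - 1 := by
          have h4 : 4 ≤ m - 1 := by omega
          rcases Nat.lt_or_ge (m - 1) 5 with h | h
          · exfalso
            have h4' : m - 1 = 4 := by omega
            rw [h4'] at hprime
            exact absurd hprime (by norm_num)
          · exact h
        have h2π : 2 ∈ π := (hiff 2 Nat.prime_two (by omega)).mpr (by omega)
        have h3π : 3 ∈ π := (hiff 3 Nat.prime_three (by omega)).mpr (by omega)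
        exact trans_imprim π X hX htr hA2' h2π h3π (by omega) (Or.inr ⟨hprime, hiff⟩)
      · -- Cd (m - 1)
        rcases h78 with h7 | h8
        · have hm8 : m = 8 := by omega
          refine ⟨hm8, Or.inr rfl, ?_⟩
          intro t ht ht8
          have ht7 : t ≤ m - 1 := by
            rcases Nat.lt_or_ge t 8 with h | h
            · omega
            · exfalso
              have : t = 8 := by omega
              rw [this] at ht
              exact absurd ht (by norm_num)
          exact hiff t ht ht7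
        · exfalso
          have h2π : 2 ∈ π := (hiff 2 Nat.prime_two (by omega)).mpr (Or.inl rfl)
          have h3π : 3 ∈ π := (hiff 3 Nat.prime_three (by omega)).mpr (Or.inr rfl)
          exact trans_imprim π X hX htr hA2' h2π h3π (by omega) (Or.inl (by omega))
    · -- case (b): one of the two primes is `m`
      exfalso
      have hex : ∃ r' : ℕ, r'.Prime ∧ r' ∈ π ∧ r' < m ∧ m.Prime := by
        by_cases hrm' : r = m
        · refine ⟨s, hs, hsπ, ?_, hrm' ▸ hr⟩
          omega
        · by_cases hsm' : s = m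
          · refine ⟨r, hr, hrπ, ?_, hsm' ▸ hs⟩
            omega
          · exfalso
            exact h1' ⟨r, s, hr, hs, hrs, hrπ, hsπ, by omega, by omega⟩
      obtain ⟨r', hr', hr'π, hr'm, hmprime⟩ := hex
      have hprim : MulAction.IsPreprimitive ↥X Ω :=
        MulAction.IsPreprimitive.of_prime_card hmprime
      by_cases h2 : 2 ∈ π
      · have htop := prim_hall_two π X hX hprim h2 (by omega)
        rw [htop] at hX
        exact hr0π (hall_top_primes π hX r0 hr0 hr0m)
      · obtain ⟨g, hgX, hgc, hgs⟩ := hall_exists_cycle π X hX r' 1 hr' hr'π le_rfl (by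
          rw [pow_one]; omega)
        have heven := prim_cycle_even X hprim g hgX hgc (by rw [hgs, pow_one]; exact hr'm)
        exact h2 (hX.1 2 Nat.prime_two heven)
  · -- case (a): all primes `≤ m - 1` are in `π`
    exfalso
    have hr0eq : r0 = m := by
      by_contra hne
      exact h2' ⟨r0, hr0, by omega, hr0π⟩
    have : m ∈ π := hdiv m (hr0eq ▸ hr0) dvd_rfl
    exact hr0π (hr0eq ▸ this)

end Cfsg.Agent.Lib.Helper13.HS
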