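import Mathlib
import Cfsg.Prelude.Def_HallClasses
import Cfsg.Agent.Lib.Helper13.HSDefs
import Cfsg.Agent.Lib.Helper13.HSTrans
import Cfsg.Agent.Lib.Helper13.HSIntrans
import Cfsg.Agent.Lib.Helper13.HSExist

/-! Project HALL-SYM (S2536): the classification of Hall subgroups of symmetric groups
(P. Hall, Thompson), assembled by strong induction on the degree. -/

set_option autoImplicit false

namespace Cfsg.Agent.Lib.Helper13.HS

open Equiv

/-- Classification: a Hall `π`-subgroup `H` of `Perm Ω` with at least two primes of `π` that are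
`≤ |Ω|` and some prime `≤ |Ω|` outside `π`: either `|Ω|` is prime, the primes of `π` below it are
all the primes `< |Ω|` and `H` fixes a point; or `|Ω| ∈ {7, 8}` and `π` meets the primes `≤ |Ω|`
in `{2, 3}`. -/
theorem classify (π : Set ℕ) : ∀ (N : ℕ) (Ω : Type) [Finite Ω] (H : Subgroup (Perm Ω)),
    Nat.card Ω = N → Cfsg.IsPiHall π H → A1 π N → A2 π N →
    ((Cc π N ∧ ∃ ω : Ω, ∀ h ∈ H, h ω = ω) ∨ Cd π N) := by
  intro N
  induction N using Nat.strong_induction_on with
  | _ N ih =>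
    intro Ω _ H hN hH hA1 hA2
    subst hN
    have hC : ∀ (Ω' : Type) [Finite Ω'] (Y : Subgroup (Perm Ω')), Nat.card Ω' < Nat.card Ω →
        Cfsg.IsPiHall π Y → A1 π (Nat.card Ω') → A2 π (Nat.card Ω') →
        ((Cc π (Nat.card Ω') ∧ ∃ ω : Ω', ∀ y ∈ Y, y ω = ω) ∨ Cd π (Nat.card Ω')) :=
      fun Ω' _ Y hlt hY h1 h2 => ih (Nat.card Ω') hlt Ω' Y rfl hY h1 h2
    by_cases htr : MulAction.IsPretransitive ↥H Ω
    · obtain ⟨h8, hd⟩ := trans_step π H hH htr hA1 hA2 hC
      right
      rw [h8]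
      exact hd
    · refine intrans_step π H hH htr hA1 hA2 ?_ hC
      intro Ω' _ X hlt hX hXtr h1 h2
      refine trans_step π X hX hXtr h1 h2 ?_
      intro Ω'' _ Y hlt' hY h1' h2'
      exact ih (Nat.card Ω'') (hlt'.trans hlt) Ω'' Y rfl hY h1' h2'

end Cfsg.Agent.Lib.Helper13.HS
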