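import Mathlib
import Cfsg.Prelude.Def_HallClasses
import Cfsg.Agent.Lib.Helper13.HSDefs
import Cfsg.Agent.Lib.Helper13.HADefs
import Cfsg.Agent.Lib.Helper13.HSMain

/-! Project HALL-ALT (S2535 / S2538), piece AINTRANS. Paper proofs: team note (topic S2538).
Auxiliary names in this file must start with `aintrans_`. -/

set_option autoImplicit false

namespace Cfsg.Agent.Lib.Helper13.HA

open Equiv
open scoped Pointwise
open Cfsg.Agent.Lib.Helper13.HS

theorem intrans_core {Ω : Type} [Finite Ω] (π : Set ℕ) (H : Subgroup (Perm Ω))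
    (hcyc : ∀ q : ℕ, q.Prime → q ∈ π → q ≠ 2 → q ≤ Nat.card Ω →
      ∃ c ∈ H, c.IsCycle ∧ {x | c x ≠ x}.ncard = q)
    (hrestr : ∀ s : Set Ω, (∀ h ∈ H, ∀ x ∈ s, h x ∈ s) → 2 ≤ (sᶜ).ncard →
      Cfsg.IsPiHall π (restr H s))
    (hchoose : ∀ s : Set Ω, (∀ h ∈ H, ∀ x ∈ s, h x ∈ s) → ∀ p : ℕ, p.Prime → p ∈ π →
      ¬ p ∣ Nat.choose (Nat.card Ω) s.ncard)
    (hnofix : ∀ ω : Ω, ∃ h ∈ H, h ω ≠ ω)
    (hntr : ¬ MulAction.IsPretransitive ↥H Ω)
    (hA1 : A1 π (Nat.card Ω)) (hA2 : A2 π (Nat.card Ω)) : Cd π (Nat.card Ω) := by
  classical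
  have hT : ∀ (Ω' : Type) [Finite Ω'] (X : Subgroup (Perm Ω')), Nat.card Ω' < Nat.card Ω →
      Cfsg.IsPiHall π X → MulAction.IsPretransitive ↥X Ω' →
      A1 π (Nat.card Ω') → A2 π (Nat.card Ω') → Nat.card Ω' = 8 ∧ Cd π 8 :=
    fun Ω' _ X _ hX hXtr h1 h2 => trans_step π X hX hXtr h1 h2
      (fun Ω'' _ Y _ hY h1' h2' => classify π (Nat.card Ω'') Ω'' Y rfl hY h1' h2')
  have hC : ∀ (Ω' : Type) [Finite Ω'] (Y : Subgroup (Perm Ω')), Nat.card Ω' < Nat.card Ω →
      Cfsg.IsPiHall π Y → A1 π (Nat.card Ω') → A2 π (Nat.card Ω') →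
      ((Cc π (Nat.card Ω') ∧ ∃ ω : Ω', ∀ y ∈ Y, y ω = ω) ∨ Cd π (Nat.card Ω')) :=
    fun Ω' _ Y _ hY h1 h2 => classify π (Nat.card Ω') Ω' Y rfl hY h1 h2
  haveI : Fintype Ω := Fintype.ofFinite Ω
  set n := Nat.card Ω with hn
  obtain ⟨r, s, hr, hs, hrs, hrπ, hsπ, hrn, hsn⟩ := hA1
  -- the largest prime of `π` that is `≤ n`
  set P : ℕ → Prop := fun t => t.Prime ∧ t ∈ π with hP
  set q := Nat.findGreatest P n with hq
  have hPq : P q := Nat.findGreatest_spec (P := P) hrn ⟨hr, hrπ⟩
  have hqn : q ≤ n := Nat.findGreatest_le n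
  have hqmax : ∀ k : ℕ, q < k → k ≤ n → ¬ P k := fun k hk hkn =>
    Nat.findGreatest_is_greatest hk hkn
  have hle_q : ∀ t : ℕ, t.Prime → t ∈ π → t ≤ n → t ≤ q := by
    intro t ht htπ htn
    by_contra hcon
    exact hqmax t (by omega) htn ⟨ht, htπ⟩
  obtain ⟨hqp, hqπ⟩ := hPq
  have hrq := hle_q r hr hrπ hrn
  have hsq := hle_q s hs hsπ hsn
  have hr2 := hr.two_le
  have hs2 := hs.two_le
  have hq3 : 3 ≤ q := by omega
  -- a second prime `q' < q`
  have hex : ∃ q' : ℕ, q'.Prime ∧ q' ∈ π ∧ q' < q := by
    by_cases h : r = q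
    · exact ⟨s, hs, hsπ, by omega⟩
    · exact ⟨r, hr, hrπ, by omega⟩
  obtain ⟨q', hq'p, hq'π, hq'q⟩ := hex
  have hq'2 := hq'p.two_le
  -- the cycle and its orbit
  obtain ⟨c, hcH, hccyc, hcs0⟩ := hcyc q hqp hqπ (by omega) hqn
  have hcs : c.support.card = q := by
    rw [← Set.ncard_coe_finset, ← hcs0]
    congr 1
    ext x
    simp
  obtain ⟨x, hxcard, hxlt, hO, hOc⟩ := intrans_orbit H hntr c hcH hccyc
  set O := MulAction.orbit ↥H x with hOdef
  set m := O.ncard with hm
  rw [hcs] at hxcard
  have hcardO : Nat.card ↥O = m := Nat.card_coe_set_eq O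
  have hcardOc : Nat.card ↥(Oᶜ : Set Ω) = n - m := by
    rw [Nat.card_coe_set_eq, Set.ncard_compl]
  have hn'2 : 2 ≤ n - m := by
    by_contra hcon
    have h1 : (Oᶜ : Set Ω).ncard = 1 := by
      rw [Set.ncard_compl]
      omega
    obtain ⟨ω', hω'⟩ := Set.ncard_eq_one.mp h1
    obtain ⟨h, hh, hne⟩ := hnofix ω'
    have := hOc h hh ω' (by rw [hω']; rfl)
    rw [hω'] at this
    exact hne this
  have hXhall := hrestr O hO (by rw [Set.ncard_compl]; exact hn'2)
  have hXtr := restr_pretransitive H x
  have hch : ∀ p : ℕ, p.Prime → p ∈ π → ¬ p ∣ Nat.choose n m := fun p hp hpπ =>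
    hchoose O hO p hp hpπ
  have hA1m : A1 π m := ⟨q', q, hq'p, hqp, by omega, hq'π, hqπ, by omega, hxcard⟩
  have hH'hall := hrestr Oᶜ hOc (by rw [compl_compl]; omega)
  by_cases hA2m : A2 π m
  · -- CASE II
    exfalso
    obtain ⟨h8, _, hiff8⟩ := hT ↥O (restr H O) (by rw [hcardO]; exact hxlt) hXhall hXtr
      (by rw [hcardO]; exact hA1m) (by rw [hcardO]; exact hA2m)
    rw [hcardO] at h8
    have hq23 := (hiff8 q hqp (by omega)).mp hqπ
    have hq3' : q = 3 := by omega
    have h2π : 2 ∈ π := (hiff8 2 Nat.prime_two (by omega)).mpr (Or.inl rfl)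
    have h3π : 3 ∈ π := (hiff8 3 Nat.prime_three (by omega)).mpr (Or.inr rfl)
    have hch2 := hch 2 Nat.prime_two h2π
    have hch3 := hch 3 Nat.prime_three h3π
    rw [h8] at hch2 hch3
    rcases Nat.lt_or_ge n 13 with hn13 | hn13
    · have hn9 : 9 ≤ n := by omega
      interval_cases n
      · exact hch3 (by decide)
      · exact hch3 (by decide)
      · exact hch3 (by decide)
      · exact hch3 (by decide)
    · have h5π : (5 : ℕ) ∉ π := fun h5 => hqmax 5 (by omega) (by omega) ⟨by norm_num, h5⟩
      have hA1n' : A1 π (n - m) :=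
        ⟨2, 3, Nat.prime_two, Nat.prime_three, by norm_num, h2π, h3π, by omega, by omega⟩
      have hA2n' : A2 π (n - m) := ⟨5, by norm_num, by omega, h5π⟩
      rcases hC ↥(Oᶜ : Set Ω) (restr H Oᶜ) (by rw [hcardOc]; omega) hH'hall
        (by rw [hcardOc]; exact hA1n') (by rw [hcardOc]; exact hA2n') with ⟨⟨hpr, hiff⟩, _⟩ | ⟨h78, hiff⟩
      · rw [hcardOc] at hpr hiff
        have h5 := hiff 5 (by norm_num) (by omega)
        have hn'5 : n - m = 5 := by
          by_contra hne
          exact h5π (h5.mpr (by omega))
        have hn13' : n = 13 := by omega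
        rw [hn13'] at hch3
        exact hch3 (by decide)
      · rw [hcardOc] at h78
        rcases h78 with h7 | h8'
        · have : n = 15 := by omega
          rw [this] at hch3
          exact hch3 (by decide)
        · have : n = 16 := by omega
          rw [this] at hch2
          exact hch2 (by decide)
  · -- CASE I
    have hall_m : ∀ t : ℕ, t.Prime → t ≤ m → t ∈ π := by
      intro t ht htm
      by_contra hcon
      exact hA2m ⟨t, ht, htm, hcon⟩
    have hiffm : ∀ t : ℕ, t.Prime → t ≤ n → (t ∈ π ↔ t ≤ m) := by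
      intro t ht htn
      constructor
      · intro htπ
        have := hle_q t ht htπ htn
        omega
      · exact hall_m t ht
    have hm3 : 3 ≤ m := by omega
    have h2π : 2 ∈ π := hall_m 2 Nat.prime_two (by omega)
    have h3π : 3 ∈ π := hall_m 3 Nat.prime_three (by omega)
    by_cases hle : n - m ≤ m
    · -- (I.1)
      by_cases hμ1 : n - m = 1
      · exfalso
        omega
      · have hnm : n = m + (n - m) := by omega
        have hsmall := choose_coprime_small m (n - m) (by omega) hle (by
          intro t ht htm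
          have h1 := hch t ht (hall_m t ht htm)
          rw [hnm, Nat.choose_symm_add] at h1
          exact h1)
        obtain ⟨hm4, hμ3⟩ := hsmall
        have hn7 : n = 7 := by omega
        refine ⟨Or.inl hn7, ?_⟩
        intro t ht htn
        rw [hiffm t ht htn, hm4]
        exact intrans_prime_le_four t ht
    · -- (I.2)
      have hlt : m < n - m := by omega
      have hA1n' : A1 π (n - m) :=
        ⟨q', q, hq'p, hqp, by omega, hq'π, hqπ, by omega, by omega⟩
      by_cases hA2n' : A2 π (n - m)
      · exfalso
        rcases hC ↥(Oᶜ : Set Ω) (restr H Oᶜ) (by rw [hcardOc]; omega) hH'hall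
          (by rw [hcardOc]; exact hA1n') (by rw [hcardOc]; exact hA2n') with
          ⟨⟨hpr, hiff⟩, ⟨ω', hfix⟩⟩ | ⟨h78, hiff⟩
        · rw [hcardOc] at hpr hiff
          have hHfix := restr_fixed H Oᶜ hOc ω' hfix
          have hω'O : (ω' : Ω) ∉ O := ω'.2
          -- the invariant set `O ∪ {ω'}`
          have hsinv : ∀ h ∈ H, ∀ y ∈ insert (ω' : Ω) O, h y ∈ insert (ω' : Ω) O := by
            intro h hh y hy
            rcases hy with rfl | hy
            · left
              exact hHfix h hh
            · right
              exact hO h hh y hy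
          have hscard : (insert (ω' : Ω) O).ncard = m + 1 :=
            Set.ncard_insert_of_notMem hω'O (Set.toFinite O)
          have hch' : ∀ p : ℕ, p.Prime → p ∈ π → ¬ p ∣ Nat.choose n (m + 1) := by
            intro p hp hpπ
            have := hchoose (insert (ω' : Ω) O) hsinv p hp hpπ
            rw [hscard] at this
            exact this
          have hid := Nat.choose_succ_right_eq n m
          by_cases hm1 : m + 1 < n - m
          · have hnp : ¬ (m + 1).Prime := by
              intro hp
              have h1 := (hiff (m + 1) hp (by omega)).mpr hm1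
              have h2 := (hiffm (m + 1) hp (by omega)).mp h1
              omega
            have hmf := Nat.minFac_prime (show m + 1 ≠ 1 by omega)
            have hmflt := (Nat.not_prime_iff_minFac_lt (show 2 ≤ m + 1 by omega)).mp hnp
            have hmfπ := hall_m _ hmf (by omega)
            have hdvd : Nat.minFac (m + 1) ∣ Nat.choose n m * (n - m) := by
              rw [← hid]
              exact Dvd.dvd.mul_left (Nat.minFac_dvd (m + 1)) _
            rcases (Nat.Prime.dvd_mul hmf).mp hdvd with h | h
            · exact hch _ hmf hmfπ h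
            · have := (Nat.prime_dvd_prime_iff_eq hmf hpr).mp h
              omega
          · have hn' : n - m = m + 1 := by omega
            have hn2 : n = 2 * m + 1 := by omega
            have h2dvd : 2 ∣ Nat.choose (2 * m + 1) m * (m + 1) := by
              have h1 := Nat.add_one_mul_choose_eq (2 * m) m
              have h2 := Nat.two_dvd_centralBinom_of_one_le (show 0 < m by omega)
              rw [Nat.centralBinom] at h2
              rw [← Nat.choose_symm_half, ← h1]
              exact Dvd.dvd.mul_left h2 _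
            rcases (Nat.Prime.dvd_mul Nat.prime_two).mp h2dvd with h | h
            · apply hch 2 Nat.prime_two h2π
              rw [hn2]
              exact h
            · rw [← hn'] at h
              have := (Nat.prime_dvd_prime_iff_eq Nat.prime_two hpr).mp h
              omega
        · rw [hcardOc] at h78 hiff
          have h5π : (5 : ℕ) ∉ π := by
            intro h5
            have := (hiff 5 (by norm_num) (by omega)).mp h5
            omega
          have hm4 : m ≤ 4 := by
            by_contra hcon
            exact h5π (hall_m 5 (by norm_num) (by omega))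
          have hch2 := hch 2 Nat.prime_two h2π
          have hch3 := hch 3 Nat.prime_three h3π
          rcases h78 with h7 | h8
          · have hm34 : m = 3 ∨ m = 4 := by omega
            rcases hm34 with h3 | h4
            · have : n = 10 := by omega
              rw [this, h3] at hch2
              exact hch2 (by decide)
            · have : n = 11 := by omega
              rw [this, h4] at hch2
              exact hch2 (by decide)
          · have hm34 : m = 3 ∨ m = 4 := by omega
            rcases hm34 with h3 | h4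
            · have : n = 11 := by omega
              rw [this, h3] at hch3
              exact hch3 (by decide)
            · have : n = 12 := by omega
              rw [this, h4] at hch3
              exact hch3 (by decide)
      · have hall_n' : ∀ t : ℕ, t.Prime → t ≤ n - m → t ∈ π := by
          intro t ht htm
          by_contra hcon
          exact hA2n' ⟨t, ht, htm, hcon⟩
        have hnm : n = (n - m) + m := by omega
        have hsmall := choose_coprime_small (n - m) m (by omega) (by omega) (by
          intro t ht htm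
          have h1 := hch t ht (hall_n' t ht htm)
          rw [hnm] at h1
          simpa using h1)
        obtain ⟨hn'4, hm3'⟩ := hsmall
        have hn7 : n = 7 := by omega
        refine ⟨Or.inl hn7, ?_⟩
        intro t ht htn
        rw [hiffm t ht htn, hm3']
        exact intrans_prime_le_three t ht

end Cfsg.Agent.Lib.Helper13.HA
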