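import Mathlib
import Cfsg.Prelude.Def_HallClasses
import Cfsg.Agent.Lib.Helper13.HSDefs
import Cfsg.Agent.Lib.Helper13.HADefs

/-! Project HALL-ALT (S2535 / S2538), piece ODD. Paper proofs: team note (topic S2538).
Auxiliary names in this file must start with `odd_`. -/

set_option autoImplicit false

namespace Cfsg.Agent.Lib.Helper13.HA

open Equiv
open scoped Pointwise
open Cfsg.Agent.Lib.Helper13.HS

theorem odd_alt_index_dvd_two (Ω : Type) [Finite Ω] : (altOf Ω).index ∣ 2 := by
  classical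
  have := Fintype.ofFinite Ω
  rcases subsingleton_or_nontrivial Ω with h | h
  · have h1 : altOf Ω = ⊤ := Subsingleton.elim _ _
    rw [h1, Subgroup.index_top]; exact one_dvd _
  · rw [altOf_eq, alternatingGroup.index_eq_two]

theorem hallAlt_odd {Ω : Type} [Finite Ω] (π : Set ℕ) (M : Subgroup (Perm Ω))
    (hM : HallAlt π M) (h2 : (2 : ℕ) ∉ π) : Cfsg.IsPiHall π M := by
  obtain ⟨hle, h1, h3⟩ := hM
  refine ⟨h1, fun p hp hpπ hdvd => ?_⟩
  have hidx : M.relIndex (altOf Ω) * (altOf Ω).index = M.index := Subgroup.relIndex_mul_index hle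
  rw [← hidx] at hdvd
  rcases (Nat.Prime.dvd_mul hp).mp hdvd with h | h
  · exact h3 p hp hpπ h
  · have h4 : p ∣ 2 := h.trans (odd_alt_index_dvd_two Ω)
    have h5 : p = 2 := (Nat.prime_dvd_prime_iff_eq hp Nat.prime_two).mp h4
    exact h2 (h5 ▸ hpπ)

end Cfsg.Agent.Lib.Helper13.HA
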