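import Mathlib
import Cfsg.Prelude.Def_HallClasses
import Cfsg.Agent.Lib.Helper13.HSDefs
import Cfsg.Agent.Lib.Helper13.HADefs
import Cfsg.Agent.Lib.Helper13.HSRestr

/-! Project HALL-ALT (S2535 / S2538), piece ARESTR. Paper proofs: team note (topic S2538).
Auxiliary names in this file must start with `arestr_`. -/

set_option autoImplicit false

namespace Cfsg.Agent.Lib.Helper13.HA

open Equiv
open scoped Pointwise
open Cfsg.Agent.Lib.Helper13.HS

/-- the even permutations preserving `s` -/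
noncomputable def arestr_YA {Ω : Type} [Finite Ω] (s : Set Ω) : Subgroup (Perm Ω) :=
  restr_Y s ⊓ altOf Ω

/-- restriction to `s` of the even permutations preserving `s` -/
noncomputable def arestr_hom {Ω : Type} [Finite Ω] (s : Set Ω) : ↥(arestr_YA s) →* Perm ↥s :=
  (restr_hom s).comp (Subgroup.inclusion (inf_le_left : arestr_YA s ≤ restr_Y s))

theorem arestr_hom_apply {Ω : Type} [Finite Ω] (s : Set Ω) (g : ↥(arestr_YA s)) (y : ↥s) :
    ((arestr_hom s g y : ↥s) : Ω) = g.1 (y : Ω) := rfl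

theorem arestr_swap_mem {Ω : Type} [DecidableEq Ω] (s : Set Ω) (a b : Ω) (ha : a ∉ s)
    (hb : b ∉ s) : swap a b ∈ restr_Y s := by
  intro x
  show swap a b x ∈ s ↔ x ∈ s
  by_cases hxa : x = a
  · subst hxa
    rw [swap_apply_left]
    exact ⟨fun h => absurd h hb, fun h => absurd h ha⟩
  · by_cases hxb : x = b
    · subst hxb
      rw [swap_apply_right]
      exact ⟨fun h => absurd h ha, fun h => absurd h hb⟩
    · rw [swap_apply_of_ne_of_ne hxa hxb]

theorem arestr_hom_surjective {Ω : Type} [Finite Ω] (s : Set Ω) (hc : 2 ≤ (sᶜ).ncard) :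
    Function.Surjective (arestr_hom s) := by
  classical
  let _ : Fintype Ω := Fintype.ofFinite Ω
  have hA : altOf Ω = alternatingGroup Ω := altOf_eq Ω
  intro σ
  have hτY : Perm.ofSubtype σ ∈ restr_Y s := Perm.ofSubtype_apply_mem_iff_mem σ
  rcases Int.units_eq_one_or (Perm.sign (Perm.ofSubtype σ)) with h1 | h1
  · have hmem : Perm.ofSubtype σ ∈ arestr_YA s := by
      refine ⟨hτY, ?_⟩
      show Perm.ofSubtype σ ∈ altOf Ω
      rw [hA, Perm.mem_alternatingGroup]
      exact h1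
    refine ⟨⟨Perm.ofSubtype σ, hmem⟩, ?_⟩
    exact Perm.subtypePerm_ofSubtype σ
  · obtain ⟨a, b, ha, hb, hab⟩ := (Set.one_lt_ncard_iff (Set.toFinite _)).1 hc
    have ha' : a ∉ s := ha
    have hb' : b ∉ s := hb
    have hsw : swap a b ∈ restr_Y s := arestr_swap_mem s a b ha' hb'
    have hmem : Perm.ofSubtype σ * swap a b ∈ arestr_YA s := by
      refine ⟨(restr_Y s).mul_mem hτY hsw, ?_⟩
      show Perm.ofSubtype σ * swap a b ∈ altOf Ω
      rw [hA, Perm.mem_alternatingGroup, map_mul, h1, Perm.sign_swap hab]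
      rfl
    refine ⟨⟨Perm.ofSubtype σ * swap a b, hmem⟩, ?_⟩
    ext y
    rw [arestr_hom_apply]
    show Perm.ofSubtype σ (swap a b (y : Ω)) = (σ y : Ω)
    have hya : (y : Ω) ≠ a := fun h => ha' (h ▸ y.2)
    have hyb : (y : Ω) ≠ b := fun h => hb' (h ▸ y.2)
    rw [swap_apply_of_ne_of_ne hya hyb, Perm.ofSubtype_apply_coe]

theorem arestr_eq_map {Ω : Type} [Finite Ω] (M : Subgroup (Perm Ω)) (s : Set Ω)
    (hle : M ≤ arestr_YA s) :
    restr M s = (M.subgroupOf (arestr_YA s)).map (arestr_hom s) := by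
  ext σ
  rw [mem_restr]
  constructor
  · rintro ⟨h, hh, hσ⟩
    refine ⟨⟨h, hle hh⟩, Subgroup.mem_subgroupOf.mpr hh, ?_⟩
    ext y
    rw [arestr_hom_apply]
    exact hσ y
  · rintro ⟨g, hg, rfl⟩
    exact ⟨g.1, Subgroup.mem_subgroupOf.mp hg, fun y => rfl⟩

theorem hallAlt_restr {Ω : Type} [Finite Ω] (π : Set ℕ) (M : Subgroup (Perm Ω)) (s : Set Ω)
    (hM : HallAlt π M) (hs : ∀ h ∈ M, ∀ x ∈ s, h x ∈ s) (hc : 2 ≤ (sᶜ).ncard) :
    Cfsg.IsPiHall π (restr M s) := by
  have hle : M ≤ arestr_YA s := le_inf (restr_le_Y M s hs) hM.1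
  have hYA : arestr_YA s ≤ altOf Ω := inf_le_right
  rw [arestr_eq_map M s hle]
  constructor
  · intro p hp hdvd
    apply hM.2.1 p hp
    refine dvd_trans hdvd ?_
    have h1 : Nat.card ↥((M.subgroupOf (arestr_YA s)).map (arestr_hom s)) ∣
        Nat.card ↥(M.subgroupOf (arestr_YA s)) :=
      Subgroup.card_dvd_of_surjective ((arestr_hom s).subgroupMap _)
        ((arestr_hom s).subgroupMap_surjective _)
    rwa [Nat.card_congr (Subgroup.subgroupOfEquivOfLe hle).toEquiv] at h1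
  · intro p hp hpπ hdvd
    apply hM.2.2 p hp hpπ
    refine dvd_trans hdvd ?_
    refine dvd_trans (Subgroup.index_map_dvd _ (arestr_hom_surjective s hc)) ?_
    exact Dvd.intro _ (Subgroup.relIndex_mul_relIndex M (arestr_YA s) (altOf Ω) hle hYA)

end Cfsg.Agent.Lib.Helper13.HA
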