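import Mathlib
import Cfsg.Prelude.Def_HallClasses
import Cfsg.Agent.Lib.Helper13.HSDefs
import Cfsg.Agent.Lib.Helper13.HADefs
import Cfsg.Agent.Lib.Helper13.HSPoint

/-! Project HALL-ALT (S2535 / S2538), piece APOINT. Paper proofs: team note (topic S2538).
Auxiliary names in this file must start with `apoint_`. -/

set_option autoImplicit false

namespace Cfsg.Agent.Lib.Helper13.HA

open Equiv
open scoped Pointwise
open Cfsg.Agent.Lib.Helper13.HS

theorem hallAlt_point_stab {Ω : Type} [Finite Ω] (π : Set ℕ) (M : Subgroup (Perm Ω))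
    (hM : HallAlt π M) (hn : 3 ≤ Nat.card Ω) (htr : MulAction.IsPretransitive ↥M Ω) (ω : Ω) :
    HallAlt π (restr M ({ω}ᶜ : Set Ω)) ∧ ∀ p : ℕ, p.Prime → p ∣ Nat.card Ω → p ∈ π := by
  classical
  have := htr
  have : Fintype Ω := Fintype.ofFinite Ω
  obtain ⟨hMA, hMπ, hMidx⟩ := hM
  have hne : Nonempty Ω := ⟨ω⟩
  let f : Perm ↥({ω}ᶜ : Set Ω) →* Perm Ω := Equiv.Perm.ofSubtype
  have hf : Function.Injective f := Equiv.Perm.ofSubtype_injective
  have hmem : ∀ x : Ω, x ∈ ({ω}ᶜ : Set Ω) ↔ x ≠ ω := fun x => by simp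
  -- `restr` is the preimage of `M` under extension by the identity
  have hrestr : restr M ({ω}ᶜ : Set Ω) = M.comap f := by
    ext σ
    rw [mem_restr, Subgroup.mem_comap]
    constructor
    · rintro ⟨h, hh, hσ⟩
      have hfh : f σ = h := by
        ext x
        by_cases hx : x ∈ ({ω}ᶜ : Set Ω)
        · have h1 := hσ ⟨x, hx⟩
          show Equiv.Perm.ofSubtype σ x = h x
          rw [Equiv.Perm.ofSubtype_apply_of_mem σ hx]
          exact h1.symm
        · show Equiv.Perm.ofSubtype σ x = h x
          rw [Equiv.Perm.ofSubtype_apply_of_not_mem σ hx]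
          by_contra hne'
          have hxω : x = ω := by
            by_contra hxω
            exact hx ((hmem x).mpr hxω)
          have hz : h x ∈ ({ω}ᶜ : Set Ω) := by
            rw [hmem]
            intro e
            apply hne'
            rw [e, hxω]
          obtain ⟨y, hy⟩ := σ.surjective ⟨h x, hz⟩
          have h1 := hσ y
          rw [hy] at h1
          have h2 : (y : Ω) = x := h.injective h1
          exact hx (h2 ▸ y.2)
      rw [hfh]
      exact hh
    · intro h
      exact ⟨f σ, h, fun y => Equiv.Perm.ofSubtype_apply_coe σ y⟩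
  -- the range of `f` is the stabiliser of `ω`
  have hrange : f.range = MulAction.stabilizer (Perm Ω) ω := by
    ext g
    rw [MonoidHom.mem_range, MulAction.mem_stabilizer_iff]
    constructor
    · rintro ⟨σ, rfl⟩
      show Equiv.Perm.ofSubtype σ ω = ω
      exact Equiv.Perm.ofSubtype_apply_of_not_mem σ (by simp)
    · intro hg
      have hg' : g ω = ω := hg
      have h1 : ∀ x, g x ∈ ({ω}ᶜ : Set Ω) ↔ x ∈ ({ω}ᶜ : Set Ω) := by
        intro x
        rw [hmem, hmem]
        constructor
        · intro hx e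
          apply hx
          rw [e, hg']
        · intro hx e
          apply hx
          apply g.injective
          rw [e, hg']
      refine ⟨g.subtypePerm h1, ?_⟩
      apply Equiv.Perm.ofSubtype_subtypePerm
      intro x hx
      rw [hmem]
      intro e
      apply hx
      rw [e, hg']
  -- the alternating groups
  have hA : altOf Ω = alternatingGroup Ω := altOf_eq Ω
  have hA' : altOf ↥({ω}ᶜ : Set Ω) = alternatingGroup ↥({ω}ᶜ : Set Ω) := altOf_eq _
  have hsign : ∀ σ : Perm ↥({ω}ᶜ : Set Ω), Equiv.Perm.sign (f σ) = Equiv.Perm.sign σ :=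
    fun σ => Equiv.Perm.sign_ofSubtype σ
  have hcomapA : altOf ↥({ω}ᶜ : Set Ω) = (altOf Ω).comap f := by
    rw [hA, hA']
    ext σ
    rw [Subgroup.mem_comap, Equiv.Perm.mem_alternatingGroup, Equiv.Perm.mem_alternatingGroup,
      hsign]
  have hmapA : (altOf ↥({ω}ᶜ : Set Ω)).map f =
      MulAction.stabilizer (Perm Ω) ω ⊓ altOf Ω := by
    rw [hcomapA, Subgroup.map_comap_eq, hrange]
  have hΩ : Nat.card Ω ∣ Nat.card M := by
    have h1 : (MulAction.stabilizer ↥M ω).index = Nat.card Ω :=
      MulAction.index_stabilizer_of_transitive ↥M ω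
    rw [← h1]
    exact Subgroup.index_dvd_card _
  have hcard_dvd : Nat.card (M.comap f) ∣ Nat.card M :=
    Subgroup.card_comap_dvd_of_injective M f hf
  -- relative index computation
  have hrel : (restr M ({ω}ᶜ : Set Ω)).relIndex (altOf ↥({ω}ᶜ : Set Ω)) =
      M.relIndex (altOf Ω) := by
    rw [hrestr, Subgroup.relIndex_comap, hmapA]
    have hAtr : MulAction.IsPretransitive ↥(altOf Ω) Ω := ⟨fun x y => by
      obtain ⟨m, hm⟩ := MulAction.exists_smul_eq ↥M x y
      exact ⟨⟨m.1, hMA m.2⟩, hm⟩⟩
    have h1 : (MulAction.stabilizer (Perm Ω) ω).relIndex (altOf Ω) = Nat.card Ω := by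
      have h5 : (MulAction.stabilizer (Perm Ω) ω).subgroupOf (altOf Ω) =
          MulAction.stabilizer ↥(altOf Ω) ω := by
        ext x
        rfl
      rw [Subgroup.relIndex, h5]
      exact MulAction.index_stabilizer_of_transitive ↥(altOf Ω) ω
    have h2 : (MulAction.stabilizer (Perm Ω) ω).relIndex M = Nat.card Ω := by
      have h5 : (MulAction.stabilizer (Perm Ω) ω).subgroupOf M = MulAction.stabilizer ↥M ω := by
        ext x
        rfl
      rw [Subgroup.relIndex, h5]
      exact MulAction.index_stabilizer_of_transitive ↥M ω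
    have hle : M ⊓ MulAction.stabilizer (Perm Ω) ω ≤
        MulAction.stabilizer (Perm Ω) ω ⊓ altOf Ω :=
      le_inf inf_le_right (inf_le_left.trans hMA)
    have e1 := Subgroup.relIndex_mul_relIndex (M ⊓ MulAction.stabilizer (Perm Ω) ω)
      (MulAction.stabilizer (Perm Ω) ω ⊓ altOf Ω) (altOf Ω) hle inf_le_right
    have e2 := Subgroup.relIndex_mul_relIndex (M ⊓ MulAction.stabilizer (Perm Ω) ω)
      M (altOf Ω) inf_le_left hMA
    rw [Subgroup.inf_relIndex_right, h1] at e1
    rw [Subgroup.inf_relIndex_left, h2] at e2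
    have e3 : (M ⊓ MulAction.stabilizer (Perm Ω) ω).relIndex
        (MulAction.stabilizer (Perm Ω) ω ⊓ altOf Ω) =
        M.relIndex (MulAction.stabilizer (Perm Ω) ω ⊓ altOf Ω) := by
      have e4 : M ⊓ (MulAction.stabilizer (Perm Ω) ω ⊓ altOf Ω) =
          M ⊓ MulAction.stabilizer (Perm Ω) ω := by
        apply le_antisymm
        · exact le_inf inf_le_left (inf_le_right.trans inf_le_left)
        · exact le_inf inf_le_left hle
      rw [← e4, Subgroup.inf_relIndex_right]
    rw [e3] at e1
    have hpos : 0 < Nat.card Ω := Nat.card_pos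
    have e5 : M.relIndex (MulAction.stabilizer (Perm Ω) ω ⊓ altOf Ω) * Nat.card Ω =
        M.relIndex (altOf Ω) * Nat.card Ω := by
      rw [e1, ← e2, mul_comm]
    exact Nat.eq_of_mul_eq_mul_right hpos e5
  refine ⟨⟨?_, ?_, ?_⟩, fun p hp hpΩ => hMπ p hp (hpΩ.trans hΩ)⟩
  · rw [hrestr, hcomapA]
    exact Subgroup.comap_mono hMA
  · intro p hp hpd
    rw [hrestr] at hpd
    exact hMπ p hp (hpd.trans hcard_dvd)
  · intro p hp hpπ
    rw [hrel]
    exact hMidx p hp hpπ

end Cfsg.Agent.Lib.Helper13.HA
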