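import Mathlib
import Cfsg.Prelude.Def_HallClasses
import Cfsg.Agent.Lib.Helper13.HSDefs
import Cfsg.Agent.Lib.Helper13.HADefs
import Cfsg.Agent.Lib.Helper13.HACycle

/-! Project HALL-ALT (S2535 / S2538), piece APRIM. Paper proofs: team note (topic S2538).
Auxiliary names in this file must start with `aprim_`. -/

set_option autoImplicit false

namespace Cfsg.Agent.Lib.Helper13.HA

open Equiv
open scoped Pointwise
open Cfsg.Agent.Lib.Helper13.HS

theorem hallAlt_prim_three {Ω : Type} [Finite Ω] (π : Set ℕ) (M : Subgroup (Perm Ω))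
    (hM : HallAlt π M) (hprim : MulAction.IsPreprimitive ↥M Ω) (h3 : (3 : ℕ) ∈ π)
    (hn : 4 ≤ Nat.card Ω) : ∀ r : ℕ, r.Prime → r ≤ Nat.card Ω → r ∈ π := by
  classical
  have := Fintype.ofFinite Ω
  intro r hr hrn
  obtain ⟨g, hgM, hgc, hgs⟩ := hallAlt_exists_cycle π M hM 3 1 Nat.prime_three (by norm_num) h3
    le_rfl (by rw [pow_one]; omega)
  have h3c : g.IsThreeCycle := _root_.card_support_eq_three_iff.1 (by rw [hgs, pow_one])
  have hle : alternatingGroup Ω ≤ M :=
    Equiv.Perm.alternatingGroup_le_of_isPreprimitive_of_isThreeCycle_mem hprim h3c hgM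
  apply hM.2.1 r hr
  have hdvd : Nat.card (alternatingGroup Ω) ∣ Nat.card M := Subgroup.card_dvd_of_le hle
  refine dvd_trans ?_ hdvd
  have : Nontrivial Ω := by
    rw [← Finite.one_lt_card_iff_nontrivial]
    omega
  have h2 : 2 * Nat.card (alternatingGroup Ω) = (Nat.card Ω).factorial := by
    rw [two_mul_nat_card_alternatingGroup, Nat.card_perm]
  have hrf : r ∣ (Nat.card Ω).factorial := (Nat.Prime.dvd_factorial hr).2 hrn
  rcases eq_or_ne r 2 with rfl | hr2
  · have h4 : 4 ∣ (Nat.card Ω).factorial :=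
      dvd_trans (by decide : 4 ∣ Nat.factorial 4) (Nat.factorial_dvd_factorial hn)
    rw [← h2] at h4
    have h4' : 2 * 2 ∣ 2 * Nat.card (alternatingGroup Ω) := h4
    exact (Nat.mul_dvd_mul_iff_left (by norm_num : 0 < 2)).1 h4'
  · rw [← h2] at hrf
    have hcop : Nat.Coprime r 2 := (Nat.coprime_primes hr Nat.prime_two).2 hr2
    exact hcop.dvd_of_dvd_mul_left hrf

end Cfsg.Agent.Lib.Helper13.HA
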