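import Mathlib
import Cfsg.Prelude.Def_HallClasses
import Cfsg.Agent.Lib.Helper13.HSDefs
import Cfsg.Agent.Lib.Helper13.HADefs

/-! Project HALL-ALT (S2535 / S2538), piece KLEIN. Paper proofs: team note (topic S2538).
Auxiliary names in this file must start with `klein_`. -/

set_option autoImplicit false

namespace Cfsg.Agent.Lib.Helper13.HA

open Equiv
open scoped Pointwise
open Cfsg.Agent.Lib.Helper13.HS

theorem klein_fix {Ω : Type} [Finite Ω] (hp : (Nat.card Ω).Prime) (hodd : Nat.card Ω ≠ 2)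
    (c : Perm Ω) (hc : orderOf c = Nat.card Ω) (t : Perm Ω) (ht2 : t * t = 1)
    (htc : t * c = c * t) : t = 1 := by
  classical
  have : Fintype Ω := Fintype.ofFinite Ω
  rw [Nat.card_eq_fintype_card] at hp hodd hc
  have hcyc : c.IsCycle := Equiv.Perm.isCycle_of_prime_order'' hp hc
  have hsupp : c.support = Finset.univ := by
    rw [← Finset.card_eq_iff_eq_univ, ← hcyc.orderOf, hc]
  have hmove : ∀ y, c y ≠ y := fun y =>
    Equiv.Perm.mem_support.mp (by rw [hsupp]; exact Finset.mem_univ y)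
  have : Fact (Nat.Prime 2) := ⟨Nat.prime_two⟩
  have h1 := Equiv.Perm.card_compl_support_modEq (p := 2) (n := 1) (σ := t)
    (by rw [pow_one, pow_two]; exact ht2)
  have hoddp : Fintype.card Ω % 2 = 1 := by
    rcases hp.eq_two_or_odd with h | h
    · exact absurd h hodd
    · exact h
  have h2 : t.supportᶜ.card ≠ 0 := by
    intro h0
    rw [h0] at h1
    unfold Nat.ModEq at h1
    omega
  obtain ⟨x, hx⟩ := Finset.card_pos.mp (Nat.pos_of_ne_zero h2)
  have hx' : t x = x := by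
    rw [Finset.mem_compl, Equiv.Perm.mem_support, not_not] at hx
    exact hx
  ext y
  obtain ⟨i, hi⟩ := hcyc.sameCycle (hmove x) (hmove y)
  have hcomm : t * c ^ i = c ^ i * t := (Commute.zpow_right (show Commute t c from htc) i).eq
  rw [← hi]
  have h3 : (t * c ^ i) x = (c ^ i * t) x := by rw [hcomm]
  rw [Equiv.Perm.mul_apply, Equiv.Perm.mul_apply, hx'] at h3
  rw [h3]
  rfl

theorem klein_invert {Ω : Type} [Finite Ω] (hp : (Nat.card Ω).Prime) (hodd : Nat.card Ω ≠ 2)
    (c : Perm Ω) (hc : orderOf c = Nat.card Ω) (t : Perm Ω) (ht1 : t ≠ 1) (ht2 : t * t = 1)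
    (ht : t * c * t⁻¹ ∈ Subgroup.zpowers c) : t * c * t⁻¹ = c⁻¹ := by
  obtain ⟨j, hj⟩ := Subgroup.mem_zpowers_iff.mp ht
  have h1 : t * (t * c * t⁻¹) * t⁻¹ = c := by
    calc t * (t * c * t⁻¹) * t⁻¹ = (t * t) * c * (t * t)⁻¹ := by group
      _ = c := by rw [ht2, one_mul, inv_one, mul_one]
  have h2 : c ^ (j * j) = c := by
    rw [zpow_mul, hj, conj_zpow, hj, h1]
  have h3 : c ^ (j * j - 1) = 1 := by rw [zpow_sub_one, h2, mul_inv_cancel]
  have h4 : ((Nat.card Ω : ℕ) : ℤ) ∣ (j - 1) * (j + 1) := by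
    rw [← hc, orderOf_dvd_iff_zpow_eq_one, show (j - 1) * (j + 1) = j * j - 1 by ring]
    exact h3
  rcases Int.Prime.dvd_mul' hp h4 with h5 | h5
  · exfalso
    rw [← hc, orderOf_dvd_iff_zpow_eq_one] at h5
    have h6 : c ^ j = c := by
      have h7 := zpow_sub_one c j
      rw [h5] at h7
      exact mul_inv_eq_one.mp h7.symm
    rw [h6] at hj
    have htc : t * c = c * t := by
      have h8 : c * t = t * c * t⁻¹ * t := by rw [← hj]
      rw [h8, inv_mul_cancel_right]
    exact ht1 (klein_fix hp hodd c hc t ht2 htc)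
  · rw [← hc, orderOf_dvd_iff_zpow_eq_one] at h5
    rw [← hj]
    have h7 := zpow_add_one c j
    rw [h5] at h7
    exact eq_inv_of_mul_eq_one_left h7.symm

theorem klein_normal_prime {Ω : Type} [Finite Ω] (D : Subgroup (Perm Ω))
    (hp : (Nat.card Ω).Prime) (hodd : Nat.card Ω ≠ 2) (hD : Nat.card D = Nat.card Ω)
    (g h : Perm Ω) (hg : ∀ d ∈ D, g * d * g⁻¹ ∈ D) (hh : ∀ d ∈ D, h * d * h⁻¹ ∈ D)
    (hg1 : g ≠ 1) (hh1 : h ≠ 1) (hgh : g ≠ h) (hg2 : g * g = 1) (hh2 : h * h = 1)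
    (hcomm : g * h = h * g) : False := by
  have hnt : Nontrivial D := Finite.one_lt_card_iff_nontrivial.mp (by rw [hD]; exact hp.one_lt)
  obtain ⟨⟨c, hcD⟩, hc1⟩ := exists_ne (1 : D)
  have hc1' : c ≠ 1 := fun h => hc1 (Subtype.ext h)
  have hco : orderOf c = Nat.card Ω := by
    have h1 : orderOf c ∣ Nat.card D := Subgroup.orderOf_dvd_natCard D hcD
    rw [hD] at h1
    rcases (Nat.dvd_prime hp).mp h1 with h | h
    · exact absurd (orderOf_eq_one_iff.mp h) hc1'
    · exact h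
  have hz : Subgroup.zpowers c = D := by
    apply Subgroup.eq_of_le_of_card_ge
    · rw [Subgroup.zpowers_le]
      exact hcD
    · rw [Nat.card_zpowers, hco, hD]
  have e1 := klein_invert hp hodd c hco g hg1 hg2 (hz ▸ hg c hcD)
  have e2 := klein_invert hp hodd c hco h hh1 hh2 (hz ▸ hh c hcD)
  have hgh1 : g * h ≠ 1 := by
    intro h1
    apply hgh
    have h3 : h⁻¹ = h := inv_eq_of_mul_eq_one_left hh2
    rw [← h3]
    exact eq_inv_of_mul_eq_one_left h1
  have hgh2 : (g * h) * (g * h) = 1 := by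
    calc g * h * (g * h) = g * (h * g) * h := by group
      _ = g * (g * h) * h := by rw [hcomm]
      _ = (g * g) * (h * h) := by group
      _ = 1 := by rw [hg2, hh2, one_mul]
  have hmem : g * h * c * (g * h)⁻¹ ∈ Subgroup.zpowers c := by
    rw [hz]
    have h3 := hg _ (hh c hcD)
    have h4 : g * h * c * (g * h)⁻¹ = g * (h * c * h⁻¹) * g⁻¹ := by group
    rw [h4]
    exact h3
  have e3 := klein_invert hp hodd c hco (g * h) hgh1 hgh2 hmem
  have e4 : g * h * c * (g * h)⁻¹ = c := by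
    calc g * h * c * (g * h)⁻¹ = g * (h * c * h⁻¹) * g⁻¹ := by group
      _ = g * c⁻¹ * g⁻¹ := by rw [e2]
      _ = (g * c * g⁻¹)⁻¹ := by group
      _ = c := by rw [e1, inv_inv]
  rw [e4] at e3
  have h5 : c ^ 2 = 1 := by
    rw [pow_two]
    nth_rewrite 2 [e3]
    exact mul_inv_cancel c
  have h6 := orderOf_dvd_of_pow_eq_one h5
  rw [hco] at h6
  exact hodd ((Nat.prime_dvd_prime_iff_eq hp Nat.prime_two).mp h6)

end Cfsg.Agent.Lib.Helper13.HA
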