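import Mathlib
import Cfsg.Prelude.Def_HallClasses
import Cfsg.Agent.Lib.Helper13.HSDefs
import Cfsg.Agent.Lib.Helper13.HADefs

/-! Project HALL-ALT (S2535 / S2538), piece SOLV. Paper proofs: team note (topic S2538).
Auxiliary names in this file must start with `solv_`. -/

set_option autoImplicit false

namespace Cfsg.Agent.Lib.Helper13.HA

open Equiv
open scoped Pointwise
open Cfsg.Agent.Lib.Helper13.HS

theorem solvable_prime_degree {Ω : Type} [Finite Ω] (G : Subgroup (Perm Ω))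
    (hp : (Nat.card Ω).Prime) (hsolv : IsSolvable ↥G) (htr : MulAction.IsPretransitive ↥G Ω) :
    ∃ D : Subgroup (Perm Ω), D ≤ G ∧ Nat.card D = Nat.card Ω ∧
      ∀ g ∈ G, ∀ d ∈ D, g * d * g⁻¹ ∈ D := by
  classical
  have hex : ∃ k, derivedSeries ↥G k = ⊥ := hsolv.solvable
  have hΩnt : Nontrivial Ω := Finite.one_lt_card_iff_nontrivial.mp hp.one_lt
  have hGnt : (⊤ : Subgroup ↥G) ≠ ⊥ := by
    intro h
    obtain ⟨x, y, hxy⟩ := hΩnt.exists_pair_ne
    obtain ⟨g, hg⟩ := MulAction.exists_smul_eq ↥G x y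
    have hg1 : g = 1 := by
      have h1 : g ∈ (⊤ : Subgroup ↥G) := Subgroup.mem_top g
      rw [h] at h1
      exact Subgroup.mem_bot.mp h1
    rw [hg1, one_smul] at hg
    exact hxy hg
  have hk0 : Nat.find hex ≠ 0 := by
    intro h0
    have h1 := Nat.find_spec hex
    rw [h0, derivedSeries_zero] at h1
    exact hGnt h1
  obtain ⟨m, hm⟩ := Nat.exists_eq_succ_of_ne_zero hk0
  have hm1 : derivedSeries ↥G m ≠ ⊥ := Nat.find_min hex (by rw [hm]; exact Nat.lt_succ_self m)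
  have hm2 : ⁅derivedSeries ↥G m, derivedSeries ↥G m⁆ = ⊥ := by
    have h1 := Nat.find_spec hex
    rw [hm, derivedSeries_succ] at h1
    exact h1
  obtain ⟨D0, hD0n, hD01, hD02⟩ : ∃ D0 : Subgroup ↥G, D0.Normal ∧ D0 ≠ ⊥ ∧ ⁅D0, D0⁆ = ⊥ :=
    ⟨derivedSeries ↥G m, derivedSeries_normal ↥G m, hm1, hm2⟩
  have hab : ∀ a ∈ D0, ∀ b ∈ D0, a * b = b * a := by
    intro a ha b hb
    have h1 : a * b * a⁻¹ * b⁻¹ ∈ ⁅D0, D0⁆ := Subgroup.commutator_mem_commutator ha hb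
    rw [hD02, Subgroup.mem_bot] at h1
    have h2 : a * b * a⁻¹ = b := mul_inv_eq_one.mp h1
    exact mul_inv_eq_iff_eq_mul.mp h2
  have hprim : MulAction.IsPreprimitive ↥G Ω := MulAction.IsPreprimitive.of_prime_card hp
  have hfix : MulAction.fixedPoints ↥D0 Ω ≠ Set.univ := by
    intro h
    apply hD01
    rw [Subgroup.eq_bot_iff_forall]
    intro d hd
    apply Subtype.ext
    ext x
    have hx : x ∈ MulAction.fixedPoints ↥D0 Ω := by rw [h]; exact Set.mem_univ x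
    exact hx ⟨d, hd⟩
  have htrD : MulAction.IsPretransitive ↥D0 Ω :=
    MulAction.IsQuasiPreprimitive.isPretransitive_of_normal hfix
  obtain ⟨x⟩ : Nonempty Ω := inferInstance
  have hreg : ∀ d ∈ D0, (d : Perm Ω) x = x → d = 1 := by
    intro d hd hdx
    apply Subtype.ext
    ext y
    obtain ⟨e, he⟩ := MulAction.exists_smul_eq ↥D0 x y
    have he' : ((e.1 : ↥G) : Perm Ω) x = y := he
    have hc := hab d hd e.1 e.2
    have hc' : (d : Perm Ω) * ((e.1 : ↥G) : Perm Ω) = ((e.1 : ↥G) : Perm Ω) * (d : Perm Ω) :=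
      congrArg Subtype.val hc
    rw [← he']
    have h3 : ((d : Perm Ω) * ((e.1 : ↥G) : Perm Ω)) x
        = (((e.1 : ↥G) : Perm Ω) * (d : Perm Ω)) x := by rw [hc']
    rw [Equiv.Perm.mul_apply, Equiv.Perm.mul_apply, hdx] at h3
    rw [h3]
    rfl
  have hbij : Function.Bijective (fun d : ↥D0 => ((d.1 : ↥G) : Perm Ω) x) := by
    constructor
    · intro d e hde
      have hde' : ((d.1 : ↥G) : Perm Ω) x = ((e.1 : ↥G) : Perm Ω) x := hde
      have h1 : (e⁻¹ * d).1 = 1 := hreg _ (e⁻¹ * d).2 (by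
        show (((e.1 : ↥G) : Perm Ω)⁻¹ * ((d.1 : ↥G) : Perm Ω)) x = x
        rw [Equiv.Perm.mul_apply, hde']
        simp)
      have h2 : e⁻¹ * d = 1 := Subtype.ext h1
      exact (inv_mul_eq_one.mp h2).symm
    · intro y
      obtain ⟨e, he⟩ := MulAction.exists_smul_eq ↥D0 x y
      exact ⟨e, he⟩
  have hcard : Nat.card ↥D0 = Nat.card Ω := Nat.card_eq_of_bijective _ hbij
  refine ⟨D0.map G.subtype, ?_, ?_, ?_⟩
  · rintro _ ⟨d, -, rfl⟩
    exact d.2
  · rw [← hcard]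
    exact Nat.card_congr (D0.equivMapOfInjective G.subtype G.subtype_injective).toEquiv.symm
  · rintro g hg _ ⟨d, hd, rfl⟩
    exact ⟨⟨g, hg⟩ * d * ⟨g, hg⟩⁻¹, hD0n.conj_mem d hd ⟨g, hg⟩, rfl⟩

end Cfsg.Agent.Lib.Helper13.HA
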