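import Mathlib
import Cfsg.Prelude.Def_HallClasses
import Cfsg.Agent.Lib.Helper13.HSDefs
import Cfsg.Agent.Lib.Helper13.HADefs

/-! Project HALL-ALT (S2535 / S2538), piece VIER. Paper proofs: team note (topic S2538).
Auxiliary names in this file must start with `vier_`. -/

set_option autoImplicit false

namespace Cfsg.Agent.Lib.Helper13.HA

open Equiv
open scoped Pointwise
open Cfsg.Agent.Lib.Helper13.HS

/-- a Klein four-group of even permutations of four points -/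
theorem vier_fin4 :
    ∃ u v : Perm (Fin 4), u ≠ 1 ∧ v ≠ 1 ∧ u ≠ v ∧ u * u = 1 ∧ v * v = 1 ∧ u * v = v * u ∧
      Equiv.Perm.sign u = 1 ∧ Equiv.Perm.sign v = 1 := by
  refine ⟨swap 0 1 * swap 2 3, swap 0 2 * swap 1 3, by decide, by decide, by decide, by decide,
    by decide, by decide, ?_, ?_⟩
  · rw [Equiv.Perm.sign_mul, Equiv.Perm.sign_swap (by decide), Equiv.Perm.sign_swap (by decide)]
    decide
  · rw [Equiv.Perm.sign_mul, Equiv.Perm.sign_swap (by decide), Equiv.Perm.sign_swap (by decide)]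
    decide

/-- a `2`-subgroup `V` of `A` is conjugate in `A` into any subgroup of odd index of `A` -/
theorem vier_conj {G : Type*} [Group G] [Finite G] (A M V : Subgroup G)
    (hVA : V ≤ A) (hV : IsPGroup 2 V) (hodd : ¬ 2 ∣ M.relIndex A) :
    ∃ x : G, ∀ w ∈ V, x⁻¹ * w * x ∈ M := by
  have : Fact (Nat.Prime 2) := ⟨Nat.prime_two⟩
  have hVp' : IsPGroup 2 (V.subgroupOf A) := hV.comap_subtype
  have hcardq : ¬ 2 ∣ Nat.card (↥A ⧸ M.subgroupOf A) := by
    rw [← Subgroup.index_eq_card]; exact hodd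
  obtain ⟨q, hq⟩ := hVp'.nonempty_fixed_point_of_prime_not_dvd_card (↥A ⧸ M.subgroupOf A) hcardq
  obtain ⟨x, rfl⟩ := QuotientGroup.mk_surjective q
  refine ⟨(x : G), fun w hw => ?_⟩
  have hwA : w ∈ A := hVA hw
  have h1 := hq ⟨⟨w, hwA⟩, Subgroup.mem_subgroupOf.2 hw⟩
  have h2 : (((⟨w, hwA⟩ : ↥A) * x : ↥A) : ↥A ⧸ M.subgroupOf A) =
      (x : ↥A ⧸ M.subgroupOf A) := h1
  rw [QuotientGroup.eq, Subgroup.mem_subgroupOf] at h2
  have h3 := M.inv_mem h2
  have e : (((((⟨w, hwA⟩ : ↥A) * x)⁻¹ * x : ↥A) : G))⁻¹ = (x : G)⁻¹ * w * x := by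
    rw [Subgroup.coe_mul, Subgroup.coe_inv, Subgroup.coe_mul]
    group
  rw [e] at h3
  exact h3

theorem hallAlt_klein {Ω : Type} [Finite Ω] (π : Set ℕ) (M : Subgroup (Perm Ω))
    (hM : HallAlt π M) (h2 : (2 : ℕ) ∈ π) (hn : 4 ≤ Nat.card Ω) :
    ∃ g h : Perm Ω, g ∈ M ∧ h ∈ M ∧ g ≠ 1 ∧ h ≠ 1 ∧ g ≠ h ∧ g * g = 1 ∧ h * h = 1 ∧
      g * h = h * g := by
  classical
  have : Fintype Ω := Fintype.ofFinite Ω
  obtain ⟨hMA, -, hidx⟩ := hM
  have hodd : ¬ 2 ∣ M.relIndex (altOf Ω) := hidx 2 Nat.prime_two h2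
  have hcard : Fintype.card (Fin 4) ≤ Fintype.card Ω := by
    rw [Fintype.card_fin, ← Nat.card_eq_fintype_card]; exact hn
  obtain ⟨emb⟩ := Function.Embedding.nonempty_of_card_le hcard
  obtain ⟨φ, hφinj, hφsign⟩ : ∃ φ : Perm (Fin 4) →* Perm Ω, Function.Injective φ ∧
      ∀ e, Equiv.Perm.sign (φ e) = Equiv.Perm.sign e :=
    ⟨Equiv.Perm.extendDomainHom (Equiv.ofInjective emb emb.injective),
      Equiv.Perm.extendDomainHom_injective _, fun e => Equiv.Perm.sign_extendDomain e _⟩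
  obtain ⟨u₀, v₀, hu1, hv1, huv, hu2, hv2, hc, hsu, hsv⟩ := vier_fin4
  obtain ⟨u, hu⟩ : ∃ u, u = φ u₀ := ⟨_, rfl⟩
  obtain ⟨v, hv⟩ : ∃ v, v = φ v₀ := ⟨_, rfl⟩
  have hu1' : u ≠ 1 := by
    rw [hu]; intro h; exact hu1 (hφinj (h.trans (map_one φ).symm))
  have hv1' : v ≠ 1 := by
    rw [hv]; intro h; exact hv1 (hφinj (h.trans (map_one φ).symm))
  have huv' : u ≠ v := by
    rw [hu, hv]; intro h; exact huv (hφinj h)
  have huu : u * u = 1 := by rw [hu, ← map_mul, hu2, map_one]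
  have hvv : v * v = 1 := by rw [hv, ← map_mul, hv2, map_one]
  have huvc : u * v = v * u := by rw [hu, hv, ← map_mul, ← map_mul, hc]
  have huA : u ∈ altOf Ω := by
    rw [altOf_eq, Equiv.Perm.mem_alternatingGroup, hu, hφsign, hsu]
  have hvA : v ∈ altOf Ω := by
    rw [altOf_eq, Equiv.Perm.mem_alternatingGroup, hv, hφsign, hsv]
  -- the four-group
  have hpow : ∀ w : Perm Ω, w * w = 1 → IsPGroup 2 (Subgroup.zpowers w) := by
    intro w hw
    rintro ⟨x, hx⟩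
    refine ⟨1, ?_⟩
    obtain ⟨k, rfl⟩ := Subgroup.mem_zpowers_iff.1 hx
    apply Subtype.ext
    show (w ^ k) ^ 2 ^ 1 = 1
    rw [pow_one, ← zpow_natCast, ← zpow_mul, mul_comm, zpow_mul, zpow_natCast, pow_two, hw,
      one_zpow]
  have hcomm : ∀ k : ℤ, u * v ^ k * u⁻¹ = v ^ k := by
    intro k
    have h1 : Commute u (v ^ k) := (show Commute u v from huvc).zpow_right k
    rw [h1.eq, mul_inv_cancel_right]
  have hnorm : Subgroup.zpowers u ≤ Subgroup.normalizer (Subgroup.zpowers v : Set (Perm Ω)) := by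
    rw [Subgroup.zpowers_le, Subgroup.mem_normalizer_iff]
    intro h
    constructor
    · intro hh
      obtain ⟨k, rfl⟩ := Subgroup.mem_zpowers_iff.1 hh
      rw [hcomm]
      exact Subgroup.zpow_mem_zpowers v k
    · intro hh
      obtain ⟨k, hk⟩ := Subgroup.mem_zpowers_iff.1 hh
      have e : h = v ^ k := by
        have e1 : h = u⁻¹ * (u * h * u⁻¹) * u := by group
        rw [e1, ← hk]
        have h3 := hcomm k
        calc u⁻¹ * v ^ k * u = u⁻¹ * (u * v ^ k * u⁻¹) * u := by rw [h3]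
          _ = v ^ k := by group
      rw [e]
      exact Subgroup.zpow_mem_zpowers v k
  have hVp : IsPGroup 2 (Subgroup.zpowers u ⊔ Subgroup.zpowers v : Subgroup (Perm Ω)) :=
    IsPGroup.to_sup_of_normal_right' (hpow u huu) (hpow v hvv) hnorm
  have hVA : Subgroup.zpowers u ⊔ Subgroup.zpowers v ≤ altOf Ω :=
    sup_le (Subgroup.zpowers_le.2 huA) (Subgroup.zpowers_le.2 hvA)
  obtain ⟨x, hx⟩ := vier_conj (altOf Ω) M _ hVA hVp hodd
  have hgu := hx u (Subgroup.mem_sup_left (Subgroup.mem_zpowers u))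
  have hgv := hx v (Subgroup.mem_sup_right (Subgroup.mem_zpowers v))
  refine ⟨x⁻¹ * u * x, x⁻¹ * v * x, hgu, hgv, ?_, ?_, ?_, ?_, ?_, ?_⟩
  · intro h
    apply hu1'
    calc u = x * (x⁻¹ * u * x) * x⁻¹ := by group
      _ = 1 := by rw [h]; group
  · intro h
    apply hv1'
    calc v = x * (x⁻¹ * v * x) * x⁻¹ := by group
      _ = 1 := by rw [h]; group
  · intro h
    apply huv'
    calc u = x * (x⁻¹ * u * x) * x⁻¹ := by group
      _ = x * (x⁻¹ * v * x) * x⁻¹ := by rw [h]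
      _ = v := by group
  · calc x⁻¹ * u * x * (x⁻¹ * u * x) = x⁻¹ * (u * u) * x := by group
      _ = 1 := by rw [huu]; group
  · calc x⁻¹ * v * x * (x⁻¹ * v * x) = x⁻¹ * (v * v) * x := by group
      _ = 1 := by rw [hvv]; group
  · calc x⁻¹ * u * x * (x⁻¹ * v * x) = x⁻¹ * (u * v) * x := by group
      _ = x⁻¹ * (v * u) * x := by rw [huvc]
      _ = x⁻¹ * v * x * (x⁻¹ * u * x) := by group

end Cfsg.Agent.Lib.Helper13.HA
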