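import Mathlib
import Cfsg.Prelude.Def_HallClasses
import Cfsg.Agent.Lib.Helper13.HSDefs
import Cfsg.Agent.Lib.Helper13.HADefs
import Cfsg.Agent.Lib.Helper13.HASolv
import Cfsg.Agent.Lib.Helper13.HAKlein
import Cfsg.Agent.Lib.Helper13.HAVier
import Cfsg.Agent.S0144

/-! Project HALL-ALT (S2535 / S2538), piece PRIMEDEG. Paper proofs: team note (topic S2538).
Auxiliary names in this file must start with `primedeg_`. -/

set_option autoImplicit false

namespace Cfsg.Agent.Lib.Helper13.HA

open Equiv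
open scoped Pointwise
open Cfsg.Agent.Lib.Helper13.HS

/-- a nonzero number whose prime divisors are among `p`, `q` is `p ^ a * q ^ b` -/
theorem primedeg_two_primes (N p q : ℕ) (hN : N ≠ 0) (hpq : p ≠ q)
    (h : ∀ r : ℕ, r.Prime → r ∣ N → r = p ∨ r = q) :
    N = p ^ N.factorization p * q ^ N.factorization q := by
  have h1 := Nat.prod_factorization_pow_eq_self hN
  have hsub : N.factorization.support ⊆ {p, q} := by
    intro r hr
    rw [Nat.support_factorization, Nat.mem_primeFactors] at hr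
    rcases h r hr.1 hr.2.1 with rfl | rfl <;> simp
  rw [Finsupp.prod_of_support_subset _ hsub _ (by intro i _; exact pow_zero i),
    Finset.prod_pair hpq] at h1
  exact h1.symm

theorem hallAlt_prime_degree {Ω : Type} [Finite Ω] (π : Set ℕ) (M : Subgroup (Perm Ω))
    (hM : HallAlt π M) (htr : MulAction.IsPretransitive ↥M Ω) (hp : (Nat.card Ω).Prime)
    (h5 : 5 ≤ Nat.card Ω) (h2 : (2 : ℕ) ∈ π)
    (honly : ∀ r : ℕ, r.Prime → r ∈ π → r < Nat.card Ω → r = 2) : False := by
  classical
  have hdvd : Nat.card M ∣ (Nat.card Ω).factorial := by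
    have h1 := Subgroup.card_subgroup_dvd_card M
    rwa [Nat.card_perm] at h1
  have hprimes : ∀ r : ℕ, r.Prime → r ∣ Nat.card M → r = 2 ∨ r = Nat.card Ω := by
    intro r hr hrM
    have hrπ := hM.2.1 r hr hrM
    have hle : r ≤ Nat.card Ω := (Nat.Prime.dvd_factorial hr).mp (hrM.trans hdvd)
    rcases Nat.lt_or_ge r (Nat.card Ω) with hlt | hge
    · exact Or.inl (honly r hr hrπ hlt)
    · exact Or.inr (le_antisymm hle hge)
  have hne : (2 : ℕ) ≠ Nat.card Ω := by omega
  have hcard := primedeg_two_primes (Nat.card M) 2 (Nat.card Ω) Nat.card_pos.ne' hne hprimes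
  have hsolv := Cfsg.Agent.S0144.result (G := ↥M) 2 (Nat.card Ω) _ _ Nat.prime_two hp hcard
  obtain ⟨D, -, hD, hnorm⟩ := solvable_prime_degree M hp hsolv htr
  obtain ⟨g, h, hg, hh, hg1, hh1, hgh, hg2, hh2, hcomm⟩ :=
    hallAlt_klein π M hM h2 (by omega)
  exact klein_normal_prime D hp (by omega) hD g h (hnorm g hg) (hnorm h hh) hg1 hh1 hgh hg2 hh2
    hcomm

end Cfsg.Agent.Lib.Helper13.HA
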