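import Mathlib
import Cfsg.Prelude.Def_HallClasses
import Cfsg.Agent.Lib.Helper13.HSDefs
import Cfsg.Agent.Lib.Helper13.HADefs
import Cfsg.Agent.Lib.Helper13.HACycle
import Cfsg.Agent.Lib.Helper13.HAPoint
import Cfsg.Agent.Lib.Helper13.HAPrim
import Cfsg.Agent.Lib.Helper13.HAPrimeDeg
import Cfsg.Agent.Lib.Helper13.HAArith
import Cfsg.Agent.Lib.Helper13.HABlock
import Cfsg.Agent.Lib.Helper13.HAChoose

/-! Project HALL-ALT (S2535 / S2538), piece ATRANS. Paper proofs: team note (topic S2538).
Auxiliary names in this file must start with `atrans_`. -/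

set_option autoImplicit false

namespace Cfsg.Agent.Lib.Helper13.HA

open Equiv
open scoped Pointwise
open Cfsg.Agent.Lib.Helper13.HS

theorem transA_step {Ω : Type} [Finite Ω] (π : Set ℕ) (M : Subgroup (Perm Ω))
    (hM : HallAlt π M) (h2 : (2 : ℕ) ∈ π) (htr : MulAction.IsPretransitive ↥M Ω)
    (hA1 : A1 π (Nat.card Ω)) (hA2 : A2 π (Nat.card Ω))
    (hC : ∀ (Ω' : Type) [Finite Ω'] (Y : Subgroup (Perm Ω')), Nat.card Ω' < Nat.card Ω →
      HallAlt π Y → A1 π (Nat.card Ω') → A2 π (Nat.card Ω') →
      ((Cc π (Nat.card Ω') ∧ ∃ ω : Ω', ∀ y ∈ Y, y ω = ω) ∨ Cd π (Nat.card Ω'))) :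
    Nat.card Ω = 8 ∧ Cd π 8 := by
  classical
  haveI : Fintype Ω := Fintype.ofFinite Ω
  obtain ⟨r, s, hr, hs, hrs, hrπ, hsπ, hrm, hsm⟩ := hA1
  obtain ⟨t, ht, htm, htπ⟩ := hA2
  have hr2 := hr.two_le
  have hs2 := hs.two_le
  have ht2 := ht.two_le
  have hm5 : 5 ≤ Nat.card Ω := by
    have htr' : t ≠ r := fun h => htπ (h ▸ hrπ)
    have hts' : t ≠ s := fun h => htπ (h ▸ hsπ)
    by_contra hcon
    have hr4 : r ≠ 4 := fun h => by rw [h] at hr; exact absurd hr (by norm_num)
    have hs4 : s ≠ 4 := fun h => by rw [h] at hs; exact absurd hs (by norm_num)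
    have ht4 : t ≠ 4 := fun h => by rw [h] at ht; exact absurd ht (by norm_num)
    omega
  have hne : Nonempty Ω := (Nat.card_pos_iff.mp (by omega)).1
  obtain ⟨ω⟩ := hne
  obtain ⟨hY, hdiv⟩ := hallAlt_point_stab π M hM (by omega) htr ω
  have hcardY : Nat.card ↥({ω}ᶜ : Set Ω) = Nat.card Ω - 1 := by
    rw [Nat.card_coe_set_eq, Set.ncard_compl, Set.ncard_singleton]
  have hcycle : ∀ q : ℕ, q.Prime → q ≠ 2 → q ∈ π → q ≤ Nat.card Ω →
      ∃ g ∈ M, g.IsCycle ∧ g.support.card = q := by
    intro q hq hq2 hqπ hqm
    have h := hallAlt_exists_cycle π M hM q 1 hq hq2 hqπ le_rfl (by rw [pow_one]; exact hqm)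
    rw [pow_one] at h
    exact h
  by_cases hA2' : A2 π (Nat.card Ω - 1)
  · by_cases hA1' : A1 π (Nat.card Ω - 1)
    · -- (c)
      rcases hC ↥({ω}ᶜ : Set Ω) (restr M ({ω}ᶜ : Set Ω)) (by rw [hcardY]; omega) hY
        (by rw [hcardY]; exact hA1') (by rw [hcardY]; exact hA2') with
        ⟨⟨hpr, hiff⟩, _⟩ | ⟨h78, hiff⟩
      · -- Cc π (m - 1)
        exfalso
        rw [hcardY] at hpr hiff
        obtain ⟨r', s', hr', hs', hrs', hr'π, hs'π, hr'p, hs'p⟩ := hA1'
        have hr'lt : r' < Nat.card Ω - 1 := (hiff r' hr' hr'p).mp hr'π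
        have hs'lt : s' < Nat.card Ω - 1 := (hiff s' hs' hs'p).mp hs'π
        have hr'2 := hr'.two_le
        have hs'2 := hs'.two_le
        have hp5 : 5 ≤ Nat.card Ω - 1 := by
          rcases Nat.lt_or_ge (Nat.card Ω - 1) 5 with h | h
          · have h4 : Nat.card Ω - 1 = 4 := by omega
            rw [h4] at hpr
            exact absurd hpr (by norm_num)
          · exact h
        have h3π : (3 : ℕ) ∈ π := (hiff 3 Nat.prime_three (by omega)).mpr (by omega)
        have hpπ : (Nat.card Ω - 1) ∉ π := fun h => by
          have := (hiff (Nat.card Ω - 1) hpr le_rfl).mp h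
          omega
        by_cases hprim : MulAction.IsPreprimitive ↥M Ω
        · exact hpπ (hallAlt_prim_three π M hM hprim h3π (by omega) (Nat.card Ω - 1) hpr
            (by omega))
        · obtain ⟨B, hωB, hBblock, hB1, hBlt, hBdvd, hBcyc⟩ := block_cycle_set M htr hprim ω
          obtain ⟨s0, hs0card, hs0inv⟩ := block_point_invariant M ω B hωB hBblock
          have h2a : 2 * B.ncard ≤ Nat.card Ω := by
            obtain ⟨d, hd⟩ := hBdvd
            have hd2 : 2 ≤ d := by
              by_contra hcon
              have h01 : d = 0 ∨ d = 1 := by omega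
              rcases h01 with h | h
              · rw [h] at hd; omega
              · rw [h] at hd; omega
            calc 2 * B.ncard = B.ncard * 2 := by ring
              _ ≤ B.ncard * d := Nat.mul_le_mul_left _ hd2
              _ = Nat.card Ω := hd.symm
          rcases Nat.lt_or_ge B.ncard 3 with ha3 | ha3
          · have ha2 : B.ncard = 2 := by omega
            obtain ⟨g, hg, hgc, hgs⟩ := hcycle 3 Nat.prime_three (by norm_num) h3π (by omega)
            rcases hBcyc g hg hgc 3 1 Nat.prime_three (by rw [pow_one]; exact hgs) with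
              ⟨j, hj⟩ | hle
            · rw [ha2] at hj
              rcases j with _ | j
              · simp at hj
              · have h3 : 3 ∣ 2 := by
                  rw [hj]
                  exact dvd_pow_self 3 (by omega)
                omega
            · rw [pow_one] at hle
              omega
          · obtain ⟨r0, hr0, hr0lt, hr0dvd⟩ := choose_prime_factor (Nat.card Ω - 1)
              (B.ncard - 1) hpr (by omega) (by omega)
            have hr0π : r0 ∈ π := (hiff r0 hr0 (by omega)).mpr hr0lt
            have hch := hallAlt_choose π (restr M ({ω}ᶜ : Set Ω)) s0 hY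
              (by rw [hcardY]; omega) hs0inv r0 hr0 hr0π
            have hs0 : s0.ncard = B.ncard - 1 := by omega
            rw [hcardY, hs0] at hch
            exact hch hr0dvd
      · -- Cd π (m - 1)
        rw [hcardY] at h78 hiff
        rcases h78 with h7 | h8
        · have hm8 : Nat.card Ω = 8 := by omega
          refine ⟨hm8, Or.inr rfl, ?_⟩
          intro r0 hr0 hr0le
          have hr07 : r0 ≤ 7 := by
            rcases Nat.lt_or_ge r0 8 with h | h
            · omega
            · have h8' : r0 = 8 := by omega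
              rw [h8'] at hr0
              exact absurd hr0 (by norm_num)
          exact hiff r0 hr0 (by omega)
        · exfalso
          have hm9 : Nat.card Ω = 9 := by omega
          have h3π : (3 : ℕ) ∈ π := (hiff 3 Nat.prime_three (by omega)).mpr (Or.inr rfl)
          have h5π : (5 : ℕ) ∉ π := fun h => by
            have := (hiff 5 (by norm_num) (by omega)).mp h
            omega
          by_cases hprim : MulAction.IsPreprimitive ↥M Ω
          · exact h5π (hallAlt_prim_three π M hM hprim h3π (by omega) 5 (by norm_num)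
              (by omega))
          · obtain ⟨B, hωB, hBblock, hB1, hBlt, hBdvd, hBcyc⟩ := block_cycle_set M htr hprim ω
            obtain ⟨s0, hs0card, hs0inv⟩ := block_point_invariant M ω B hωB hBblock
            have ha3 : B.ncard = 3 := by
              rw [hm9] at hBdvd hBlt
              obtain ⟨a, ha⟩ : ∃ a, a = B.ncard := ⟨_, rfl⟩
              rw [← ha] at hBdvd hBlt hB1 ⊢
              interval_cases a <;> omega
            have hs0 : s0.ncard = 2 := by omega
            have hch := hallAlt_choose π (restr M ({ω}ᶜ : Set Ω)) s0 hY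
              (by rw [hcardY]; omega) hs0inv 2 Nat.prime_two h2
            rw [hcardY, hs0, hm9] at hch
            exact hch (by decide)
    · -- (b)
      exfalso
      have honly : ∀ r0 : ℕ, r0.Prime → r0 ∈ π → r0 < Nat.card Ω → r0 = 2 := by
        intro r0 hr0 hr0π hr0m
        by_contra hne
        exact hA1' ⟨2, r0, Nat.prime_two, hr0, fun h => hne h.symm, h2, hr0π, by omega,
          by omega⟩
      have hmprime : (Nat.card Ω).Prime := by
        by_cases hrm' : r = Nat.card Ω
        · rw [← hrm']
          exact hr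
        · by_cases hsm' : s = Nat.card Ω
          · rw [← hsm']
            exact hs
          · exfalso
            exact hA1' ⟨r, s, hr, hs, hrs, hrπ, hsπ, by omega, by omega⟩
      exact hallAlt_prime_degree π M hM htr hmprime hm5 h2 honly
  · -- (a)
    exfalso
    have htm' : t = Nat.card Ω := by
      by_contra hne
      exact hA2' ⟨t, ht, by omega, htπ⟩
    exact htπ (hdiv t ht (by rw [htm']))

end Cfsg.Agent.Lib.Helper13.HA
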