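import Mathlib
import Cfsg.Prelude.Def_HallClasses
import Cfsg.Agent.Lib.Helper13.HSDefs
import Cfsg.Agent.Lib.Helper13.HADefs
import Cfsg.Agent.Lib.Helper13.HSMain
import Cfsg.Agent.Lib.Helper13.HATrans
import Cfsg.Agent.Lib.Helper13.HAIntrans
import Cfsg.Agent.Lib.Helper13.HAOdd
import Cfsg.Agent.Lib.Helper13.HAFixed
import Cfsg.Agent.Lib.Helper13.HARestr
import Cfsg.Agent.Lib.Helper13.HAChoose
import Cfsg.Agent.Lib.Helper13.HACycle

/-! Project HALL-ALT (S2535 / S2538), piece AMAIN. Paper proofs: team note (topic S2538).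
Auxiliary names in this file must start with `amain_`. -/

set_option autoImplicit false

namespace Cfsg.Agent.Lib.Helper13.HA

open Equiv
open scoped Pointwise
open Cfsg.Agent.Lib.Helper13.HS

theorem classifyA (π : Set ℕ) : ∀ (N : ℕ) (Ω : Type) [Finite Ω] (M : Subgroup (Perm Ω)),
    Nat.card Ω = N → HallAlt π M → A1 π N → A2 π N →
    ((Cc π N ∧ ∃ ω : Ω, ∀ h ∈ M, h ω = ω) ∨ Cd π N) := by
  intro N
  induction N using Nat.strong_induction_on with
  | _ N ih =>
    intro Ω _ M hN hM hA1 hA2
    subst hN
    by_cases h2 : (2 : ℕ) ∈ π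
    swap
    · exact classify π (Nat.card Ω) Ω M rfl (hallAlt_odd π M hM h2) hA1 hA2
    have hC : ∀ (Ω' : Type) [Finite Ω'] (Y : Subgroup (Perm Ω')), Nat.card Ω' < Nat.card Ω →
        HallAlt π Y → A1 π (Nat.card Ω') → A2 π (Nat.card Ω') →
        ((Cc π (Nat.card Ω') ∧ ∃ ω : Ω', ∀ y ∈ Y, y ω = ω) ∨ Cd π (Nat.card Ω')) :=
      fun Ω' _ Y hlt hY h1 h2 => ih (Nat.card Ω') hlt Ω' Y rfl hY h1 h2
    classical
    haveI : Fintype Ω := Fintype.ofFinite Ω
    have hn5 : 5 ≤ Nat.card Ω := by
      obtain ⟨r, s, hr, hs, hrs, hrπ, hsπ, hrm, hsm⟩ := hA1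
      obtain ⟨t, ht, htm, htπ⟩ := hA2
      have hr2 := hr.two_le
      have hs2 := hs.two_le
      have ht2 := ht.two_le
      have htr' : t ≠ r := fun h => htπ (h ▸ hrπ)
      have hts' : t ≠ s := fun h => htπ (h ▸ hsπ)
      by_contra hcon
      have hr4 : r ≠ 4 := fun h => by rw [h] at hr; exact absurd hr (by norm_num)
      have hs4 : s ≠ 4 := fun h => by rw [h] at hs; exact absurd hs (by norm_num)
      have ht4 : t ≠ 4 := fun h => by rw [h] at ht; exact absurd ht (by norm_num)
      omega
    by_cases hfix : ∃ ω : Ω, ∀ h ∈ M, h ω = ω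
    · obtain ⟨ω, hω⟩ := hfix
      have hY := hallAlt_restr_fixed π M ω hM hω
      have hcardY : Nat.card ↥({ω}ᶜ : Set Ω) = Nat.card Ω - 1 := by
        rw [Nat.card_coe_set_eq, Set.ncard_compl, Set.ncard_singleton]
      have hsinv : ∀ h ∈ M, ∀ x ∈ ({ω} : Set Ω), h x ∈ ({ω} : Set Ω) := by
        intro h hh x hx
        rw [Set.mem_singleton_iff] at hx ⊢
        rw [hx]
        exact hω h hh
      have hndvd : ∀ p : ℕ, p.Prime → p ∈ π → ¬ p ∣ Nat.card Ω := by
        intro p hp hpπ
        have h1 := hallAlt_choose π M {ω} hM (by omega) hsinv p hp hpπ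
        rw [Set.ncard_singleton, Nat.choose_one_right] at h1
        exact h1
      obtain ⟨r, s, hr, hs, hrs, hrπ, hsπ, hrn, hsn⟩ := hA1
      obtain ⟨t, ht, htn, htπ⟩ := hA2
      by_cases hA2' : A2 π (Nat.card Ω - 1)
      · by_cases hA1' : A1 π (Nat.card Ω - 1)
        · exfalso
          rcases hC ↥({ω}ᶜ : Set Ω) (restr M ({ω}ᶜ : Set Ω)) (by rw [hcardY]; omega) hY
            (by rw [hcardY]; exact hA1') (by rw [hcardY]; exact hA2') with
            ⟨⟨hpr, hiff⟩, _⟩ | ⟨h78, hiff⟩
          · rw [hcardY] at hpr hiff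
            have hodd : (Nat.card Ω - 1) % 2 = 1 := by
              rcases hpr.eq_two_or_odd with h | h
              · omega
              · exact h
            exact hndvd 2 Nat.prime_two h2 (by omega)
          · rw [hcardY] at h78 hiff
            rcases h78 with h7 | h8
            · exact hndvd 2 Nat.prime_two h2 (by omega)
            · have h3π : (3 : ℕ) ∈ π := (hiff 3 Nat.prime_three (by omega)).mpr (Or.inr rfl)
              exact hndvd 3 Nat.prime_three h3π (by omega)
        · exfalso
          by_cases hrn' : r = Nat.card Ω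
          · exact hndvd r hr hrπ (by rw [hrn'])
          · by_cases hsn' : s = Nat.card Ω
            · exact hndvd s hs hsπ (by rw [hsn'])
            · exact hA1' ⟨r, s, hr, hs, hrs, hrπ, hsπ, by omega, by omega⟩
      · left
        have htn' : t = Nat.card Ω := by
          by_contra hne
          exact hA2' ⟨t, ht, by omega, htπ⟩
        have hnprime : (Nat.card Ω).Prime := by
          rw [← htn']
          exact ht
        refine ⟨⟨hnprime, ?_⟩, ω, hω⟩
        intro r0 hr0 hr0n
        constructor
        · intro hr0π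
          rcases Nat.lt_or_ge r0 (Nat.card Ω) with h | h
          · exact h
          · exfalso
            have h1 : r0 = t := by omega
            rw [h1] at hr0π
            exact htπ hr0π
        · intro hlt
          by_contra hcon
          exact hA2' ⟨r0, hr0, by omega, hcon⟩
    · by_cases htr : MulAction.IsPretransitive ↥M Ω
      · obtain ⟨h8, hd⟩ := transA_step π M hM h2 htr hA1 hA2 hC
        right
        rw [h8]
        exact hd
      · right
        push Not at hfix
        refine intrans_core π M ?_ ?_ ?_ hfix htr hA1 hA2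
        · intro q hq hqπ hq2 hqn
          obtain ⟨c, hc, hcyc, hcs⟩ := hallAlt_exists_cycle π M hM q 1 hq hq2 hqπ le_rfl
            (by rw [pow_one]; exact hqn)
          refine ⟨c, hc, hcyc, ?_⟩
          rw [pow_one] at hcs
          rw [← hcs, ← Set.ncard_coe_finset]
          congr 1
          ext x
          simp
        · intro s hs hc
          exact hallAlt_restr π M s hM hs hc
        · intro s hs p hp hpπ
          exact hallAlt_choose π M s hM (by omega) hs p hp hpπ

end Cfsg.Agent.Lib.Helper13.HA
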