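import Mathlib
import Cfsg.Prelude.Def_HallClasses
import Cfsg.Agent.Lib.Helper13.HSDefs
import Cfsg.Agent.Lib.Helper13.HADefs
import Cfsg.Agent.Lib.Helper13.HSMain
import Cfsg.Agent.Lib.Helper13.HAMain
import Cfsg.Agent.Lib.Helper13.HAFixed
import Cfsg.Agent.Lib.Helper13.HAChoose

/-! Project HALL-ALT (S2535 / S2538), piece STRUCT7. Paper proofs: team note (topic S2538).
Auxiliary names in this file must start with `struct7_`. -/

set_option autoImplicit false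

namespace Cfsg.Agent.Lib.Helper13.HA

open Equiv
open scoped Pointwise
open Cfsg.Agent.Lib.Helper13.HS

theorem struct7_compl_inv {Ω : Type*} (H : Subgroup (Perm Ω)) (s : Set Ω)
    (hs : ∀ h ∈ H, ∀ x ∈ s, h x ∈ s) : ∀ h ∈ H, ∀ x ∈ sᶜ, h x ∈ sᶜ := by
  intro h hh x hx hhx
  apply hx
  have h1 := hs h⁻¹ (H.inv_mem hh) (h x) hhx
  rwa [Perm.inv_def, Equiv.symm_apply_apply] at h1

theorem struct7_le_stab {Ω : Type*} (H : Subgroup (Perm Ω)) (s : Set Ω)
    (hs : ∀ h ∈ H, ∀ x ∈ s, h x ∈ s) : H ≤ MulAction.stabilizer (Perm Ω) s := by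
  intro h hh
  rw [MulAction.mem_stabilizer_iff]
  ext x
  rw [Set.mem_smul_set]
  constructor
  · rintro ⟨y, hy, rfl⟩
    exact hs h hh y hy
  · intro hx
    refine ⟨h⁻¹ x, hs h⁻¹ (H.inv_mem hh) x hx, ?_⟩
    rw [Perm.smul_def, Perm.inv_def, Equiv.apply_symm_apply]

theorem struct7_no_fixed {Ω : Type} [Finite Ω] (π : Set ℕ) (hcard : Nat.card Ω = 7)
    (hd : Cd π 7) (H : Subgroup (Perm Ω)) (hH : Cfsg.IsPiHall π H ∨ HallAlt π H) (ω : Ω)
    (hω : ∀ h ∈ H, h ω = ω) : False := by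
  have h2 : (2 : ℕ) ∈ π := (hd.2 2 Nat.prime_two (by norm_num)).mpr (Or.inl rfl)
  have h3 : (3 : ℕ) ∈ π := (hd.2 3 Nat.prime_three (by norm_num)).mpr (Or.inr rfl)
  have h5 : (5 : ℕ) ∉ π := fun h => by
    have h' := (hd.2 5 Nat.prime_five (by norm_num)).mp h
    omega
  have hc6 : Nat.card ↥({ω}ᶜ : Set Ω) = 6 := by
    rw [Nat.card_coe_set_eq, Set.ncard_compl, Set.ncard_singleton, hcard]
  have hA1 : A1 π 6 :=
    ⟨2, 3, Nat.prime_two, Nat.prime_three, by norm_num, h2, h3, by norm_num, by norm_num⟩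
  have hA2 : A2 π 6 := ⟨5, Nat.prime_five, by norm_num, h5⟩
  have hinv : ∀ h ∈ H, ∀ x ∈ ({ω}ᶜ : Set Ω), h x ∈ ({ω}ᶜ : Set Ω) := by
    intro h hh x hx hhx
    apply hx
    rw [Set.mem_singleton_iff] at hhx ⊢
    exact h.injective (hhx.trans (hω h hh).symm)
  have key : (Cc π 6 ∧ ∃ y : ↥({ω}ᶜ : Set Ω), ∀ σ ∈ restr H ({ω}ᶜ : Set Ω), σ y = y) ∨
      Cd π 6 := by
    rcases hH with hH | hH
    · exact classify π 6 _ (restr H ({ω}ᶜ : Set Ω)) hc6 (hall_restr π H _ hH hinv) hA1 hA2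
    · exact classifyA π 6 _ (restr H ({ω}ᶜ : Set Ω)) hc6 (hallAlt_restr_fixed π H ω hH hω)
        hA1 hA2
  rcases key with ⟨hc, -⟩ | hd6
  · exact absurd hc.1 (by norm_num)
  · rcases hd6.1 with h | h <;> omega

theorem struct7 {Ω : Type} [Finite Ω] (π : Set ℕ) (hcard : Nat.card Ω = 7) (hd : Cd π 7)
    (H : Subgroup (Perm Ω)) (hH : Cfsg.IsPiHall π H ∨ HallAlt π H) :
    ∃ s : Set Ω, s.ncard = 3 ∧ H ≤ MulAction.stabilizer (Perm Ω) s := by
  have h2 : (2 : ℕ) ∈ π := (hd.2 2 Nat.prime_two (by norm_num)).mpr (Or.inl rfl)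
  have h3 : (3 : ℕ) ∈ π := (hd.2 3 Nat.prime_three (by norm_num)).mpr (Or.inr rfl)
  have h7 : (7 : ℕ) ∉ π := fun h => by
    have h' := (hd.2 7 (by norm_num) (by norm_num)).mp h
    omega
  have hne : Nonempty Ω := by
    by_contra hne
    rw [not_nonempty_iff] at hne
    rw [Nat.card_of_isEmpty] at hcard
    omega
  obtain ⟨x₀⟩ := hne
  obtain ⟨O, hO⟩ : ∃ O : Set Ω, O = MulAction.orbit ↥H x₀ := ⟨_, rfl⟩
  have hinv : ∀ h ∈ H, ∀ w ∈ O, h w ∈ O := by
    rw [hO]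
    exact restr_orbit_inv H x₀
  have hx₀ : x₀ ∈ O := by
    rw [hO]
    exact MulAction.mem_orbit_self x₀
  have hch : ∀ p : ℕ, p.Prime → p ∈ π → ¬ p ∣ Nat.choose 7 O.ncard := by
    intro p hp hpπ
    rw [← hcard]
    rcases hH with hH | hH
    · exact hall_choose π H O hH hinv p hp hpπ
    · exact hallAlt_choose π H O hH (by rw [hcard]; norm_num) hinv p hp hpπ
  have hk1 : 1 ≤ O.ncard := by
    rw [Nat.succ_le_iff, Set.ncard_pos]
    exact ⟨x₀, hx₀⟩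
  have hk7 : O.ncard ≤ 7 := by
    rw [← hcard]
    exact Set.ncard_le_card O
  have hc2 := hch 2 Nat.prime_two h2
  have hc3 := hch 3 Nat.prime_three h3
  have hcases : O.ncard = 1 ∨ O.ncard = 3 ∨ O.ncard = 4 ∨ O.ncard = 6 ∨ O.ncard = 7 := by
    obtain ⟨k, hk⟩ : ∃ k, k = O.ncard := ⟨_, rfl⟩
    rw [← hk] at hc2 hc3 hk1 hk7 ⊢
    interval_cases k
    · exact Or.inl rfl
    · exact absurd (by decide : 3 ∣ Nat.choose 7 2) hc3
    · exact Or.inr (Or.inl rfl)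
    · exact Or.inr (Or.inr (Or.inl rfl))
    · exact absurd (by decide : 3 ∣ Nat.choose 7 5) hc3
    · exact Or.inr (Or.inr (Or.inr (Or.inl rfl)))
    · exact Or.inr (Or.inr (Or.inr (Or.inr rfl)))
  rcases hcases with h | h | h | h | h
  · exfalso
    apply struct7_no_fixed π hcard hd H hH x₀
    intro g hg
    have h1 := hinv g hg x₀ hx₀
    obtain ⟨a, ha⟩ := Set.ncard_eq_one.mp h
    rw [ha, Set.mem_singleton_iff] at h1 hx₀
    rw [h1, hx₀]
  · exact ⟨O, h, struct7_le_stab H O hinv⟩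
  · refine ⟨Oᶜ, ?_, struct7_le_stab H Oᶜ (struct7_compl_inv H O hinv)⟩
    rw [Set.ncard_compl, hcard, h]
  · exfalso
    have hc1 : Oᶜ.ncard = 1 := by rw [Set.ncard_compl, hcard, h]
    obtain ⟨ω, hω⟩ := Set.ncard_eq_one.mp hc1
    apply struct7_no_fixed π hcard hd H hH ω
    intro g hg
    have h1 := struct7_compl_inv H O hinv g hg ω (by rw [hω]; rfl)
    rw [hω, Set.mem_singleton_iff] at h1
    exact h1
  · exfalso
    have hdvd : 7 ∣ Nat.card H := by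
      have e : (MulAction.stabilizer ↥H x₀).index = 7 := by
        rw [MulAction.index_stabilizer, ← hO, h]
      rw [← e]
      exact Subgroup.index_dvd_card _
    rcases hH with hH | hH
    · exact h7 (hH.1 7 (by norm_num) hdvd)
    · exact h7 (hH.2.1 7 (by norm_num) hdvd)

end Cfsg.Agent.Lib.Helper13.HA
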