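import Mathlib
import Cfsg.Prelude.Def_HallClasses
import Cfsg.Agent.Lib.Helper13.HSDefs
import Cfsg.Agent.Lib.Helper13.HADefs
import Cfsg.Agent.Lib.Helper13.HSMain
import Cfsg.Agent.Lib.Helper13.HABlock
import Cfsg.Agent.Lib.Helper13.HAPrim
import Cfsg.Agent.Lib.Helper13.HACycle
import Cfsg.Agent.Lib.Helper13.HAChoose
import Cfsg.Agent.Lib.Helper13.HAPair8

/-! Project HALL-ALT (S2535 / S2538), piece STRUCT8. Paper proofs: team note (topic S2538).
Auxiliary names in this file must start with `struct8_`. -/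

set_option autoImplicit false

namespace Cfsg.Agent.Lib.Helper13.HA

open Equiv
open scoped Pointwise
open Cfsg.Agent.Lib.Helper13.HS

theorem struct8_choose (k : ℕ) (h1 : 1 ≤ k) (h8 : k ≤ 8) (hc : ¬ 2 ∣ Nat.choose 8 k) :
    k = 8 := by
  interval_cases k <;> first | rfl | (exfalso; exact hc (by decide))

theorem struct8_orbit_inv {Ω : Type} (H : Subgroup (Perm Ω)) (ω : Ω) :
    ∀ h ∈ H, ∀ x ∈ MulAction.orbit ↥H ω, h x ∈ MulAction.orbit ↥H ω := by
  intro h hh x hx
  obtain ⟨g, hg⟩ := MulAction.mem_orbit_iff.1 hx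
  refine MulAction.mem_orbit_iff.2 ⟨⟨h, hh⟩ * g, ?_⟩
  rw [mul_smul, hg]
  rfl

theorem struct8_trans {Ω : Type} (H : Subgroup (Perm Ω)) (ω : Ω)
    (hO : MulAction.orbit ↥H ω = Set.univ) : MulAction.IsPretransitive ↥H Ω := by
  refine ⟨fun x y => ?_⟩
  have hx : x ∈ MulAction.orbit ↥H ω := by rw [hO]; exact Set.mem_univ x
  have hy : y ∈ MulAction.orbit ↥H ω := by rw [hO]; exact Set.mem_univ y
  obtain ⟨g1, hg1⟩ := MulAction.mem_orbit_iff.1 hx
  obtain ⟨g2, hg2⟩ := MulAction.mem_orbit_iff.1 hy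
  refine ⟨g2 * g1⁻¹, ?_⟩
  rw [← hg1, ← hg2, mul_smul, inv_smul_smul]

theorem struct8 {Ω : Type} [Finite Ω] (π : Set ℕ) (hcard : Nat.card Ω = 8) (hd : Cd π 8)
    (H : Subgroup (Perm Ω)) (hH : Cfsg.IsPiHall π H ∨ HallAlt π H) :
    ∃ B : Set Ω, B.ncard = 4 ∧ H ≤ blockPair B := by
  classical
  have : Fintype Ω := Fintype.ofFinite Ω
  have h2π : (2 : ℕ) ∈ π := (hd.2 2 Nat.prime_two (by norm_num)).2 (Or.inl rfl)
  have h3π : (3 : ℕ) ∈ π := (hd.2 3 Nat.prime_three (by norm_num)).2 (Or.inr rfl)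
  have h5π : (5 : ℕ) ∉ π := fun h => by
    have := (hd.2 5 Nat.prime_five (by norm_num)).1 h
    omega
  have hne : Nonempty Ω := by
    have : 0 < Nat.card Ω := by omega
    exact (Nat.card_pos_iff.1 this).1
  obtain ⟨ω⟩ := hne
  -- (1) transitivity
  have hinv := struct8_orbit_inv H ω
  have hch : ¬ 2 ∣ Nat.choose 8 (MulAction.orbit ↥H ω).ncard := by
    rw [← hcard]
    rcases hH with hH | hH
    · exact hall_choose π H _ hH hinv 2 Nat.prime_two h2π
    · exact hallAlt_choose π H _ hH (by omega) hinv 2 Nat.prime_two h2π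
  have hk1 : 1 ≤ (MulAction.orbit ↥H ω).ncard :=
    (Set.ncard_pos (Set.toFinite _)).2 ⟨ω, MulAction.mem_orbit_self ω⟩
  have hk8 : (MulAction.orbit ↥H ω).ncard ≤ 8 := by
    rw [← hcard]
    exact Set.ncard_le_card _
  have hk := struct8_choose _ hk1 hk8 hch
  have hO : MulAction.orbit ↥H ω = Set.univ := by
    apply Set.eq_of_subset_of_ncard_le (Set.subset_univ _)
    rw [Set.ncard_univ, hcard, hk]
  have htr : MulAction.IsPretransitive ↥H Ω := struct8_trans H ω hO
  -- (2) not primitive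
  have hnp : ¬ MulAction.IsPreprimitive ↥H Ω := by
    intro hprim
    rcases hH with hH | hH
    · have htop := prim_hall_two π H hH hprim h2π (by omega)
      rw [htop] at hH
      exact h5π (hall_top_primes π hH 5 Nat.prime_five (by omega))
    · exact h5π (hallAlt_prim_three π H hH hprim h3π (by omega) 5 Nat.prime_five (by omega))
  -- (3) a block of size 4
  obtain ⟨B, -, hBblock, hB1, hB8, hBdvd, hcyc⟩ := block_cycle_set H htr hnp ω
  rw [hcard] at hB8 hBdvd
  obtain ⟨g, hgH, hgc, hgs⟩ : ∃ g ∈ H, g.IsCycle ∧ g.support.card = 3 ^ 1 := by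
    rcases hH with hH | hH
    · exact hall_exists_cycle π H hH 3 1 Nat.prime_three h3π le_rfl (by rw [hcard]; norm_num)
    · exact hallAlt_exists_cycle π H hH 3 1 Nat.prime_three (by norm_num) h3π le_rfl
        (by rw [hcard]; norm_num)
  have hB4 : B.ncard = 4 := by
    have h3 := hcyc g hgH hgc 3 1 Nat.prime_three hgs
    have hle : B.ncard ≤ 8 := Nat.le_of_lt hB8
    obtain ⟨b, hb⟩ : ∃ b, B.ncard = b := ⟨_, rfl⟩
    rw [hb] at h3 hB1 hB8 hBdvd hle ⊢
    interval_cases b
    · exfalso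
      rcases h3 with ⟨j, hj⟩ | h3
      · rcases j with _ | j
        · norm_num at hj
        · have : 3 ≤ 3 ^ (j + 1) := by
            calc 3 = 3 ^ 1 := by norm_num
              _ ≤ 3 ^ (j + 1) := Nat.pow_le_pow_right (by norm_num) (by omega)
          omega
      · norm_num at h3
    · exfalso; revert hBdvd; decide
    · rfl
    · exfalso; revert hBdvd; decide
    · exfalso; revert hBdvd; decide
    · exfalso; revert hBdvd; decide
  -- (4) conclusion
  refine ⟨B, hB4, fun h hh => ?_⟩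
  rw [mem_blockPair]
  have hcompl : Bᶜ.ncard = 4 := by
    have := Set.ncard_add_ncard_compl B
    rw [hcard, hB4] at this
    omega
  rcases hBblock.smul_eq_or_disjoint ⟨h, hh⟩ with h1 | h1
  · left
    exact h1
  · right
    have hsub : h • B ⊆ Bᶜ := Set.subset_compl_iff_disjoint_right.2 h1
    apply Set.eq_of_subset_of_ncard_le hsub
    have himg : (h • B).ncard = B.ncard :=
      Set.ncard_image_of_injective B (MulAction.injective h)
    rw [hcompl, himg, hB4]

end Cfsg.Agent.Lib.Helper13.HA
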