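import Mathlib
import Cfsg.Prelude.Def_HallClasses
import Cfsg.Agent.Lib.Helper13.HSDefs
import Cfsg.Agent.Lib.Helper13.HADefs
import Cfsg.Agent.Lib.Helper13.HSMain
import Cfsg.Agent.Lib.Helper13.HAGMax
import Cfsg.Agent.Lib.Helper13.HAGConj
import Cfsg.Agent.Lib.Helper13.HAGTop
import Cfsg.Agent.Lib.Helper13.HAStabPt
import Cfsg.Agent.Lib.Helper13.HAStab7
import Cfsg.Agent.Lib.Helper13.HAPair8
import Cfsg.Agent.Lib.Helper13.HAStruct7
import Cfsg.Agent.Lib.Helper13.HAStruct8
import Cfsg.Agent.Lib.Helper13.HAStabConj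

/-! Project HALL-ALT (S2535 / S2538), piece CONJS. Paper proofs: team note (topic S2538).
Auxiliary names in this file must start with `conjs_`. -/

set_option autoImplicit false

namespace Cfsg.Agent.Lib.Helper13.HA

open Equiv
open scoped Pointwise
open Cfsg.Agent.Lib.Helper13.HS

theorem conjs_excl (π : Set ℕ) (n : ℕ) (hc : Cc π n) (hd : Cd π n) : False := by
  obtain ⟨hprime, hc⟩ := hc
  obtain ⟨hn, hd⟩ := hd
  rcases hn with h7 | h8
  · subst h7
    have h5 : (5 : ℕ) ∈ π := (hc 5 (by norm_num) (by norm_num)).2 (by norm_num)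
    have h5' := (hd 5 (by norm_num) (by norm_num)).1 h5
    omega
  · subst h8
    norm_num at hprime

theorem sym_conj {Ω : Type} [Finite Ω] (π : Set ℕ) (H K : Subgroup (Perm Ω))
    (hH : Cfsg.IsPiHall π H) (hK : Cfsg.IsPiHall π K) :
    ∃ g : Perm Ω, K = H.map (MulAut.conj g).toMonoidHom := by
  classical
  have hcard : Nat.card (Perm Ω) = (Nat.card Ω).factorial := Nat.card_perm
  by_cases hA1 : A1 π (Nat.card Ω)
  swap
  · apply hall_conj_one_prime π _ H K hH hK
    intro r s hr hs hrπ hsπ hrd hsd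
    by_contra hne
    apply hA1
    rw [hcard] at hrd hsd
    exact ⟨r, s, hr, hs, hne, hrπ, hsπ, (hr.dvd_factorial).mp hrd, (hs.dvd_factorial).mp hsd⟩
  by_cases hA2 : A2 π (Nat.card Ω)
  swap
  · have hall : ∀ r : ℕ, r.Prime → r ∣ Nat.card (Perm Ω) → r ∈ π := by
      intro r hr hrd
      by_contra hrπ
      apply hA2
      rw [hcard] at hrd
      exact ⟨r, hr, (hr.dvd_factorial).mp hrd, hrπ⟩
    refine ⟨1, ?_⟩
    rw [hall_eq_top π hall H hH, hall_eq_top π hall K hK]
    ext x
    simp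
  have hcH := classify π (Nat.card Ω) Ω H rfl hH hA1 hA2
  have hcK := classify π (Nat.card Ω) Ω K rfl hK hA1 hA2
  rcases hcH with ⟨hc, ω, hω⟩ | hd
  · rcases hcK with ⟨-, ω', hω'⟩ | hd'
    · have hHs : H = MulAction.stabilizer (Perm Ω) ω :=
        hall_max π H _ hH (fun h hh => MulAction.mem_stabilizer_iff.mpr (hω h hh))
          (hall_stab_point π hc ω).1
      have hKs : K = MulAction.stabilizer (Perm Ω) ω' :=
        hall_max π K _ hK (fun h hh => MulAction.mem_stabilizer_iff.mpr (hω' h hh))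
          (hall_stab_point π hc ω').1
      refine ⟨Equiv.swap ω ω', ?_⟩
      rw [hKs, hHs, ← MulAction.stabilizer_smul_eq_stabilizer_map_conj]
      congr 1
      simp
    · exact (conjs_excl π _ hc hd').elim
  · rcases hcK with ⟨hc, -, -⟩ | -
    · exact (conjs_excl π _ hc hd).elim
    · rcases hd.1 with h7 | h8
      · have hd7 : Cd π 7 := h7 ▸ hd
        obtain ⟨s, hs, hHs⟩ := struct7 π h7 hd7 H (Or.inl hH)
        obtain ⟨s', hs', hKs⟩ := struct7 π h7 hd7 K (Or.inl hK)
        have hH' : H = MulAction.stabilizer (Perm Ω) s :=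
          hall_max π H _ hH hHs (hall_stab_set7 π h7 hd7 s hs).1
        have hK' : K = MulAction.stabilizer (Perm Ω) s' :=
          hall_max π K _ hK hKs (hall_stab_set7 π h7 hd7 s' hs').1
        obtain ⟨g, hg, -⟩ := stab_set_conj s s' (hs.trans hs'.symm)
        exact ⟨g, by rw [hK', hH', hg]⟩
      · have hd8 : Cd π 8 := h8 ▸ hd
        obtain ⟨B, hB, hHB⟩ := struct8 π h8 hd8 H (Or.inl hH)
        obtain ⟨B', hB', hKB⟩ := struct8 π h8 hd8 K (Or.inl hK)
        have hH' : H = blockPair B :=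
          hall_max π H _ hH hHB (hall_blockPair8 π h8 hd8 B hB).1
        have hK' : K = blockPair B' :=
          hall_max π K _ hK hKB (hall_blockPair8 π h8 hd8 B' hB').1
        obtain ⟨g, -, hg⟩ := stab_set_conj B B' (hB.trans hB'.symm)
        exact ⟨g, by rw [hK', hH', hg]⟩

end Cfsg.Agent.Lib.Helper13.HA
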