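import Mathlib
import Cfsg.Prelude.Def_HallClasses
import Cfsg.Agent.Lib.Helper13.HSDefs
import Cfsg.Agent.Lib.Helper13.HADefs

/-! Project HALL-ALT (S2535 / S2538), piece EXT2. Paper proofs: team note (topic S2538).
Auxiliary names in this file must start with `ext2_`. -/

set_option autoImplicit false

namespace Cfsg.Agent.Lib.Helper13.HA

open Equiv
open scoped Pointwise
open Cfsg.Agent.Lib.Helper13.HS

theorem ext2_prime_le {Ω : Type} [Finite Ω] (p : ℕ) (hp : p.Prime)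
    (h : p ∣ Nat.card (Perm Ω)) : p ≤ Nat.card Ω := by
  rw [Nat.card_perm] at h
  exact hp.dvd_factorial.mp h

theorem hallAlt_extend_two {Ω : Type} [Finite Ω] (π : Set ℕ) (M : Subgroup (Perm Ω))
    (hM : HallAlt π M) (h2 : (2 : ℕ) ∈ π) (h1 : ¬ A1 π (Nat.card Ω)) :
    ∃ M₀ : Subgroup (Perm Ω), Cfsg.IsPiHall π M₀ ∧ M₀ ⊓ altOf Ω = M := by
  classical
  obtain ⟨hMalt, hMπ, hMidx⟩ := hM
  haveI : Fact (Nat.Prime 2) := ⟨Nat.prime_two⟩
  -- `M` is a 2-group
  have hM2 : IsPGroup 2 M := by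
    have hne : Nat.card M ≠ 0 := Nat.card_pos.ne'
    have hu : ∀ {d : ℕ}, d.Prime → d ∣ Nat.card M → d = 2 := by
      intro d hd hdvd
      by_contra hd2
      apply h1
      have hdn : d ≤ Nat.card Ω :=
        ext2_prime_le d hd (hdvd.trans (Subgroup.card_subgroup_dvd_card M))
      exact ⟨2, d, Nat.prime_two, hd, fun h => hd2 h.symm, h2, hMπ d hd hdvd,
        le_trans hd.two_le hdn, hdn⟩
    have hcard := Nat.eq_prime_pow_of_unique_prime_dvd hne hu
    exact IsPGroup.of_card hcard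
  obtain ⟨P, hMP⟩ := hM2.exists_le_sylow
  refine ⟨P, ⟨?_, ?_⟩, ?_⟩
  · intro p hp hdvd
    obtain ⟨k, hk⟩ := (IsPGroup.iff_card).mp P.isPGroup'
    rw [hk] at hdvd
    have h3 := (Nat.prime_dvd_prime_iff_eq hp Nat.prime_two).mp (hp.dvd_of_dvd_pow hdvd)
    rw [h3]
    exact h2
  · intro p hp hpπ hdvd
    have hpn : p ≤ Nat.card Ω :=
      ext2_prime_le p hp (hdvd.trans (Subgroup.index_dvd_card _))
    have hp2 : p ≠ 2 := by
      rintro rfl
      exact P.not_dvd_index hdvd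
    exact h1 ⟨2, p, Nat.prime_two, hp, fun h => hp2 h.symm, h2, hpπ,
      le_trans hp.two_le hpn, hpn⟩
  · apply le_antisymm
    · rw [← Subgroup.relIndex_eq_one]
      have hle : M ≤ (P : Subgroup (Perm Ω)) ⊓ altOf Ω := le_inf hMP hMalt
      have h3 : M.relIndex ((P : Subgroup (Perm Ω)) ⊓ altOf Ω) *
          ((P : Subgroup (Perm Ω)) ⊓ altOf Ω).relIndex (altOf Ω) = M.relIndex (altOf Ω) :=
        Subgroup.relIndex_mul_relIndex _ _ _ hle inf_le_right
      have h5 : IsPGroup 2 ((P : Subgroup (Perm Ω)) ⊓ altOf Ω : Subgroup (Perm Ω)) :=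
        P.isPGroup'.to_le inf_le_left
      obtain ⟨j, hj⟩ := (IsPGroup.iff_card).mp h5
      have h6 : M.relIndex ((P : Subgroup (Perm Ω)) ⊓ altOf Ω) ∣ 2 ^ j := by
        rw [← hj]
        exact Subgroup.relIndex_dvd_card _ _
      obtain ⟨i, _, hi'⟩ := (Nat.dvd_prime_pow Nat.prime_two).mp h6
      rcases Nat.eq_zero_or_pos i with h0 | hpos
      · rw [hi', h0, pow_zero]
      · exfalso
        apply hMidx 2 Nat.prime_two h2
        rw [← h3, hi']
        exact Dvd.dvd.mul_right (dvd_pow_self 2 hpos.ne') _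
    · exact le_inf hMP hMalt

end Cfsg.Agent.Lib.Helper13.HA
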