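import Mathlib
import Cfsg.Prelude.Def_HallClasses
import Cfsg.Agent.Lib.Helper13.HSDefs
import Cfsg.Agent.Lib.Helper13.HADefs

/-! Project HALL-ALT (S2535 / S2538), piece AMAX. Paper proofs: team note (topic S2538).
Auxiliary names in this file must start with `amax_`. -/

set_option autoImplicit false

namespace Cfsg.Agent.Lib.Helper13.HA

open Equiv
open scoped Pointwise
open Cfsg.Agent.Lib.Helper13.HS

theorem hallAlt_max {Ω : Type} [Finite Ω] (π : Set ℕ) (M L : Subgroup (Perm Ω))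
    (hM : HallAlt π M) (hle : M ≤ L) (hLalt : L ≤ altOf Ω)
    (hL : ∀ p : ℕ, p.Prime → p ∣ Nat.card L → p ∈ π) : M = L := by
  apply le_antisymm hle
  rw [← Subgroup.relIndex_eq_one]
  by_contra hne
  obtain ⟨p, hp, hpd⟩ := Nat.exists_prime_and_dvd hne
  have h1 : M.relIndex L ∣ M.relIndex (altOf Ω) :=
    Dvd.intro _ (Subgroup.relIndex_mul_relIndex M L (altOf Ω) hle hLalt)
  have h2 : M.relIndex L ∣ Nat.card L := Subgroup.relIndex_dvd_card M L
  exact hM.2.2 p hp (hL p hp (hpd.trans h2)) (hpd.trans h1)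

theorem hallAlt_top {Ω : Type} [Finite Ω] (π : Set ℕ) (M : Subgroup (Perm Ω))
    (hM : HallAlt π M) (hall : ∀ r : ℕ, r.Prime → r ≤ Nat.card Ω → r ∈ π) : M = altOf Ω := by
  apply hallAlt_max π M (altOf Ω) hM hM.1 le_rfl
  intro p hp hpd
  apply hall p hp
  have h1 : Nat.card (altOf Ω) ∣ Nat.card (Perm Ω) := Subgroup.card_subgroup_dvd_card _
  rw [Nat.card_perm] at h1
  exact (hp.dvd_factorial).mp (hpd.trans h1)

end Cfsg.Agent.Lib.Helper13.HA
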