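import Mathlib
import Cfsg.Prelude.Def_HallClasses
import Cfsg.Agent.Lib.Helper13.HSDefs
import Cfsg.Agent.Lib.Helper13.HADefs
import Cfsg.Agent.Lib.Helper13.HAMain
import Cfsg.Agent.Lib.Helper13.HAOdd
import Cfsg.Agent.Lib.Helper13.HAMax
import Cfsg.Agent.Lib.Helper13.HAExt2
import Cfsg.Agent.Lib.Helper13.HAStabPt
import Cfsg.Agent.Lib.Helper13.HAStab7
import Cfsg.Agent.Lib.Helper13.HAPair8
import Cfsg.Agent.Lib.Helper13.HAStruct7
import Cfsg.Agent.Lib.Helper13.HAStruct8

/-! Project HALL-ALT (S2535 / S2538), piece EXT. Paper proofs: team note (topic S2538).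
Auxiliary names in this file must start with `ext_`. -/

set_option autoImplicit false

namespace Cfsg.Agent.Lib.Helper13.HA

open Equiv
open scoped Pointwise
open Cfsg.Agent.Lib.Helper13.HS

theorem ext_of_hall {Ω : Type} [Finite Ω] (π : Set ℕ) (M M₀ : Subgroup (Perm Ω))
    (hM : HallAlt π M) (hM₀ : Cfsg.IsPiHall π M₀) (hle : M ≤ M₀) : M₀ ⊓ altOf Ω = M := by
  symm
  apply hallAlt_max π M (M₀ ⊓ altOf Ω) hM (le_inf hle hM.1) inf_le_right
  intro p hp hdvd
  exact hM₀.1 p hp (hdvd.trans (Subgroup.card_dvd_of_le inf_le_left))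

theorem hallAlt_extend {Ω : Type} [Finite Ω] (π : Set ℕ) (M : Subgroup (Perm Ω))
    (hM : HallAlt π M) :
    ∃ M₀ : Subgroup (Perm Ω), Cfsg.IsPiHall π M₀ ∧ M₀ ⊓ altOf Ω = M := by
  classical
  by_cases h2 : (2 : ℕ) ∈ π
  · by_cases hA1 : A1 π (Nat.card Ω)
    · by_cases hA2 : A2 π (Nat.card Ω)
      · rcases classifyA π (Nat.card Ω) Ω M rfl hM hA1 hA2 with ⟨hc, ω, hω⟩ | hcd
        · refine ⟨MulAction.stabilizer (Perm Ω) ω, hall_stab_point π hc ω, ?_⟩
          apply ext_of_hall π M _ hM (hall_stab_point π hc ω)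
          intro h hh
          rw [MulAction.mem_stabilizer_iff]
          exact hω h hh
        · rcases hcd.1 with h7 | h8
          · have hd7 : Cd π 7 := by
              rw [← h7]
              exact hcd
            obtain ⟨s, hs, hle⟩ := struct7 π h7 hd7 M (Or.inr hM)
            exact ⟨MulAction.stabilizer (Perm Ω) s, hall_stab_set7 π h7 hd7 s hs,
              ext_of_hall π M _ hM (hall_stab_set7 π h7 hd7 s hs) hle⟩
          · have hd8 : Cd π 8 := by
              rw [← h8]
              exact hcd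
            obtain ⟨B, hB, hle⟩ := struct8 π h8 hd8 M (Or.inr hM)
            exact ⟨blockPair B, hall_blockPair8 π h8 hd8 B hB,
              ext_of_hall π M _ hM (hall_blockPair8 π h8 hd8 B hB) hle⟩
      · have hall : ∀ r : ℕ, r.Prime → r ≤ Nat.card Ω → r ∈ π := by
          intro r hr hrn
          by_contra h
          exact hA2 ⟨r, hr, hrn, h⟩
        have htop : Cfsg.IsPiHall π (⊤ : Subgroup (Perm Ω)) := by
          refine ⟨fun p hp hdvd => ?_, fun p hp _ hdvd => ?_⟩
          · exact hall p hp (ext2_prime_le p hp (hdvd.trans (Subgroup.card_subgroup_dvd_card _)))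
          · rw [Subgroup.index_top] at hdvd
            exact hp.not_dvd_one hdvd
        refine ⟨⊤, htop, ?_⟩
        rw [top_inf_eq]
        exact (hallAlt_top π M hM hall).symm
    · exact hallAlt_extend_two π M hM h2 hA1
  · exact ⟨M, hallAlt_odd π M hM h2, inf_eq_left.mpr hM.1⟩

end Cfsg.Agent.Lib.Helper13.HA
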