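import Mathlib
import Cfsg.Prelude.Def_HallClasses
import Cfsg.Agent.Lib.Helper13.HSDefs
import Cfsg.Agent.Lib.Helper13.HADefs
import Cfsg.Agent.Lib.Helper13.HAMain
import Cfsg.Agent.Lib.Helper13.HABridge
import Cfsg.Agent.Lib.Helper13.HAExt
import Cfsg.Agent.Lib.Helper13.HAConjS
import Cfsg.Agent.Lib.Helper13.HAGConj
import Cfsg.Agent.Lib.Helper13.HAGTop

/-! Project HALL-ALT (S2535 / S2538), piece CONJA. Paper proofs: team note (topic S2538).
Auxiliary names in this file must start with `conja_`. -/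

set_option autoImplicit false

namespace Cfsg.Agent.Lib.Helper13.HA

open Equiv
open scoped Pointwise
open Cfsg.Agent.Lib.Helper13.HS

theorem conja_mem_map_conj {G : Type*} [Group G] (H : Subgroup G) (g x : G) :
    x ∈ H.map (MulAut.conj g).toMonoidHom ↔ g⁻¹ * x * g ∈ H := by
  rw [Subgroup.mem_map_equiv, MulAut.conj_symm_apply]

theorem conja_card_dvd (Ω : Type) [Fintype Ω] [DecidableEq Ω] :
    Nat.card ↥(alternatingGroup Ω) ∣ (Nat.card Ω).factorial := by
  have h := Subgroup.card_subgroup_dvd_card (alternatingGroup Ω)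
  rwa [Nat.card_perm] at h

theorem conja_prime_le {Ω : Type} [Fintype Ω] [DecidableEq Ω] {r : ℕ} (hr : r.Prime)
    (h : r ∣ Nat.card ↥(alternatingGroup Ω)) : r ≤ Nat.card Ω :=
  (hr.dvd_factorial).mp (h.trans (conja_card_dvd Ω))

theorem conja_mem_iff {Ω : Type} [Fintype Ω] [DecidableEq Ω] (M : Subgroup ↥(alternatingGroup Ω))
    (M₀ : Subgroup (Perm Ω))
    (h : M₀ ⊓ alternatingGroup Ω = M.map (alternatingGroup Ω).subtype)
    (y : ↥(alternatingGroup Ω)) : y ∈ M ↔ (y : Perm Ω) ∈ M₀ := by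
  have inj : Function.Injective (alternatingGroup Ω).subtype := Subgroup.subtype_injective _
  constructor
  · intro hy
    have h1 : (alternatingGroup Ω).subtype y ∈ M.map (alternatingGroup Ω).subtype :=
      Subgroup.mem_map_of_mem _ hy
    rw [← h] at h1
    exact h1.1
  · intro hy
    have h1 : (y : Perm Ω) ∈ M₀ ⊓ alternatingGroup Ω := ⟨hy, y.2⟩
    rw [h] at h1
    obtain ⟨z, hz, hzy⟩ := h1
    have : z = y := inj hzy
    rwa [this] at hz

theorem alt_conj {Ω : Type} [Fintype Ω] [DecidableEq Ω] (π : Set ℕ)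
    (M K : Subgroup ↥(alternatingGroup Ω)) (hM : Cfsg.IsPiHall π M) (hK : Cfsg.IsPiHall π K) :
    ∃ g : ↥(alternatingGroup Ω), K = M.map (MulAut.conj g).toMonoidHom := by
  classical
  by_cases h1 : ∀ r s : ℕ, r.Prime → s.Prime → r ∈ π → s ∈ π →
      r ∣ Nat.card ↥(alternatingGroup Ω) → s ∣ Nat.card ↥(alternatingGroup Ω) → r = s
  · exact hall_conj_one_prime π h1 M K hM hK
  by_cases h2 : ∀ r : ℕ, r.Prime → r ∣ Nat.card ↥(alternatingGroup Ω) → r ∈ π
  · have eM := hall_eq_top π h2 M hM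
    have eK := hall_eq_top π h2 K hK
    refine ⟨1, ?_⟩
    rw [eM, eK]
    ext x
    rw [conja_mem_map_conj]
    simp
  push Not at h1 h2
  obtain ⟨r, s, hr, hs, hrπ, hsπ, hrd, hsd, hrs⟩ := h1
  obtain ⟨r₀, hr₀, hr₀d, hr₀π⟩ := h2
  have hrn := conja_prime_le hr hrd
  have hsn := conja_prime_le hs hsd
  have hA1 : A1 π (Nat.card Ω) := ⟨r, s, hr, hs, hrs, hrπ, hsπ, hrn, hsn⟩
  have hA2 : A2 π (Nat.card Ω) := ⟨r₀, hr₀, conja_prime_le hr₀ hr₀d, hr₀π⟩
  have hM' := (hallAlt_map π M).mp hM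
  have hK' := (hallAlt_map π K).mp hK
  have hn3 : 3 ≤ Nat.card Ω := by
    have h2r := hr.two_le
    have h2s := hs.two_le
    by_contra hlt
    exact hrs (by omega)
  have h2π : (2 : ℕ) ∈ π := by
    rcases classifyA π (Nat.card Ω) Ω (M.map (alternatingGroup Ω).subtype) rfl hM' hA1 hA2 with
      ⟨hc, -⟩ | hd
    · exact (hc.2 2 Nat.prime_two (by omega)).mpr (by omega)
    · exact (hd.2 2 Nat.prime_two (by omega)).mpr (Or.inl rfl)
  obtain ⟨M₀, hM₀, hM₀e⟩ := hallAlt_extend π _ hM'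
  obtain ⟨K₀, hK₀, hK₀e⟩ := hallAlt_extend π _ hK'
  obtain ⟨g, hg⟩ := sym_conj π M₀ K₀ hM₀ hK₀
  rw [altOf_eq] at hM₀e hK₀e
  have hnt : Nontrivial Ω := by
    rw [← Fintype.one_lt_card_iff_nontrivial, ← Nat.card_eq_fintype_card]
    omega
  have hodd : ∃ h ∈ M₀, h ∉ alternatingGroup Ω := by
    by_contra hcon
    push Not at hcon
    have hle : M₀ ≤ alternatingGroup Ω := hcon
    have hdvd := Subgroup.index_dvd_of_le hle
    rw [alternatingGroup.index_eq_two] at hdvd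
    exact hM₀.2 2 Nat.prime_two h2π hdvd
  obtain ⟨h, hhM, hhA⟩ := hodd
  have hg' : ∃ g' ∈ alternatingGroup Ω, ∀ x, x ∈ K₀ ↔ g'⁻¹ * x * g' ∈ M₀ := by
    have hgx : ∀ x, x ∈ K₀ ↔ g⁻¹ * x * g ∈ M₀ := fun x => by rw [hg, conja_mem_map_conj]
    by_cases hga : g ∈ alternatingGroup Ω
    · exact ⟨g, hga, hgx⟩
    · refine ⟨g * h, ?_, fun x => ?_⟩
      · rw [Equiv.Perm.mem_alternatingGroup] at hga hhA ⊢
        rw [map_mul]
        rcases Int.units_eq_one_or (Equiv.Perm.sign g) with e | e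
        · exact absurd e hga
        rcases Int.units_eq_one_or (Equiv.Perm.sign h) with e' | e'
        · exact absurd e' hhA
        rw [e, e']
        rfl
      · rw [hgx]
        have e : (g * h)⁻¹ * x * (g * h) = h⁻¹ * (g⁻¹ * x * g) * h := by group
        rw [e]
        constructor
        · intro hx
          exact M₀.mul_mem (M₀.mul_mem (M₀.inv_mem hhM) hx) hhM
        · intro hx
          have h3 := M₀.mul_mem (M₀.mul_mem hhM hx) (M₀.inv_mem hhM)
          have e2 : h * (h⁻¹ * (g⁻¹ * x * g) * h) * h⁻¹ = g⁻¹ * x * g := by group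
          rwa [e2] at h3
  obtain ⟨g', hg'A, hg'x⟩ := hg'
  refine ⟨⟨g', hg'A⟩, ?_⟩
  ext x
  rw [conja_mem_map_conj, conja_mem_iff K K₀ hK₀e x, conja_mem_iff M M₀ hM₀e, hg'x]
  rfl

end Cfsg.Agent.Lib.Helper13.HA
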