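import Mathlib
import Cfsg.Prelude.Def_HallClasses
import Cfsg.Agent.Lib.Helper13.HSDefs
import Cfsg.Agent.Lib.Helper13.HADefs
import Cfsg.Agent.Lib.Helper13.HAMain
import Cfsg.Agent.Lib.Helper13.HABridge
import Cfsg.Agent.Lib.Helper13.HAStruct7
import Cfsg.Agent.Lib.Helper13.HAStruct8
import Cfsg.Agent.Lib.Helper13.HAPair8
import Cfsg.Agent.Lib.Helper45.HADefs
import Cfsg.Agent.Lib.Helper45.HADpiB
import Cfsg.Agent.Lib.Helper45.HARPrime
import Cfsg.Agent.Lib.Helper45.HARSeven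
import Cfsg.Agent.Lib.Helper45.HAREight

/-! Project HALL-ALT, S2534: if `A_n` (`n ≥ 5`) satisfies `D_π` then at most one prime of `π`
divides `|A_n|` or all of them do (assembly on top of `classifyA`, `struct7`, `struct8` and
helper45's `hall_of_dpi`, `R_prime`, `R_seven`, `R_eight`). -/

set_option autoImplicit false

namespace Cfsg.Agent.Lib.Helper13.HA

open Equiv
open scoped Pointwise
open Cfsg.Agent.Lib.Helper13.HS

/-- a `π`-subgroup `R` of `A_n` (given inside `Perm (Fin n)`) lies in a conjugate of `K` -/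
theorem dpi_key (n : ℕ) (π : Set ℕ) (K : Subgroup ↥(alternatingGroup (Fin n)))
    (hKall : ∀ R : Subgroup ↥(alternatingGroup (Fin n)), Cfsg.IsPiSubgroup π R →
      ∃ g : ↥(alternatingGroup (Fin n)), R ≤ K.map (MulAut.conj g).toMonoidHom)
    (R : Subgroup (Perm (Fin n))) (hRalt : R ≤ alternatingGroup (Fin n))
    (hRπ : ∀ p : ℕ, p.Prime → p ∣ Nat.card R → p ∈ π) :
    ∃ g : Perm (Fin n), ∀ σ ∈ R, ∃ k ∈ K.map (alternatingGroup (Fin n)).subtype,
      σ = g * k * g⁻¹ := by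
  have hRsub : Cfsg.IsPiSubgroup π (R.subgroupOf (alternatingGroup (Fin n))) := by
    intro p hp hdvd
    apply hRπ p hp
    rwa [Nat.card_congr (Subgroup.subgroupOfEquivOfLe hRalt).toEquiv] at hdvd
  obtain ⟨g, hg⟩ := hKall _ hRsub
  refine ⟨g, fun σ hσ => ?_⟩
  have h1 : (⟨σ, hRalt hσ⟩ : ↥(alternatingGroup (Fin n))) ∈
      R.subgroupOf (alternatingGroup (Fin n)) := by
    rw [Subgroup.mem_subgroupOf]
    exact hσ
  obtain ⟨k, hk, hkeq⟩ := hg h1
  refine ⟨k, ⟨k, hk, rfl⟩, ?_⟩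
  have h2 := congrArg Subtype.val hkeq
  simp only [MulEquiv.coe_toMonoidHom, MulAut.conj_apply] at h2
  rw [← h2]
  rfl

/-- `blockPair B` preserves the partition `{B, Bᶜ}` in the sense of helper45's `Wsub` -/
theorem dpi_blockPair_le_Wsub {Ω : Type} (B : Set Ω) :
    blockPair B ≤ Cfsg.Agent.Lib.Helper45.HA.Wsub B := by
  intro k hk
  rw [Cfsg.Agent.Lib.Helper45.HA.mem_Wsub]
  intro u v
  rcases (mem_blockPair B k).mp hk with h | h
  · have hu : k u ∈ B ↔ u ∈ B := by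
      rw [← h, ← Perm.smul_def, Set.smul_mem_smul_set_iff, h]
    have hv : k v ∈ B ↔ v ∈ B := by
      rw [← h, ← Perm.smul_def, Set.smul_mem_smul_set_iff, h]
    rw [hu, hv]
  · have hu : k u ∈ B ↔ u ∉ B := by
      have h1 : k u ∈ Bᶜ ↔ u ∈ B := by
        rw [← h, ← Perm.smul_def, Set.smul_mem_smul_set_iff]
      rw [Set.mem_compl_iff] at h1
      tauto
    have hv : k v ∈ B ↔ v ∉ B := by
      have h1 : k v ∈ Bᶜ ↔ v ∈ B := by
        rw [← h, ← Perm.smul_def, Set.smul_mem_smul_set_iff]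
      rw [Set.mem_compl_iff] at h1
      tauto
    rw [hu, hv]
    tauto

/-- `D_π` fails for `A_n`, `n ≥ 5`, when at least two primes of `π` are `≤ n` and some prime
`≤ n` is not in `π` -/
theorem dpi_alt_contra (n : ℕ) (hn : 5 ≤ n) (π : Set ℕ)
    (hD : Cfsg.IsDPiGroup π ↥(alternatingGroup (Fin n))) (hA1 : A1 π n) (hA2 : A2 π n) :
    False := by
  obtain ⟨K, hK, hKall⟩ := Cfsg.Agent.Lib.Helper45.HA.hall_of_dpi π hD
  have hK' := (hallAlt_map π K).mp hK
  have hcardn : Nat.card (Fin n) = n := Nat.card_fin n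
  rcases classifyA π n (Fin n) (K.map (alternatingGroup (Fin n)).subtype) hcardn hK' hA1 hA2
    with ⟨hCc, ω, hω⟩ | hCd
  · obtain ⟨R, hRalt, hRπ, hRfix⟩ := Cfsg.Agent.Lib.Helper45.HA.R_prime n hn π hCc
    obtain ⟨g, hg⟩ := dpi_key n π K hKall R hRalt hRπ
    obtain ⟨σ, hσR, hσ⟩ := hRfix (g ω)
    obtain ⟨k, hk, hσk⟩ := hg σ hσR
    apply hσ
    rw [hσk]
    have h1 : g⁻¹ (g ω) = ω := by simp
    simp only [Perm.mul_apply]
    rw [h1, hω k hk]
  · obtain ⟨h78, hiff⟩ := hCd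
    rcases h78 with h7 | h8
    · subst h7
      obtain ⟨s0, hs0, hle0⟩ := struct7 π hcardn ⟨Or.inl rfl, hiff⟩ _ (Or.inr hK')
      obtain ⟨R, hRalt, hRπ, hRno⟩ := Cfsg.Agent.Lib.Helper45.HA.R_seven π ⟨Or.inl rfl, hiff⟩
      obtain ⟨g, hg⟩ := dpi_key 7 π K hKall R hRalt hRπ
      have hcard : (g • s0).ncard = 3 := by
        rw [Set.ncard_smul_set]
        exact hs0
      obtain ⟨σ, hσR, x, hx, hσx⟩ := hRno (g • s0) hcard
      obtain ⟨k, hk, hσk⟩ := hg σ hσR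
      apply hσx
      obtain ⟨y, hy, rfl⟩ := hx
      rw [hσk]
      have hks : k • s0 = s0 := MulAction.mem_stabilizer_iff.mp (hle0 hk)
      have hky : k y ∈ s0 := by
        rw [← hks]
        exact ⟨y, hy, rfl⟩
      refine ⟨k y, hky, ?_⟩
      simp [Perm.smul_def]
    · subst h8
      obtain ⟨B, hB, hleB⟩ := struct8 π hcardn ⟨Or.inr rfl, hiff⟩ _ (Or.inr hK')
      obtain ⟨R, hRalt, hRπ, hRno⟩ := Cfsg.Agent.Lib.Helper45.HA.R_eight π ⟨Or.inr rfl, hiff⟩
      obtain ⟨g, hg⟩ := dpi_key 8 π K hKall R hRalt hRπ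
      have hcard : (g • B).ncard = 4 := by
        rw [Set.ncard_smul_set]
        exact hB
      apply hRno (g • B) hcard
      intro σ hσR
      obtain ⟨k, hk, hσk⟩ := hg σ hσR
      have hkW := dpi_blockPair_le_Wsub B (hleB hk)
      rw [Cfsg.Agent.Lib.Helper45.HA.mem_Wsub] at hkW ⊢
      intro x y
      have hmem : ∀ z : Fin 8, z ∈ g • B ↔ g⁻¹ z ∈ B := by
        intro z
        rw [← Perm.smul_def, Set.mem_smul_set_iff_inv_smul_mem]
      have hσz : ∀ z : Fin 8, g⁻¹ (σ z) = k (g⁻¹ z) := by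
        intro z
        rw [hσk]
        simp [Perm.mul_apply]
      rw [hmem x, hmem y, hmem (σ x), hmem (σ y), hσz x, hσz y]
      exact hkW (g⁻¹ x) (g⁻¹ y)

end Cfsg.Agent.Lib.Helper13.HA
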