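import Mathlib
import Cfsg.Prelude.Def_HallClasses
import Cfsg.Agent.Lib.Helper13.HSDefs
import Cfsg.Agent.Lib.Helper13.HADefs

/-! Project HALL-ALT (S2535 / S2538), piece GNORMAL. Paper proofs: team note (topic S2538).
Auxiliary names in this file must start with `gnormal_`. -/

set_option autoImplicit false

namespace Cfsg.Agent.Lib.Helper13.HA

open Equiv
open scoped Pointwise
open Cfsg.Agent.Lib.Helper13.HS

theorem gnormal_relIndex_dvd {G : Type*} [Group G] [Finite G] (H N : Subgroup G) [N.Normal] :
    H.relIndex N ∣ H.index := by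
  have h1 : (H ⊓ N).relIndex N * N.index = (H ⊓ N).index :=
    Subgroup.relIndex_mul_index inf_le_right
  have h2 : (H ⊓ N).relIndex H * H.index = (H ⊓ N).index :=
    Subgroup.relIndex_mul_index inf_le_left
  have h3 : N.relIndex (H ⊔ N) * (H ⊔ N).index = N.index :=
    Subgroup.relIndex_mul_index le_sup_right
  rw [Subgroup.inf_relIndex_right] at h1
  rw [Subgroup.inf_relIndex_left] at h2
  rw [Subgroup.relIndex_sup_right] at h3
  have h0 : N.relIndex H ≠ 0 := Subgroup.index_ne_zero_of_finite
  have h4 : N.relIndex H * (H.relIndex N * (H ⊔ N).index) = N.relIndex H * H.index :=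
    calc N.relIndex H * (H.relIndex N * (H ⊔ N).index)
        = H.relIndex N * (N.relIndex H * (H ⊔ N).index) := by ring
      _ = H.relIndex N * N.index := by rw [h3]
      _ = (H ⊓ N).index := h1
      _ = N.relIndex H * H.index := h2.symm
  exact Dvd.intro _ (Nat.eq_of_mul_eq_mul_left (Nat.pos_of_ne_zero h0) h4)

theorem hall_subgroupOf_normal {G : Type*} [Group G] [Finite G] (π : Set ℕ) (H N : Subgroup G)
    [N.Normal] (hH : Cfsg.IsPiHall π H) : Cfsg.IsPiHall π (H.subgroupOf N) := by
  obtain ⟨h1, h2⟩ := hH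
  refine ⟨fun p hp hdvd => h1 p hp (hdvd.trans ?_),
    fun p hp hpπ hdvd => h2 p hp hpπ (hdvd.trans ?_)⟩
  · exact Subgroup.card_dvd_of_injective (N.subtype.subgroupComap H) (by
      intro x y hxy
      apply Subtype.ext
      apply Subtype.ext
      exact congrArg (fun z : ↥H => (z : G)) hxy)
  · exact gnormal_relIndex_dvd H N

end Cfsg.Agent.Lib.Helper13.HA
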