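import Mathlib
import Cfsg.Prelude.Def_HallClasses
import Cfsg.Agent.Lib.Helper13.HSDefs
import Cfsg.Agent.Lib.Helper13.HADefs

/-! Project HALL-ALT (S2535 / S2538), piece STABCONJ. Paper proofs: team note (topic S2538).
Auxiliary names in this file must start with `stabconj_`. -/

set_option autoImplicit false

namespace Cfsg.Agent.Lib.Helper13.HA

open Equiv
open scoped Pointwise
open Cfsg.Agent.Lib.Helper13.HS

/-- two sets of the same size are moved to one another by a permutation -/
theorem stabconj_exists_smul {Ω : Type} [Finite Ω] (s t : Set Ω) (h : s.ncard = t.ncard) :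
    ∃ g : Perm Ω, g • s = t := by
  classical
  have : Fintype Ω := Fintype.ofFinite Ω
  have hsfin : s.Finite := Set.toFinite s
  have htfin : t.Finite := Set.toFinite t
  obtain ⟨s', hs'⟩ : ∃ s' : Set.powersetCard Ω s.ncard, (s' : Set Ω) = s := by
    refine ⟨⟨hsfin.toFinset, ?_⟩, ?_⟩
    · rw [Set.powersetCard.mem_iff]; exact (Set.ncard_eq_toFinset_card s hsfin).symm
    · ext x
      simp
  obtain ⟨t', ht'⟩ : ∃ t' : Set.powersetCard Ω s.ncard, (t' : Set Ω) = t := by
    refine ⟨⟨htfin.toFinset, ?_⟩, ?_⟩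
    · rw [Set.powersetCard.mem_iff, h]; exact (Set.ncard_eq_toFinset_card t htfin).symm
    · ext x
      simp
  have := Set.powersetCard.isPretransitive (α := Ω) (n := s.ncard)
  obtain ⟨g, hg⟩ := MulAction.exists_smul_eq (Perm Ω) s' t'
  refine ⟨g, ?_⟩
  rw [← hs', ← ht', ← hg]
  change g • ((s' : Finset Ω) : Set Ω) =
    (((g • s' : Set.powersetCard Ω s.ncard) : Finset Ω) : Set Ω)
  rw [Set.powersetCard.coe_smul, Finset.coe_smul_finset]

theorem stab_set_conj {Ω : Type} [Finite Ω] (s t : Set Ω) (h : s.ncard = t.ncard) :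
    ∃ g : Perm Ω, MulAction.stabilizer (Perm Ω) t =
        (MulAction.stabilizer (Perm Ω) s).map (MulAut.conj g).toMonoidHom ∧
      blockPair t = (blockPair s).map (MulAut.conj g).toMonoidHom := by
  obtain ⟨g, hg⟩ := stabconj_exists_smul s t h
  refine ⟨g, ?_, ?_⟩
  · rw [← hg]
    exact MulAction.stabilizer_smul_eq_stabilizer_map_conj g s
  · unfold blockPair
    have h2 : ({t, tᶜ} : Set (Set Ω)) = g • ({s, sᶜ} : Set (Set Ω)) := by
      rw [Set.smul_set_insert, Set.smul_set_singleton, Set.smul_set_compl, hg]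
    rw [h2]
    exact MulAction.stabilizer_smul_eq_stabilizer_map_conj g _

end Cfsg.Agent.Lib.Helper13.HA
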