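import Mathlib
import Cfsg.Agent.Lib.Helper72.JLDefs
import Cfsg.Agent.Lib.Helper94.JcTH

/-! Project JL (S2942, architect helper72), piece TRJ: the Thompson subgroup of `T` inside `↥L`
is generated by the largest elementary abelian subgroups of `T.subgroupOf L`. -/

set_option autoImplicit false

namespace Cfsg.Agent.Lib.Helper13.JL

open Cfsg.Agent.Lib.Helper72.JL Cfsg.Agent.Lib.Helper72.SC Cfsg.Agent.Lib.Helper78.Jc

universe u

theorem trj_card_subgroupOf {G : Type u} [Group G] (L B : Subgroup G) (hBL : B ≤ L) :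
    Nat.card (B.subgroupOf L) = Nat.card B := by
  have h := Subgroup.card_map_of_injective (K := B.subgroupOf L) (Subgroup.subtype_injective L)
  rw [Subgroup.map_subgroupOf_eq_of_le hBL] at h
  exact h.symm

theorem trj_down {G : Type u} [Group G] (T L A : Subgroup G) (hTL : T ≤ L)
    (hA : IsMaxEA T A) : IsMaxEA (T.subgroupOf L) (A.subgroupOf L) := by
  obtain ⟨hAT, hc, h2, hmax⟩ := hA
  refine ⟨fun x hx => ?_, fun a ha b hb => ?_, fun a ha => ?_, fun B' hB' hc' h2' => ?_⟩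
  · rw [Subgroup.mem_subgroupOf] at hx ⊢
    exact hAT hx
  · exact Subtype.ext (hc a.1 (Subgroup.mem_subgroupOf.1 ha) b.1 (Subgroup.mem_subgroupOf.1 hb))
  · exact Subtype.ext (h2 a.1 (Subgroup.mem_subgroupOf.1 ha))
  · have h1 : B'.map L.subtype ≤ T := by
      rintro _ ⟨x, hx, rfl⟩
      exact Subgroup.mem_subgroupOf.1 (hB' hx)
    have h3 : ∀ a ∈ B'.map L.subtype, ∀ b ∈ B'.map L.subtype, a * b = b * a := by
      rintro _ ⟨x, hx, rfl⟩ _ ⟨y, hy, rfl⟩
      exact congrArg Subtype.val (hc' x hx y hy)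
    have h4 : ∀ a ∈ B'.map L.subtype, a * a = 1 := by
      rintro _ ⟨x, hx, rfl⟩
      exact congrArg Subtype.val (h2' x hx)
    have h5 := hmax _ h1 h3 h4
    rw [Subgroup.card_map_of_injective (Subgroup.subtype_injective L)] at h5
    rw [trj_card_subgroupOf L A (hAT.trans hTL)]
    exact h5

theorem trj_up {G : Type u} [Group G] (T L : Subgroup G) (hTL : T ≤ L) (A' : Subgroup ↥L)
    (hA' : IsMaxEA (T.subgroupOf L) A') : IsMaxEA T (A'.map L.subtype) := by
  obtain ⟨hAT, hc, h2, hmax⟩ := hA'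
  refine ⟨?_, ?_, ?_, fun B hB hcB h2B => ?_⟩
  · rintro _ ⟨x, hx, rfl⟩
    exact Subgroup.mem_subgroupOf.1 (hAT hx)
  · rintro _ ⟨x, hx, rfl⟩ _ ⟨y, hy, rfl⟩
    exact congrArg Subtype.val (hc x hx y hy)
  · rintro _ ⟨x, hx, rfl⟩
    exact congrArg Subtype.val (h2 x hx)
  · have h1 : B.subgroupOf L ≤ T.subgroupOf L := by
      intro x hx
      rw [Subgroup.mem_subgroupOf] at hx ⊢
      exact hB hx
    have h3 : ∀ a ∈ B.subgroupOf L, ∀ b ∈ B.subgroupOf L, a * b = b * a := fun a ha b hb =>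
      Subtype.ext (hcB a.1 (Subgroup.mem_subgroupOf.1 ha) b.1 (Subgroup.mem_subgroupOf.1 hb))
    have h4 : ∀ a ∈ B.subgroupOf L, a * a = 1 := fun a ha =>
      Subtype.ext (h2B a.1 (Subgroup.mem_subgroupOf.1 ha))
    have h5 := hmax _ h1 h3 h4
    rw [trj_card_subgroupOf L B (hB.trans hTL)] at h5
    rw [Subgroup.card_map_of_injective (Subgroup.subtype_injective L)]
    exact h5

theorem trj : TrjStmt.{u} := by
  intro G _ _ T L hTL
  refine ⟨{A' : Subgroup ↥L | IsMaxEA (T.subgroupOf L) A'}, fun A hA => hA, ?_⟩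
  apply le_antisymm
  · apply sSup_le
    intro A' hA'
    have h1 := Cfsg.Agent.Lib.Helper94.Jc.th_le T _ (trj_up T L hTL A' hA')
    intro x hx
    rw [Subgroup.mem_subgroupOf]
    exact h1 ⟨x, hx, rfl⟩
  · have h2 : Cfsg.thompsonSubgroupOf 2 T
        ≤ (sSup {A' : Subgroup ↥L | IsMaxEA (T.subgroupOf L) A'}).map L.subtype := by
      apply Cfsg.Agent.Lib.Helper94.Jc.th_le_of_forall
      intro A hA
      have h3 : A.subgroupOf L ≤ sSup {A' : Subgroup ↥L | IsMaxEA (T.subgroupOf L) A'} :=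
        le_sSup (trj_down T L A hTL hA)
      have h4 := Subgroup.map_mono (f := L.subtype) h3
      rw [Subgroup.map_subgroupOf_eq_of_le (hA.1.trans hTL)] at h4
      exact h4
    intro x hx
    rw [Subgroup.mem_subgroupOf] at hx
    obtain ⟨y, hy, hyx⟩ := h2 hx
    have : y = x := Subtype.ext hyx
    rw [← this]
    exact hy

end Cfsg.Agent.Lib.Helper13.JL
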