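import Mathlib
import Cfsg.Agent.Lib.Helper78.JNDefs
import Cfsg.Agent.Lib.Helper94.JcTH

/-! Project JN (S2944, architect helper78), piece PB1: a conjugate of `J(T)` inside `N` is an
`N`-conjugate of `J(T)`. -/

set_option autoImplicit false

namespace Cfsg.Agent.Lib.Helper13.JN

open Cfsg.Agent.Lib.Helper78.JN Cfsg.Agent.Lib.Helper72.JL Cfsg.Agent.Lib.Helper72.SC
  Cfsg.Agent.Lib.Helper78.Jc

open scoped commutatorElement Pointwise

universe u

/-- Sylow conjugacy inside a subgroup, in ambient form -/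
theorem pb1_sylow_conj {G : Type u} [Group G] [Finite G] (T₁ N R : Subgroup G)
    (hT₁ : Cfsg.IsSylowTwoIn T₁ N) (hR : IsPGroup 2 ↥R) (hRN : R ≤ N) :
    ∃ x ∈ N, R ≤ T₁.map (MulAut.conj x).toMonoidHom := by
  obtain ⟨hTN, hT2, hodd⟩ := hT₁
  have : Fact (Nat.Prime 2) := ⟨Nat.prime_two⟩
  have hP2 : IsPGroup 2 ↥(T₁.subgroupOf N) :=
    hT2.comap_of_injective N.subtype (Subgroup.subtype_injective N)
  obtain ⟨P', hP'⟩ := hP2.exists_le_sylow
  have hPeq : (P' : Subgroup ↥N) ≤ T₁.subgroupOf N := by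
    rw [← Subgroup.relIndex_eq_one]
    have h1 := Subgroup.relIndex_mul_index hP'
    have h2 : (T₁.subgroupOf N).index = T₁.relIndex N := rfl
    rw [h2] at h1
    have hodd' : Odd ((T₁.subgroupOf N).relIndex (P' : Subgroup ↥N)) := by
      rw [← h1] at hodd
      exact (Nat.odd_mul.1 hodd).1
    have h3 : (T₁.subgroupOf N).relIndex (P' : Subgroup ↥N) ∣ Nat.card (P' : Subgroup ↥N) :=
      Subgroup.relIndex_dvd_card _ _
    obtain ⟨k, hk⟩ := (IsPGroup.iff_card (p := 2)).1 P'.isPGroup'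
    rw [hk] at h3
    obtain ⟨j, _, hj⟩ := (Nat.dvd_prime_pow Nat.prime_two).1 h3
    rw [hj] at hodd' ⊢
    rcases j with _ | j
    · rfl
    · exfalso
      rw [pow_succ] at hodd'
      exact (Nat.not_even_iff_odd.2 hodd') (even_two.mul_left _)
  have hR2 : IsPGroup 2 ↥(R.subgroupOf N) :=
    hR.comap_of_injective N.subtype (Subgroup.subtype_injective N)
  obtain ⟨Q', hQ'⟩ := hR2.exists_le_sylow
  obtain ⟨n, hn⟩ := MulAction.exists_smul_eq ↥N Q' P'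
  refine ⟨((n⁻¹ : ↥N) : G), (n⁻¹ : ↥N).2, ?_⟩
  intro j hj
  have hjN : j ∈ N := hRN hj
  have h1 : (⟨j, hjN⟩ : ↥N) ∈ (Q' : Subgroup ↥N) := hQ' (Subgroup.mem_subgroupOf.2 hj)
  have h2 : MulAut.conj n • (⟨j, hjN⟩ : ↥N) ∈ MulAut.conj n • (Q' : Subgroup ↥N) :=
    Subgroup.smul_mem_pointwise_smul _ _ _ h1
  rw [← Sylow.coe_subgroup_smul, hn] at h2
  have h3 := hPeq h2
  rw [Subgroup.mem_subgroupOf] at h3
  have h4 : ((MulAut.conj n • (⟨j, hjN⟩ : ↥N) : ↥N) : G) = (n : G) * j * (n : G)⁻¹ := by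
    simp [MulAut.smul_def]
  rw [h4] at h3
  refine ⟨(n : G) * j * (n : G)⁻¹, h3, ?_⟩
  simp only [MulEquiv.coe_toMonoidHom, MulAut.conj_apply, Subgroup.coe_inv, inv_inv]
  group

theorem pb1_ea_map {G : Type u} [Group G] (B : Subgroup G) (x : G)
    (hc : ∀ a ∈ B, ∀ b ∈ B, a * b = b * a) (h2 : ∀ a ∈ B, a * a = 1) :
    (∀ a ∈ B.map (MulAut.conj x).toMonoidHom, ∀ b ∈ B.map (MulAut.conj x).toMonoidHom,
        a * b = b * a) ∧
      (∀ a ∈ B.map (MulAut.conj x).toMonoidHom, a * a = 1) ∧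
      Nat.card (B.map (MulAut.conj x).toMonoidHom) = Nat.card B := by
  refine ⟨?_, ?_, Subgroup.card_map_of_injective (MulAut.conj x).injective⟩
  · rintro _ ⟨a, ha, rfl⟩ _ ⟨b, hb, rfl⟩
    show x * a * x⁻¹ * (x * b * x⁻¹) = x * b * x⁻¹ * (x * a * x⁻¹)
    have e1 : x * a * x⁻¹ * (x * b * x⁻¹) = x * (a * b) * x⁻¹ := by group
    have e2 : x * b * x⁻¹ * (x * a * x⁻¹) = x * (b * a) * x⁻¹ := by group
    rw [e1, e2, hc a ha b hb]
  · rintro _ ⟨a, ha, rfl⟩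
    show x * a * x⁻¹ * (x * a * x⁻¹) = 1
    have e1 : x * a * x⁻¹ * (x * a * x⁻¹) = x * (a * a) * x⁻¹ := by group
    rw [e1, h2 a ha]
    group

theorem pb1_conj_comp {G : Type u} [Group G] (x y : G) (hxy : x * y = 1) (H : Subgroup G) :
    (H.map (MulAut.conj y).toMonoidHom).map (MulAut.conj x).toMonoidHom = H := by
  rw [Subgroup.map_map]
  have : (MulAut.conj x).toMonoidHom.comp (MulAut.conj y).toMonoidHom = MonoidHom.id G := by
    ext g
    simp only [MonoidHom.comp_apply, MulEquiv.coe_toMonoidHom, MulAut.conj_apply,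
      MonoidHom.id_apply]
    have hy : y = x⁻¹ := eq_inv_of_mul_eq_one_right hxy
    rw [hy]
    group
  rw [this, Subgroup.map_id]

theorem pb1 (h : ThcStmt.{u}) : Pb1Stmt.{u} := by
  intro G _ _ T T₁ N g hT hT₁ hJT₁ hth hJgN
  have hJg : Cfsg.thompsonSubgroupOf 2 (T.map (MulAut.conj g).toMonoidHom)
      = (Cfsg.thompsonSubgroupOf 2 T).map (MulAut.conj g).toMonoidHom := h G T g
  have hJ2 : IsPGroup 2 ↥(Cfsg.thompsonSubgroupOf 2 T) :=
    hT.to_le (Cfsg.Agent.Lib.Helper94.Jc.th_le_self T)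
  have hJg2 : IsPGroup 2 ↥(Cfsg.thompsonSubgroupOf 2 (T.map (MulAut.conj g).toMonoidHom)) := by
    rw [hJg]
    exact hJ2.map _
  obtain ⟨x, hxN, hx⟩ := pb1_sylow_conj T₁ N _ hT₁ hJg2 hJgN
  refine ⟨x, hxN, ?_⟩
  have hthx : Cfsg.thompsonSubgroupOf 2 (T₁.map (MulAut.conj x).toMonoidHom)
      = (Cfsg.thompsonSubgroupOf 2 T).map (MulAut.conj x).toMonoidHom := by
    rw [h G T₁ x, hth]
  obtain ⟨A₁, hA₁⟩ := Cfsg.Agent.Lib.Helper94.Jc.th_exists T₁
  obtain ⟨A₀, hA₀⟩ := Cfsg.Agent.Lib.Helper94.Jc.th_exists T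
  have hA₁T : A₁ ≤ T := by
    have := Cfsg.Agent.Lib.Helper94.Jc.th_le T₁ A₁ hA₁
    rw [hth] at this
    exact this.trans (Cfsg.Agent.Lib.Helper94.Jc.th_le_self T)
  have hc10 : Nat.card A₁ ≤ Nat.card A₀ := hA₀.2.2.2 A₁ hA₁T hA₁.2.1 hA₁.2.2.1
  have hle : Cfsg.thompsonSubgroupOf 2 (T.map (MulAut.conj g).toMonoidHom)
      ≤ (Cfsg.thompsonSubgroupOf 2 T).map (MulAut.conj x).toMonoidHom := by
    apply Cfsg.Agent.Lib.Helper94.Jc.th_le_of_forall
    intro A' hA'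
    rw [← hthx]
    apply Cfsg.Agent.Lib.Helper94.Jc.th_le
    refine ⟨(Cfsg.Agent.Lib.Helper94.Jc.th_le _ A' hA').trans hx, hA'.2.1, hA'.2.2.1, ?_⟩
    intro B hB hBc hB2
    -- B ≤ T₁ˣ, commutative of exponent 2
    obtain ⟨hBc', hB2', hBcard⟩ := pb1_ea_map B x⁻¹ hBc hB2
    have hB' : B.map (MulAut.conj x⁻¹).toMonoidHom ≤ T₁ := by
      have := Subgroup.map_mono (f := (MulAut.conj x⁻¹).toMonoidHom) hB
      rw [pb1_conj_comp x⁻¹ x (inv_mul_cancel x)] at this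
      exact this
    have hc1 : Nat.card B ≤ Nat.card A₁ := by
      rw [← hBcard]
      exact hA₁.2.2.2 _ hB' hBc' hB2'
    obtain ⟨hAc, hA2, hAcard⟩ := pb1_ea_map A₀ g hA₀.2.1 hA₀.2.2.1
    have hc0 : Nat.card A₀ ≤ Nat.card A' := by
      rw [← hAcard]
      exact hA'.2.2.2 _ (Subgroup.map_mono hA₀.1) hAc hA2
    exact hc1.trans (hc10.trans hc0)
  apply Subgroup.eq_of_le_of_card_ge hle
  rw [hJg, Subgroup.card_map_of_injective (MulAut.conj x).injective,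
    Subgroup.card_map_of_injective (MulAut.conj g).injective]

end Cfsg.Agent.Lib.Helper13.JN
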