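import Mathlib
import Cfsg.Agent.Lib.Helper78.JNDefs

/-! Project JN (S2944, architect helper78), piece PB2: `J`-components for a conjugate Thompson
subgroup. -/

set_option autoImplicit false

namespace Cfsg.Agent.Lib.Helper13.JN

open Cfsg.Agent.Lib.Helper78.JN Cfsg.Agent.Lib.Helper72.JL Cfsg.Agent.Lib.Helper72.SC
  Cfsg.Agent.Lib.Helper78.Jc

open scoped commutatorElement

universe u

theorem pb2_conj_comp {G : Type u} [Group G] (x y : G) (hxy : x * y = 1) (H : Subgroup G) :
    (H.map (MulAut.conj y).toMonoidHom).map (MulAut.conj x).toMonoidHom = H := by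
  rw [Subgroup.map_map]
  have : (MulAut.conj x).toMonoidHom.comp (MulAut.conj y).toMonoidHom = MonoidHom.id G := by
    ext g
    simp only [MonoidHom.comp_apply, MulEquiv.coe_toMonoidHom, MulAut.conj_apply,
      MonoidHom.id_apply]
    have hy : y = x⁻¹ := eq_inv_of_mul_eq_one_right hxy
    rw [hy]
    group
  rw [this, Subgroup.map_id]

theorem pb2 (h : ThcStmt.{u}) : Pb2Stmt.{u} := by
  intro G _ _ T T' K x hK hx hJ'
  obtain ⟨h1, h2, h3, h4, h5, h6⟩ := hK
  have hKc : K.map (MulAut.conj x).toMonoidHom = K := by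
    apply le_antisymm
    · rintro _ ⟨k, hk, rfl⟩
      exact (Subgroup.mem_normalizer_iff.1 hx k).1 hk
    · intro k hk
      refine ⟨x⁻¹ * k * x, (Subgroup.mem_normalizer_iff''.1 hx k).1 hk, ?_⟩
      simp only [MulEquiv.coe_toMonoidHom, MulAut.conj_apply]
      group
  have e1 : ∀ H : Subgroup G,
      (H.map (MulAut.conj x).toMonoidHom).map (MulAut.conj x⁻¹).toMonoidHom = H :=
    fun H => pb2_conj_comp x⁻¹ x (inv_mul_cancel x) H
  have e2 : ∀ H : Subgroup G,
      (H.map (MulAut.conj x⁻¹).toMonoidHom).map (MulAut.conj x).toMonoidHom = H :=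
    fun H => pb2_conj_comp x x⁻¹ (mul_inv_cancel x) H
  refine ⟨h1, ?_, h3, ?_, h5, h6⟩
  · rw [hJ']
    nth_rewrite 1 [← hKc]
    rw [← Subgroup.map_commutator, h2, hKc]
  · intro S hS hJS
    obtain ⟨hS1, hS2, hS3⟩ := hS
    rw [hJ'] at hS1 hS3 hJS ⊢
    have hsup : K ⊔ (Cfsg.thompsonSubgroupOf 2 T).map (MulAut.conj x).toMonoidHom
        = (K ⊔ Cfsg.thompsonSubgroupOf 2 T).map (MulAut.conj x).toMonoidHom := by
      rw [Subgroup.map_sup, hKc]
    rw [hsup] at hS1 hS3
    have hS0 : Cfsg.IsSylowTwoIn (S.map (MulAut.conj x⁻¹).toMonoidHom)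
        (K ⊔ Cfsg.thompsonSubgroupOf 2 T) := by
      refine ⟨?_, hS2.map _, ?_⟩
      · have := Subgroup.map_mono (f := (MulAut.conj x⁻¹).toMonoidHom) hS1
        rw [e1] at this
        exact this
      · have hr := Subgroup.relIndex_map_map_of_injective S
          ((K ⊔ Cfsg.thompsonSubgroupOf 2 T).map (MulAut.conj x).toMonoidHom)
          (f := (MulAut.conj x⁻¹).toMonoidHom) (MulAut.conj x⁻¹).injective
        rw [e1] at hr
        rw [hr]
        exact hS3
    have hJ0 : Cfsg.thompsonSubgroupOf 2 T ≤ S.map (MulAut.conj x⁻¹).toMonoidHom := by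
      have := Subgroup.map_mono (f := (MulAut.conj x⁻¹).toMonoidHom) hJS
      rw [e1] at this
      exact this
    have h7 := h4 _ hS0 hJ0
    have h8 := h G (S.map (MulAut.conj x⁻¹).toMonoidHom) x
    rw [e2, h7] at h8
    exact h8

end Cfsg.Agent.Lib.Helper13.JN
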