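import Mathlib
import Cfsg.Agent.Lib.Helper13.KW8
import Cfsg.Agent.Lib.Helper13.Basic
import Cfsg.Agent.Lib.Helper13.Prod
import Cfsg.Agent.S0004

set_option autoImplicit false
open Pointwise

namespace Cfsg.Agent.Lib.Helper13

universe u

/-- A `p`-subgroup `P` acting by conjugation on a nontrivial normal `p`-subgroup `M`
centralizes a nontrivial element of `M`. -/
theorem kw_exists_fixed {G : Type u} [Group G] [Finite G] {p : ℕ} (hp : p.Prime)
    (P M : Subgroup G) [hMn : M.Normal] (hP : IsPGroup p P) (hM : IsPGroup p M) (hM1 : M ≠ ⊥) :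
    ∃ m ∈ M, m ≠ 1 ∧ ∀ x ∈ P, x * m = m * x := by
  haveI := Fact.mk hp
  letI : MulAction P M :=
    MulAction.compHom M ((MulAut.conjNormal (H := M)).comp P.subtype)
  have hcard : p ∣ Nat.card M := by
    have h1 : Nat.card M ≠ 1 := fun h => hM1 (Subgroup.card_eq_one.mp h)
    exact hM.card_eq_or_dvd.resolve_left h1
  have hfix : (1 : M) ∈ MulAction.fixedPoints P M := by
    intro g
    change MulAut.conjNormal (g : G) (1 : M) = 1
    exact map_one _
  obtain ⟨b, hb, hb1⟩ := hP.exists_fixed_point_of_prime_dvd_card_of_fixed_point _ hcard hfix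
  refine ⟨(b : G), b.2, ?_, ?_⟩
  · intro h
    apply hb1
    symm
    apply Subtype.ext
    simpa using h
  · intro x hx
    have h1 : (⟨x, hx⟩ : P) • b = b := hb ⟨x, hx⟩
    have h2 : MulAut.conjNormal (x : G) b = b := h1
    have h3 := congrArg (fun y : M => (y : G)) h2
    simp only [MulAut.conjNormal_apply] at h3
    calc x * (b : G) = (x * (b : G) * x⁻¹) * x := by group
      _ = (b : G) * x := by rw [h3]

/-- In a finite nilpotent group every proper subgroup lies in a proper normal subgroup. -/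
theorem kw_nilpotent_proper_normal {G : Type u} [Group G] [Finite G] (hG : Group.IsNilpotent G)
    (C : Subgroup G) (hC : C ≠ ⊤) : ∃ N : Subgroup G, N.Normal ∧ N ≠ ⊤ ∧ C ≤ N := by
  rcases eq_top_or_exists_le_coatom C with h | ⟨N, hN, hCN⟩
  · exact absurd h hC
  · exact ⟨N, Subgroup.NormalizerCondition.normal_of_coatom N Group.normalizerCondition_of_isNilpotent hN, hN.1, hCN⟩

theorem kw_normal_factor_aux : ∀ (n : ℕ) (G : Type u) [Group G] [Finite G] (A B : Subgroup G),
    Nat.card G = n → Group.IsNilpotent A → Group.IsNilpotent B →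
    (∀ g : G, ∃ a ∈ A, ∃ b ∈ B, g = a * b) → (A ≠ ⊤ ∨ B ≠ ⊤) →
    ∃ N : Subgroup G, N.Normal ∧ N ≠ ⊤ ∧ (A ≤ N ∨ B ≤ N) := by
  intro n
  induction n using Nat.strong_induction_on with
  | _ n ih =>
    intro G _ _ A B hn hA hB hAB hproper
    -- reduction to quotients
    have hR : ∀ (M : Subgroup G) [M.Normal], M ≠ ⊥ → (A ⊔ M ≠ ⊤ ∨ B ⊔ M ≠ ⊤) →
        ∃ N : Subgroup G, N.Normal ∧ N ≠ ⊤ ∧ (A ≤ N ∨ B ≤ N) := by
      intro M _ hM1 hne
      have hlt : Nat.card (G ⧸ M) < n := by
        have h1 := Subgroup.card_eq_card_quotient_mul_card_subgroup M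
        have h2 : 1 < Nat.card M := (Subgroup.one_lt_card_iff_ne_bot M).mpr hM1
        have h3 : 0 < Nat.card (G ⧸ M) := Nat.card_pos
        rw [← hn, h1]
        nlinarith
      have hmapne : ∀ C : Subgroup G, C ⊔ M ≠ ⊤ → C.map (QuotientGroup.mk' M) ≠ ⊤ := by
        intro C hC h
        apply hC
        have h1 := Subgroup.comap_map_eq (QuotientGroup.mk' M) C
        rw [h, Subgroup.comap_top, QuotientGroup.ker_mk'] at h1
        exact h1.symm
      obtain ⟨Nb, hNbn, hNbt, hNb⟩ := ih _ hlt (G ⧸ M) (A.map (QuotientGroup.mk' M))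
        (B.map (QuotientGroup.mk' M)) rfl
        (by haveI := hA
            exact Group.nilpotent_of_surjective ((QuotientGroup.mk' M).subgroupMap A)
              ((QuotientGroup.mk' M).subgroupMap_surjective A))
        (by haveI := hB
            exact Group.nilpotent_of_surjective ((QuotientGroup.mk' M).subgroupMap B)
              ((QuotientGroup.mk' M).subgroupMap_surjective B))
        (by intro q
            obtain ⟨g, rfl⟩ := QuotientGroup.mk'_surjective M q
            obtain ⟨a, ha, b, hb, rfl⟩ := hAB g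
            exact ⟨_, Subgroup.mem_map_of_mem _ ha, _, Subgroup.mem_map_of_mem _ hb,
              map_mul _ a b⟩)
        (hne.imp (hmapne A) (hmapne B))
      refine ⟨Nb.comap (QuotientGroup.mk' M), hNbn.comap _, ?_, ?_⟩
      · intro h
        apply hNbt
        have h1 := Subgroup.map_comap_eq_self_of_surjective (QuotientGroup.mk'_surjective M) Nb
        rw [h, Subgroup.map_top_of_surjective _ (QuotientGroup.mk'_surjective M)] at h1
        exact h1.symm
      · exact hNb.imp (fun h => Subgroup.map_le_iff_le_comap.mp h)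
          (fun h => Subgroup.map_le_iff_le_comap.mp h)
    -- G is nontrivial
    have htop : (⊤ : Subgroup G) ≠ ⊥ := by
      intro h
      have hall : ∀ C : Subgroup G, C = ⊤ := fun C => by
        rw [h]; exact le_bot_iff.mp (by rw [← h]; exact le_top)
      rcases hproper with h1 | h1
      · exact h1 (hall A)
      · exact h1 (hall B)
    haveI hsol : Group.IsSolvable G := kw_solvable A B hA hB hAB
    obtain ⟨M, -, hMn, hM1, hMmin⟩ := exists_minimal_normal_le ⊤ Subgroup.normal_top htop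
    haveI := hMn
    obtain ⟨p, hp, hpM, hMcomm, hMexp, hMp⟩ := minimal_normal_solvable M hMn hM1 hMmin
    haveI := Fact.mk hp
    by_cases h1 : A ⊔ M ≠ ⊤ ∨ B ⊔ M ≠ ⊤
    · exact hR M hM1 h1
    push Not at h1
    obtain ⟨hAM, hBM⟩ := h1
    -- the nilpotent case
    have hnilcase : ∀ C C' : Subgroup G, Group.IsNilpotent C → C = ⊤ → C' ≠ ⊤ →
        ∃ N : Subgroup G, N.Normal ∧ N ≠ ⊤ ∧ C' ≤ N := by
      intro C C' hC hCt hC't
      subst hCt
      have hG : Group.IsNilpotent G := Group.nilpotent_of_mulEquiv Subgroup.topEquiv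
      exact kw_nilpotent_proper_normal hG C' hC't
    have hMA : (M ⊓ A).Normal :=
      inf_normal_of_comm_of_sup_eq_top M A hMn hMcomm (by rw [sup_comm]; exact hAM)
    have hMB : (M ⊓ B).Normal :=
      inf_normal_of_comm_of_sup_eq_top M B hMn hMcomm (by rw [sup_comm]; exact hBM)
    rcases hMmin _ hMA inf_le_left with hMA0 | hMA1
    swap
    · have hAt : A = ⊤ := by
        rw [← hAM]
        exact (sup_eq_left.mpr (hMA1 ▸ inf_le_right)).symm
      have hBt : B ≠ ⊤ := by
        rcases hproper with h | h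
        · exact absurd hAt h
        · exact h
      obtain ⟨N, hNn, hNt, hN⟩ := hnilcase A B hA hAt hBt
      exact ⟨N, hNn, hNt, Or.inr hN⟩
    rcases hMmin _ hMB inf_le_left with hMB0 | hMB1
    swap
    · have hBt : B = ⊤ := by
        rw [← hBM]
        exact (sup_eq_left.mpr (hMB1 ▸ inf_le_right)).symm
      have hAt : A ≠ ⊤ := by
        rcases hproper with h | h
        · exact h
        · exact absurd hBt h
      obtain ⟨N, hNn, hNt, hN⟩ := hnilcase B A hB hBt hAt
      exact ⟨N, hNn, hNt, Or.inl hN⟩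
    -- key claim
    have key : ∀ C : Subgroup G, Group.IsNilpotent C → C ⊔ M = ⊤ → M ⊓ C = ⊥ →
        p ∣ Nat.card C → ∃ M₂ : Subgroup G, M₂.Normal ∧ M₂ ≠ ⊥ ∧ C ⊔ M₂ ≠ ⊤ := by
      intro C hC hCM hMC hpC
      have hP1 : sy p C ≠ ⊥ := (sy_ne_bot_iff hp C hC).mpr hpC
      have hPp : IsPGroup p (sy p C) := sy_isPGroup hp C hC
      have hfact : ∀ g : G, ∃ m ∈ M, ∃ c ∈ C, m * c = g :=
        exists_mul_of_sup_eq_top M C (by rw [sup_comm]; exact hCM)
      obtain ⟨Z, hZe⟩ : ∃ Z : Subgroup G,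
          Z = M ⊓ Subgroup.centralizer ((sy p C : Subgroup G) : Set G) := ⟨_, rfl⟩
      have hZmem : ∀ z : G, z ∈ Z ↔ z ∈ M ∧ ∀ x ∈ sy p C, x * z = z * x := by
        intro z
        rw [hZe, Subgroup.mem_inf, Subgroup.mem_centralizer_iff]
        rfl
      have hZn : Z.Normal := by
        constructor
        intro z hz g
        rw [hZmem] at hz ⊢
        obtain ⟨m, hm, c, hc, rfl⟩ := hfact g
        have hz1 : c * z * c⁻¹ ∈ M := hMn.conj_mem z hz.1 c
        have h2 : m * c * z * (m * c)⁻¹ = c * z * c⁻¹ := by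
          have := hMcomm m hm (c * z * c⁻¹) hz1
          calc m * c * z * (m * c)⁻¹ = (m * (c * z * c⁻¹)) * m⁻¹ := by group
            _ = ((c * z * c⁻¹) * m) * m⁻¹ := by rw [this]
            _ = c * z * c⁻¹ := by group
        rw [h2]
        refine ⟨hz1, ?_⟩
        intro x hx
        have hx' : c⁻¹ * x * c ∈ sy p C :=
          (mem_conj_smul_iff c x (sy p C)).mp (by rw [sy_normal p C hc]; exact hx)
        have h3 := hz.2 _ hx'
        calc x * (c * z * c⁻¹) = c * ((c⁻¹ * x * c) * z) * c⁻¹ := by group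
          _ = c * (z * (c⁻¹ * x * c)) * c⁻¹ := by rw [h3]
          _ = c * z * c⁻¹ * x := by group
      have hZ1 : Z ≠ ⊥ := by
        obtain ⟨m, hm, hm1, hmc⟩ := kw_exists_fixed hp (sy p C) M hPp hMp hM1
        intro h
        apply hm1
        have : m ∈ Z := (hZmem m).mpr ⟨hm, hmc⟩
        rw [h, Subgroup.mem_bot] at this
        exact this
      have hZM : Z = M :=
        (hMmin Z hZn (by rw [hZe]; exact inf_le_left)).resolve_left hZ1
      have hcent : ∀ m ∈ M, ∀ x ∈ sy p C, x * m = m * x := by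
        intro m hm x hx
        have : m ∈ Z := hZM ▸ hm
        exact ((hZmem m).mp this).2 x hx
      refine ⟨sy p C, ?_, hP1, ?_⟩
      · constructor
        intro x hx g
        obtain ⟨m, hm, c, hc, rfl⟩ := hfact g
        have hx' : c * x * c⁻¹ ∈ sy p C := by
          have := conj_mem_conj_smul c hx
          rwa [sy_normal p C hc] at this
        have h2 : m * c * x * (m * c)⁻¹ = c * x * c⁻¹ := by
          have := hcent m hm _ hx'
          calc m * c * x * (m * c)⁻¹ = (m * (c * x * c⁻¹)) * m⁻¹ := by group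
            _ = ((c * x * c⁻¹) * m) * m⁻¹ := by rw [this]
            _ = c * x * c⁻¹ := by group
        rw [h2]
        exact hx'
      · rw [sup_eq_left.mpr (sy_le p C)]
        intro hCt
        apply hM1
        rw [← hMC, hCt, inf_top_eq]
    by_cases hpA : p ∣ Nat.card A
    · obtain ⟨M₂, hM₂n, hM₂1, hM₂⟩ := key A hA hAM hMA0 hpA
      haveI := hM₂n
      exact hR M₂ hM₂1 (Or.inl hM₂)
    by_cases hpB : p ∣ Nat.card B
    · obtain ⟨M₂, hM₂n, hM₂1, hM₂⟩ := key B hB hBM hMB0 hpB
      haveI := hM₂n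
      exact hR M₂ hM₂1 (Or.inr hM₂)
    exfalso
    have hcard : ∀ C : Subgroup G, C ⊔ M = ⊤ → M ⊓ C = ⊥ →
        Nat.card G = Nat.card C * Nat.card M := by
      intro C hCM hMC
      have h1 := card_mul_of_factorization M C (fun g => by
        obtain ⟨m, hm, c, hc, h⟩ := exists_mul_of_sup_eq_top M C (by rw [sup_comm]; exact hCM) g
        exact ⟨m, hm, c, hc, h.symm⟩)
      rw [hMC, Subgroup.card_bot, mul_one] at h1
      rw [h1, mul_comm]
    have hcA := hcard A hAM hMA0
    have hcB := hcard B hBM hMB0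
    have hAB' : Nat.card B = Nat.card A := by
      have : Nat.card B * Nat.card M = Nat.card A * Nat.card M := by rw [← hcA, ← hcB]
      exact Nat.eq_of_mul_eq_mul_right Nat.card_pos this
    have hcop : (Nat.card A).Coprime (Nat.card M) := by
      obtain ⟨k, hk⟩ := IsPGroup.iff_card.mp hMp
      rw [hk]
      apply Nat.Coprime.pow_right
      exact ((Nat.Prime.coprime_iff_not_dvd hp).mpr hpA).symm
    obtain ⟨g, hg⟩ := Cfsg.Agent.S0004.result (Nat.card A) (Nat.card M) hcA hcop A B rfl hAB'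
    obtain ⟨a, ha, b, hb, hgab⟩ := hAB g⁻¹
    have hg' : g = b⁻¹ * a⁻¹ := by
      rw [← inv_inv g, hgab]; group
    rw [hg', ← conj_smul_conj_smul, Subgroup.conj_smul_eq_self_of_mem (A.inv_mem ha)] at hg
    have hAeqB : A = B := by
      have h1 : MulAut.conj b • (MulAut.conj b⁻¹ • A) = MulAut.conj b • B := by rw [hg]
      rw [conj_smul_conj_smul, mul_inv_cancel, map_one, one_smul,
        Subgroup.conj_smul_eq_self_of_mem hb] at h1
      exact h1
    have hAt : A = ⊤ := by
      rw [eq_top_iff]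
      intro g _
      obtain ⟨a, ha, b, hb, rfl⟩ := hAB g
      exact A.mul_mem ha (hAeqB ▸ hb)
    apply hM1
    rw [← hMA0, hAt, inf_top_eq]

theorem kw_normal_factor {G : Type u} [Group G] [Finite G] (A B : Subgroup G)
    (hA : Group.IsNilpotent A) (hB : Group.IsNilpotent B)
    (hAB : ∀ g : G, ∃ a ∈ A, ∃ b ∈ B, g = a * b) (hproper : A ≠ ⊤ ∨ B ≠ ⊤) :
    ∃ N : Subgroup G, N.Normal ∧ N ≠ ⊤ ∧ (A ≤ N ∨ B ≤ N) :=
  kw_normal_factor_aux _ G A B rfl hA hB hAB hproper

end Cfsg.Agent.Lib.Helper13
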