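import Mathlib
import Cfsg.Prelude.Def_GeometricClasses
import Cfsg.Agent.Lib.Helper71.OK1
import Cfsg.Agent.Lib.Helper52.Siegel
import Cfsg.Agent.Lib.Helper55.OKA1

/-!
# S5701, piece D1 (helper13, for helper71): a maximal orthogonal pair meets in a hyperplane
-/

set_option autoImplicit false
set_option linter.unusedVariables false

namespace Cfsg.Agent.Lib.Helper13.OKD1

open Matrix Cfsg.Agent.Lib.Helper71.SpK Cfsg.Agent.Lib.Helper71.OK
open Cfsg.Agent.Lib.Helper55.OKA1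

theorem orth_max_finrank {ι : Type} [Fintype ι] [DecidableEq ι] {F : Type*} [Field F] [Finite F]
    {Q : QuadraticForm F (ι → F)} {L : Type*} [Field L] [Algebra F L] [FiniteDimensional F L]
    (S : KO (QuadraticMap.polar ⇑Q) L) (h2 : (2 : F) ≠ 0)
    (hQ : (QuadraticMap.polarBilin Q).Nondegenerate)
    (hr : (Module.finrank F L).Prime) (hd : 4 * Module.finrank F L ≤ Fintype.card ι) (M : Subgroup (GL ι F)) (hNM : S.NO Q ≤ M) (hMΩ : M ≤ Cfsg.Geo.omegaGL ⇑Q) {u : ι → F} (hu : u ≠ 0) (huu : S.B u u = 0)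
    {W₂ : Submodule F (ι → F)} (hW₂ : S.InW M W₂) (hne : W₂ ≠ S.line u)
    (hperp : ∀ y ∈ W₂, S.B y u = 0) (hD : S.line u ⊓ W₂ ≠ ⊥)
    (hmax : ∀ W₃ W₄, S.InW M W₃ → S.InW M W₄ → W₃ ≠ W₄ → Orth Q W₃ W₄ →
      Module.finrank F ↥(W₃ ⊓ W₄) ≤ Module.finrank F ↥(S.line u ⊓ W₂)) :
    Module.finrank F ↥(S.line u ⊓ W₂) + 1 = Module.finrank F L := by
  classical
  -- (0) the `L`-Eichler elements
  have step0 : ∀ z : ι → F, S.B u z = 0 → ∃ g ∈ S.NO Q,
      (∀ y ∈ W₂, (g : Matrix ι ι F) *ᵥ y = y + S.φ (S.B y z) *ᵥ u) ∧ S.InW M (gim W₂ g) ∧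
      Orth Q W₂ (gim W₂ g) ∧ S.line u ⊓ W₂ ≤ W₂ ⊓ gim W₂ g := by
    intro z hz
    obtain ⟨g, hg, hgx⟩ := exists_rho S h2 hQ hr hd huu hz
    have hgy : ∀ y ∈ W₂, (g : Matrix ι ι F) *ᵥ y = y + S.φ (S.B y z) *ᵥ u := by
      intro y hy
      rw [hgx, S.rho_of_perp (hperp y hy)]
    refine ⟨g, hg, hgy, S.InW_gim hW₂ (hNM hg), ?_, ?_⟩
    · intro y' hy' w hw
      obtain ⟨y, hy, rfl⟩ := mem_gim'.mp hw
      rw [hgy y hy, QuadraticMap.polar_add_right, S.InW_polar hMΩ hW₂ hy' hy, zero_add,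
        S.f_act_right, hperp y' hy', mul_zero, map_zero]
    · intro d hd'
      refine ⟨hd'.2, mem_gim'.mpr ⟨d, hd'.2, ?_⟩⟩
      rw [hgy d hd'.2]
      obtain ⟨l, rfl⟩ := S.mem_line.mp hd'.1
      rw [S.B_act, hz, mul_zero, S.φ_zero_mulVec, add_zero]
  -- (1) a vector of `W₂` off the line
  have hfinW : Module.finrank F ↥W₂ = Module.finrank F L := S.InW_finrank hW₂
  have hfinl : Module.finrank F ↥(S.line u) = Module.finrank F L := S.finrank_line hu
  obtain ⟨y₁, hy₁, hy₁u⟩ : ∃ y₁ ∈ W₂, y₁ ∉ S.line u := by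
    by_contra hcon
    push Not at hcon
    exact hne (Submodule.eq_of_le_of_finrank_eq hcon (hfinW.trans hfinl.symm))
  obtain ⟨z₁, hz₁u, hz₁y⟩ := S.exists_dual hQ hy₁u
  -- (2) the key step
  have key : ∀ z : ι → F, S.B u z = 0 → S.φ (S.B y₁ z) *ᵥ u ∈ W₂ →
      ∀ y ∈ W₂, S.φ (S.B y z) *ᵥ u ∈ W₂ := by
    intro z hz hmem y hy
    obtain ⟨g, hg, hgy, hIn, hOrth, hDle⟩ := step0 z hz
    have hgy₁ : (g : Matrix ι ι F) *ᵥ y₁ ∈ W₂ ⊓ gim W₂ g := by
      refine ⟨?_, mulVec_mem_gim g hy₁⟩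
      rw [hgy y₁ hy₁]
      exact W₂.add_mem hy₁ hmem
    have hgy₁' : (g : Matrix ι ι F) *ᵥ y₁ ∉ S.line u ⊓ W₂ := by
      intro hcon
      apply hy₁u
      have e : y₁ = (g : Matrix ι ι F) *ᵥ y₁ - S.φ (S.B y₁ z) *ᵥ u := by
        rw [hgy y₁ hy₁]; abel
      rw [e]
      exact (S.line u).sub_mem hcon.1 (S.act_mem_line _ u)
    have hlt : S.line u ⊓ W₂ < W₂ ⊓ gim W₂ g :=
      lt_of_le_of_ne hDle (fun heq => hgy₁' (heq ▸ hgy₁))
    have hfinlt := Submodule.finrank_lt_finrank_of_lt hlt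
    have heq : W₂ = gim W₂ g := by
      by_contra hne'
      exact absurd (hmax W₂ (gim W₂ g) hW₂ hIn hne' hOrth) (not_le.mpr hfinlt)
    have hgyW : (g : Matrix ι ι F) *ᵥ y ∈ W₂ :=
      (SetLike.ext_iff.mp heq _).mpr (mulVec_mem_gim g hy)
    have e : S.φ (S.B y z) *ᵥ u = (g : Matrix ι ι F) *ᵥ y - y := by
      rw [hgy y hy]; abel
    rw [e]
    exact W₂.sub_mem hgyW hy
  -- (3) the subspace `DL` and its stabiliser
  obtain ⟨DL, hDL⟩ : ∃ DL : Submodule F L, ∀ k : L, k ∈ DL ↔ S.φ k *ᵥ u ∈ W₂ :=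
    ⟨W₂.comap (S.actL u), fun k => Iff.rfl⟩
  obtain ⟨E, hE⟩ : ∃ E : Subalgebra F L, ∀ e : L, e ∈ E ↔ ∀ k ∈ DL, e * k ∈ DL := by
    refine ⟨{ carrier := {e : L | ∀ k ∈ DL, e * k ∈ DL}
              mul_mem' := ?_
              one_mem' := ?_
              add_mem' := ?_
              zero_mem' := ?_
              algebraMap_mem' := ?_ }, fun e => Iff.rfl⟩
    · intro a b ha hb k hk
      rw [mul_assoc]
      exact ha _ (hb k hk)
    · intro k hk
      rw [one_mul]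
      exact hk
    · intro a b ha hb k hk
      rw [add_mul]
      exact DL.add_mem (ha k hk) (hb k hk)
    · intro k hk
      rw [zero_mul]
      exact DL.zero_mem
    · intro c k hk
      rw [← Algebra.smul_def]
      exact DL.smul_mem c hk
  have claim : ∀ z₁' : ι → F, S.B u z₁' = 0 → S.B y₁ z₁' = 1 → ∀ y ∈ W₂, S.B y z₁' ∈ E := by
    intro z₁' h1 h2' y hy
    rw [hE]
    intro k hk
    have hz : S.B u (S.φ k *ᵥ z₁') = 0 := by rw [S.B_act_right, h1, mul_zero]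
    have hmem : S.φ (S.B y₁ (S.φ k *ᵥ z₁')) *ᵥ u ∈ W₂ := by
      rw [S.B_act_right, h2', mul_one]
      exact (hDL k).1 hk
    have h3 := key _ hz hmem y hy
    rw [S.B_act_right] at h3
    rw [mul_comm]
    exact (hDL _).2 h3
  -- (4) `E = ⊥`
  have hsimple := Subalgebra.isSimpleOrder_of_finrank_prime F L hr
  have hEbot : E = ⊥ := by
    rcases eq_bot_or_eq_top E with hbot | htop
    · exact hbot
    · exfalso
      obtain ⟨d, hd', hd0⟩ := (Submodule.ne_bot_iff _).mp hD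
      obtain ⟨k, rfl⟩ := S.mem_line.mp hd'.1
      have hk0 : k ≠ 0 := by
        rintro rfl
        exact hd0 (S.φ_zero_mulVec u)
      have hkD : k ∈ DL := (hDL k).2 hd'.2
      have hle : S.line u ≤ W₂ := by
        intro w hw
        obtain ⟨l, rfl⟩ := S.mem_line.mp hw
        have h1 : l * k⁻¹ ∈ E := by rw [htop]; exact Algebra.mem_top
        have h2' := (hE _).1 h1 k hkD
        rw [mul_assoc, inv_mul_cancel₀ hk0, mul_one] at h2'
        exact (hDL l).1 h2'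
      exact hne (Submodule.eq_of_le_of_finrank_eq hle (hfinl.trans hfinW.symm)).symm
  have claim' : ∀ z₁' : ι → F, S.B u z₁' = 0 → S.B y₁ z₁' = 1 → ∀ y ∈ W₂,
      ∃ c : F, S.B y z₁' = algebraMap F L c := by
    intro z₁' h1 h2' y hy
    have h3 := claim z₁' h1 h2' y hy
    rw [hEbot, Algebra.mem_bot] at h3
    obtain ⟨c, hc⟩ := h3
    exact ⟨c, hc.symm⟩
  -- (5) vectors orthogonal to `u`, `y₁` are orthogonal to `W₂`
  obtain ⟨ω, hω⟩ : ∃ ω : L, ω ∉ Set.range (algebraMap F L) := by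
    by_contra hcon
    push Not at hcon
    have h1 : (⊥ : Subalgebra F L) = ⊤ := by
      apply eq_top_iff.mpr
      intro x _
      rw [Algebra.mem_bot]
      exact hcon x
    have h3 := Subalgebra.bot_eq_top_iff_finrank_eq_one.1 h1
    rw [h3] at hr
    exact Nat.not_prime_one hr
  have step5 : ∀ z' : ι → F, S.B u z' = 0 → S.B y₁ z' = 0 → ∀ y ∈ W₂, S.B y z' = 0 := by
    intro z' h1 h2' y hy
    by_contra hne0
    obtain ⟨c₁, hc₁⟩ := claim' z₁ hz₁u hz₁y y hy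
    have h3 : S.B u (z₁ + S.φ (ω * (S.B y z')⁻¹) *ᵥ z') = 0 := by
      rw [S.B_add_right, hz₁u, S.B_act_right, h1, mul_zero, add_zero]
    have h4 : S.B y₁ (z₁ + S.φ (ω * (S.B y z')⁻¹) *ᵥ z') = 1 := by
      rw [S.B_add_right, hz₁y, S.B_act_right, h2', mul_zero, add_zero]
    obtain ⟨c₂, hc₂⟩ := claim' _ h3 h4 y hy
    rw [S.B_add_right, S.B_act_right, hc₁, mul_assoc, inv_mul_cancel₀ hne0, mul_one] at hc₂
    apply hω
    refine ⟨c₂ - c₁, ?_⟩
    rw [map_sub, ← hc₂]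
    ring
  -- (6) the shape of the elements of `W₂`
  have step6 : ∀ y ∈ W₂, ∃ (a : L) (c : F), S.φ a *ᵥ u + c • y₁ = y := by
    intro y hy
    have hab : ∃ a b : L, S.φ a *ᵥ u + S.φ b *ᵥ y₁ = y := by
      by_contra hcon
      push Not at hcon
      obtain ⟨z, hz1, hz2, hz3⟩ := S.exists_dual2 hQ hcon
      have h3 := step5 z hz1 hz2 y hy
      rw [hz3] at h3
      exact one_ne_zero h3
    obtain ⟨a, b, hab⟩ := hab
    obtain ⟨c, hc⟩ := claim' z₁ hz₁u hz₁y y hy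
    have hb : b = algebraMap F L c := by
      rw [← hc, ← hab, S.B_add, S.B_act, S.B_act, hz₁u, hz₁y, mul_zero, mul_one, zero_add]
    refine ⟨a, c, ?_⟩
    rw [← hab, hb, S.φ_algebraMap_mulVec]
  -- (7) the dimension count
  have hy₁D : y₁ ∉ S.line u ⊓ W₂ := fun h => hy₁u h.1
  have hy₁0 : y₁ ≠ 0 := fun h => hy₁u (h ▸ (S.line u).zero_mem)
  have hW₂eq : W₂ = (S.line u ⊓ W₂) ⊔ Submodule.span F {y₁} := by
    apply le_antisymm
    · intro y hy
      obtain ⟨a, c, rfl⟩ := step6 y hy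
      apply Submodule.add_mem_sup
      · refine ⟨S.act_mem_line a u, ?_⟩
        have e : S.φ a *ᵥ u = (S.φ a *ᵥ u + c • y₁) - c • y₁ := by abel
        rw [e]
        exact W₂.sub_mem hy (W₂.smul_mem c hy₁)
      · exact Submodule.smul_mem _ c (Submodule.mem_span_singleton_self y₁)
    · apply sup_le inf_le_right
      rw [Submodule.span_singleton_le_iff_mem]
      exact hy₁
  have hdisj : (S.line u ⊓ W₂) ⊓ Submodule.span F {y₁} = ⊥ :=
    disjoint_iff.mp ((Submodule.disjoint_span_singleton' hy₁0).mpr hy₁D)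
  have h := Submodule.finrank_sup_add_finrank_inf_eq (S.line u ⊓ W₂) (Submodule.span F {y₁})
  rw [hdisj, finrank_bot, add_zero, ← hW₂eq, hfinW, finrank_span_singleton hy₁0] at h
  exact h.symm

end Cfsg.Agent.Lib.Helper13.OKD1
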