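import Cfsg.Agent.Lib.Helper22.PTDefs
import Cfsg.Agent.Lib.Helper57.BFFourier

/-!
# S4705 project PT (helper22), piece LAMDEC (proved by helper13)

The exterior square of `ζ` is the sum of the `Y k`, `k ≠ ± 2`: evaluate the decomposition `Dec`
at `z` (Fourier uniqueness over `ℤ` at the primitive root `w`) and at `1` (degree count).
-/

set_option autoImplicit false

namespace Cfsg.Agent.Lib.Helper13.PT

open Cfsg Cfsg.Agent.Lib.Helper22.BFD Cfsg.Agent.Lib.Helper22.PT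
open scoped ComplexConjugate

universe u

theorem lamdec_W_add (p : ℕ) [Fact p.Prime] (w : ℂ) (hw : IsPrimitiveRoot w p) (a b : ZMod p) :
    w ^ (a + b).val = w ^ a.val * w ^ b.val := by
  rw [← pow_add, ZMod.val_add, ← pow_eq_pow_mod _ hw.pow_eq_one]

theorem lamdec_sum_ind (p : ℕ) [Fact p.Prime] (c : ZMod p) (hc : c ≠ 0) :
    ∑ k : (ZMod p)ˣ, (if (k : ZMod p) = c then (1 : ℤ) else 0) = 1 := by
  rw [Finset.sum_eq_single (Units.mk0 c hc)]
  · simp
  · intro b _ hb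
    rw [if_neg]
    intro h
    exact hb (Units.ext h)
  · intro h
    exact absurd (Finset.mem_univ _) h

theorem lamdec_fourier (p : ℕ) [Fact p.Prime] (w : ℂ) (hw : IsPrimitiveRoot w p) (γ : ℤ)
    (N : ZMod p → ℤ) (a b : ZMod p) (ha : a ≠ 0) (hb : b ≠ 0)
    (hsum : (γ : ℂ) + ∑ v : ZMod p, (if v = 0 then 0 else (N v : ℂ) * w ^ v.val) + w ^ a.val +
      w ^ b.val = 0) (v : ZMod p) (hv : v ≠ 0) :
    N v + (if v = a then 1 else 0) + (if v = b then 1 else 0) = γ := by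
  have key : ∑ x : ZMod p, (((if x = 0 then γ else N x) + (if x = a then 1 else 0) +
      (if x = b then 1 else 0) : ℤ) : ℂ) * w ^ x.val = 0 := by
    have e1 : ∀ x : ZMod p, (((if x = 0 then γ else N x) + (if x = a then 1 else 0) +
        (if x = b then 1 else 0) : ℤ) : ℂ) * w ^ x.val =
        (if x = 0 then (γ : ℂ) * w ^ x.val else 0) +
        (if x = 0 then 0 else (N x : ℂ) * w ^ x.val) +
        (if x = a then w ^ x.val else 0) + (if x = b then w ^ x.val else 0) := by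
      intro x
      push_cast
      split_ifs <;> ring
    rw [Finset.sum_congr rfl (fun x _ => e1 x), Finset.sum_add_distrib, Finset.sum_add_distrib,
      Finset.sum_add_distrib, Finset.sum_ite_eq', Finset.sum_ite_eq', Finset.sum_ite_eq',
      if_pos (Finset.mem_univ _), if_pos (Finset.mem_univ _), if_pos (Finset.mem_univ _),
      ZMod.val_zero, pow_zero, mul_one]
    exact hsum
  have e := Cfsg.Agent.Lib.BF.bfF_const_of_sum_pow_eq_zero w hw
    (fun x => (if x = 0 then γ else N x) + (if x = a then 1 else 0) + (if x = b then 1 else 0))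
    key v 0
  simp only [if_neg hv, if_neg ha.symm, if_neg hb.symm, if_true, add_zero] at e
  exact e

variable {G : Type u} [Group G] [Fintype G]

/-- PIECE LAMDEC -/
theorem lamdec (p : ℕ) [Fact p.Prime] (w : ℂ) (hw : IsPrimitiveRoot w p) (z : G) (ζ : G → ℂ)
    (h : Hyp G p z ζ) (u : ZMod p) (hu : u ≠ 0)
    (hex : ∀ t : ZMod p, t ≠ 0 → ζ (z ^ t.val) = -ev p w u t)
    (η : G → ℂ) (χ₁ χ₂ : IrrCharacter G) (Y : (ZMod p)ˣ → IrrCharacter G)
    (hB : Blk G p w z η u χ₁ χ₂ Y)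
    (hdec : Dec p z χ₁ χ₂ Y (fun g => (ζ g ^ 2 - ζ (g ^ 2)) / 2)) :
    ∀ g, ζ g ^ 2 - ζ (g ^ 2) =
      ∑ k : (ZMod p)ˣ, (if (k : ZMod p) = 2 ∨ (k : ZMod p) = -2 then 0 else (Y k).1 g) := by
  obtain ⟨α, β, n, Δ, hnneg, hd, hΔz, ⟨d, hΔ1⟩, hΔ0, -⟩ := hdec
  have hp5 : 5 < p := h.p5
  have hd' : ∀ g, ζ g ^ 2 - ζ (g ^ 2) = 2 * (α : ℂ) * χ₁.1 g + 2 * (β : ℂ) * χ₂.1 g +
      ∑ k, (n k : ℂ) * (Y k).1 g + 2 * Δ g := by
    intro g
    have e := hd g
    beta_reduce at e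
    linear_combination e
  have hWadd : ∀ a b : ZMod p, w ^ (a + b).val = w ^ a.val * w ^ b.val := lamdec_W_add p w hw
  have hW0 : w ^ (0 : ZMod p).val = 1 := by rw [ZMod.val_zero, pow_zero]
  have h1v : (1 : ZMod p).val = 1 := ZMod.val_one p
  have h2v : (2 : ZMod p).val = 2 := by
    rw [show (2 : ZMod p) = ((2 : ℕ) : ZMod p) by norm_cast, ZMod.val_natCast,
      Nat.mod_eq_of_lt (by omega)]
  have h20 : (2 : ZMod p) ≠ 0 := by
    intro h0
    rw [h0, ZMod.val_zero] at h2v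
    omega
  have h10 : (1 : ZMod p) ≠ 0 := one_ne_zero
  -- values at `z`
  have hz1 : ζ z = -ev p w u 1 := by
    have := hex 1 h10
    rwa [h1v, pow_one] at this
  have hz2 : ζ (z ^ 2) = -ev p w u 2 := by
    have := hex 2 h20
    rwa [h2v] at this
  have hc1 : χ₁.1 z = 1 := by
    have := hB.val1 1 h10
    rwa [h1v, pow_one] at this
  have hc2 : χ₂.1 z = -1 := by
    have := hB.val2 1 h10
    rwa [h1v, pow_one] at this
  have hcY : ∀ k : (ZMod p)ˣ, (Y k).1 z = -ev p w (u * k) 1 := by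
    intro k
    have := hB.valY k 1 h10
    rwa [h1v, pow_one] at this
  have hcΔ : Δ z = 0 := by
    have := hΔz 1 h10
    rwa [h1v, pow_one] at this
  -- `ev` identities
  have hev1 : ev p w u 1 = w ^ u.val + w ^ (-u).val := by
    unfold ev
    rw [mul_one]
  have hev2 : ev p w u 2 = w ^ (u * 2).val + w ^ (u * (-2)).val := by
    unfold ev
    rw [mul_neg]
  have hevk : ∀ k : (ZMod p)ˣ, ev p w (u * k) 1 =
      w ^ (u * (k : ZMod p)).val + w ^ (u * ((-k : (ZMod p)ˣ) : ZMod p)).val := by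
    intro k
    unfold ev
    rw [mul_one, Units.val_neg, mul_neg]
  have hWuu : w ^ u.val * w ^ u.val = w ^ (u * 2).val := by
    rw [← hWadd, mul_two]
  have hWnn : w ^ (-u).val * w ^ (-u).val = w ^ (u * (-2)).val := by
    rw [← hWadd]
    congr 2
    ring
  have hWun : w ^ u.val * w ^ (-u).val = 1 := by
    rw [← hWadd, add_neg_cancel, hW0]
  have hsumneg : ∑ k : (ZMod p)ˣ, (n k : ℂ) * w ^ (u * ((-k : (ZMod p)ˣ) : ZMod p)).val =
      ∑ k : (ZMod p)ˣ, (n k : ℂ) * w ^ (u * (k : ZMod p)).val := by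
    refine Fintype.sum_equiv (Equiv.neg _) _ _ ?_
    intro k
    simp only [Equiv.neg_apply, hnneg]
  -- the relation at `z`
  have hrel : (1 - (α : ℂ) + (β : ℂ)) + ∑ k : (ZMod p)ˣ, (n k : ℂ) * w ^ (u * (k : ZMod p)).val +
      w ^ (u * 2).val + w ^ (u * (-2)).val = 0 := by
    have e := hd' z
    rw [hz1, hz2, hc1, hc2, hcΔ, hev1, hev2] at e
    have e2 : ∑ k : (ZMod p)ˣ, (n k : ℂ) * (Y k).1 z =
        -(∑ k : (ZMod p)ˣ, (n k : ℂ) * w ^ (u * (k : ZMod p)).val +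
          ∑ k : (ZMod p)ˣ, (n k : ℂ) * w ^ (u * ((-k : (ZMod p)ˣ) : ZMod p)).val) := by
      rw [← Finset.sum_add_distrib, ← Finset.sum_neg_distrib]
      refine Finset.sum_congr rfl ?_
      intro k _
      rw [hcY, hevk]
      ring
    rw [hsumneg] at e2
    rw [e2] at e
    linear_combination (1 / 2 : ℂ) * e - (1 / 2 : ℂ) * hWuu - (1 / 2 : ℂ) * hWnn - hWun
  -- Fourier uniqueness
  obtain ⟨kk, hkk⟩ : ∃ kk : ZMod p → (ZMod p)ˣ, ∀ k : (ZMod p)ˣ, kk (u * (k : ZMod p)) = k := by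
    refine ⟨fun v => if hv : v = 0 then 1 else Units.mk0 (v / u) (div_ne_zero hv hu), ?_⟩
    intro k
    have hne : u * (k : ZMod p) ≠ 0 := mul_ne_zero hu k.ne_zero
    simp only [dif_neg hne]
    apply Units.ext
    rw [Units.val_mk0, mul_comm, mul_div_assoc, div_self hu, mul_one]
  set γ : ℤ := 1 - (α : ℤ) + (β : ℤ) with hγ
  have hS : ∑ v : ZMod p, (if v = 0 then (0 : ℂ) else (((n (kk v) : ℕ) : ℤ) : ℂ) * w ^ v.val) =
      ∑ k : (ZMod p)ˣ, (n k : ℂ) * w ^ (u * (k : ZMod p)).val := by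
    rw [← Cfsg.Agent.Lib.BF.bfF_sum_units_mul
      (fun v : ZMod p => if v = 0 then (0 : ℂ) else (((n (kk v) : ℕ) : ℤ) : ℂ) * w ^ v.val)
      (if_pos rfl) u hu]
    refine Finset.sum_congr rfl ?_
    intro k _
    rw [mul_comm (k : ZMod p) u, if_neg (mul_ne_zero hu k.ne_zero), hkk, Int.cast_natCast]
  have hconst : ∀ k : (ZMod p)ˣ, (n k : ℤ) + (if (k : ZMod p) = 2 then 1 else 0) +
      (if (k : ZMod p) = -2 then 1 else 0) = γ := by
    intro k
    have hγc : (γ : ℂ) = 1 - (α : ℂ) + (β : ℂ) := by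
      rw [hγ]
      push_cast
      ring
    have e := lamdec_fourier p w hw γ (fun v => ((n (kk v) : ℕ) : ℤ)) (u * 2) (u * (-2))
      (mul_ne_zero hu h20) (mul_ne_zero hu (neg_ne_zero.mpr h20))
      (by rw [hS, hγc]; exact hrel) (u * (k : ZMod p)) (mul_ne_zero hu k.ne_zero)
    have i1 : (u * (k : ZMod p) = u * 2) ↔ ((k : ZMod p) = 2) := mul_right_inj' hu
    have i2 : (u * (k : ZMod p) = u * (-2)) ↔ ((k : ZMod p) = -2) := mul_right_inj' hu
    simp only [hkk, i1, i2] at e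
    exact e
  have hnk : ∀ k : (ZMod p)ˣ, (n k : ℤ) = γ - (if (k : ZMod p) = 2 then 1 else 0) -
      (if (k : ZMod p) = -2 then 1 else 0) := by
    intro k
    linarith [hconst k]
  have hsumn : ∑ k : (ZMod p)ˣ, (n k : ℤ) = ((p : ℤ) - 1) * γ - 2 := by
    rw [Finset.sum_congr rfl (fun k _ => hnk k), Finset.sum_sub_distrib, Finset.sum_sub_distrib,
      lamdec_sum_ind p 2 h20, lamdec_sum_ind p (-2) (neg_ne_zero.mpr h20), Finset.sum_const,
      Finset.card_univ, ZMod.card_units p, nsmul_eq_mul, Nat.cast_sub (by omega : 1 ≤ p)]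
    push_cast
    ring
  have hγ1 : 1 ≤ γ := by
    have e := hconst (Units.mk0 2 h20)
    rw [Units.val_mk0, if_pos rfl] at e
    have h2 : (0 : ℤ) ≤ (if (2 : ZMod p) = -2 then (1 : ℤ) else 0) := by
      split_ifs <;> norm_num
    have h3 : (0 : ℤ) ≤ (n (Units.mk0 2 h20) : ℤ) := Int.natCast_nonneg _
    linarith
  -- degrees
  obtain ⟨a, ha⟩ := hB.deg1
  have hdeg : ((p : ℂ) - 2) ^ 2 - ((p : ℂ) - 2) = 2 * (α : ℂ) * (1 + (a : ℂ) * p) +
      2 * (β : ℂ) * (1 + (a : ℂ) * p + ((p : ℂ) - 2)) +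
      (((p : ℂ) - 1) * (γ : ℂ) - 2) * ((p : ℂ) - 2) + 2 * (d : ℂ) := by
    have e := hd' 1
    rw [one_pow, h.deg, hB.deg2, ha, hΔ1] at e
    have e3 : ∑ k : (ZMod p)ˣ, (n k : ℂ) * (Y k).1 1 =
        (((p : ℂ) - 1) * (γ : ℂ) - 2) * ((p : ℂ) - 2) := by
      have e4 : ∑ k : (ZMod p)ˣ, (n k : ℂ) = ((p : ℂ) - 1) * (γ : ℂ) - 2 := by
        have e5 := congrArg (fun x : ℤ => (x : ℂ)) hsumn
        push_cast at e5
        exact e5
      rw [← e4, Finset.sum_mul]
      refine Finset.sum_congr rfl ?_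
      intro k _
      rw [hB.degY]
    rw [e3] at e
    exact e
  have hdegZ : ((p : ℤ) - 2) ^ 2 - ((p : ℤ) - 2) = 2 * (α : ℤ) * (1 + (a : ℤ) * p) +
      2 * (β : ℤ) * (1 + (a : ℤ) * p + ((p : ℤ) - 2)) +
      (((p : ℤ) - 1) * γ - 2) * ((p : ℤ) - 2) + 2 * (d : ℤ) := by
    exact_mod_cast hdeg
  have hP : (6 : ℤ) ≤ (p : ℤ) := by
    have : 6 ≤ p := hp5
    exact_mod_cast this
  have hα0' : (0 : ℤ) ≤ (α : ℤ) := Int.natCast_nonneg _
  have hβ0' : (0 : ℤ) ≤ (β : ℤ) := Int.natCast_nonneg _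
  have hd0' : (0 : ℤ) ≤ (d : ℤ) := Int.natCast_nonneg _
  have haP : (0 : ℤ) ≤ (a : ℤ) * p := by positivity
  have hαβ : (α : ℤ) ≤ β := by
    rw [hγ] at hγ1
    linarith
  have t1 : 0 ≤ 2 * (α : ℤ) * (1 + (a : ℤ) * p) :=
    mul_nonneg (by linarith) (by linarith)
  have t2 : 0 ≤ 2 * (β : ℤ) * ((a : ℤ) * p + p - 1) :=
    mul_nonneg (by linarith) (by linarith)
  have t3 : 0 ≤ ((p : ℤ) - 2) * ((p : ℤ) - 1) * ((β : ℤ) - α) :=
    mul_nonneg (mul_nonneg (by linarith) (by linarith)) (by linarith)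
  have hsum0 : 2 * (α : ℤ) * (1 + (a : ℤ) * p) + 2 * (β : ℤ) * ((a : ℤ) * p + p - 1) +
      ((p : ℤ) - 2) * ((p : ℤ) - 1) * ((β : ℤ) - α) + 2 * (d : ℤ) = 0 := by
    rw [hγ] at hdegZ
    linear_combination (-1 : ℤ) * hdegZ
  have hα0 : α = 0 := by
    have e : 2 * (α : ℤ) * (1 + (a : ℤ) * p) = 0 := by linarith
    have h1 : (0 : ℤ) < 1 + (a : ℤ) * p := by linarith
    have : (α : ℤ) = 0 := by
      rcases mul_eq_zero.1 e with h' | h'
      · linarith
      · linarith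
    exact_mod_cast this
  have hβ0 : β = 0 := by
    have e : 2 * (β : ℤ) * ((a : ℤ) * p + p - 1) = 0 := by linarith
    have h1 : (0 : ℤ) < (a : ℤ) * p + p - 1 := by linarith
    have : (β : ℤ) = 0 := by
      rcases mul_eq_zero.1 e with h' | h'
      · linarith
      · linarith
    exact_mod_cast this
  have hd0 : d = 0 := by
    have e : 2 * (d : ℤ) = 0 := by linarith
    have : (d : ℤ) = 0 := by linarith
    exact_mod_cast this
  have hγone : γ = 1 := by
    rw [hγ, hα0, hβ0]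
    simp
  have hΔg : ∀ g, Δ g = 0 := hΔ0 (by rw [hΔ1, hd0]; simp)
  intro g
  rw [hd' g, hα0, hβ0, hΔg g]
  simp only [Nat.cast_zero, mul_zero, zero_mul, zero_add, add_zero]
  refine Finset.sum_congr rfl ?_
  intro k _
  have e := hconst k
  rw [hγone] at e
  have hnn : (0 : ℤ) ≤ (n k : ℤ) := Int.natCast_nonneg _
  by_cases hk : (k : ZMod p) = 2 ∨ (k : ZMod p) = -2
  · rw [if_pos hk]
    have hn0 : (n k : ℤ) = 0 := by
      rcases hk with hk | hk
      · rw [if_pos hk] at e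
        have : (0 : ℤ) ≤ (if (k : ZMod p) = -2 then (1 : ℤ) else 0) := by
          split_ifs <;> norm_num
        linarith
      · rw [if_pos hk] at e
        have : (0 : ℤ) ≤ (if (k : ZMod p) = 2 then (1 : ℤ) else 0) := by
          split_ifs <;> norm_num
        linarith
    have hn0' : n k = 0 := by exact_mod_cast hn0
    rw [hn0']
    simp
  · rw [if_neg hk]
    push Not at hk
    rw [if_neg hk.1, if_neg hk.2] at e
    have hn1 : (n k : ℤ) = 1 := by linarith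
    have hn1' : n k = 1 := by exact_mod_cast hn1
    rw [hn1']
    simp

end Cfsg.Agent.Lib.Helper13.PT
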