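import Mathlib
import Cfsg.Prelude.Def_GeometricClasses
import Cfsg.Prelude.Def_Classical
import Cfsg.Agent.Lib.Helper42.T73HALF
import Cfsg.Agent.Lib.Helper66.QuadSTD

/-! Project PE (S5988, helper96), piece SIEGPLUS (proved by helper13): every even-dimensional
nondegenerate subspace invariant under the Siegel element `fromBlocks 1 S 0 1` (kernel of `S` at
most a line) is of plus type. -/

set_option autoImplicit false

namespace Cfsg.Agent.Lib.Helper13.Pe

universe u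

open Module Matrix

variable {F : Type u} [Field F] [Fintype F]

omit [Fintype F] in
theorem SIEGPLUS_rank_nullity {V V' : Type*} [AddCommGroup V] [Module F V]
    [FiniteDimensional F V] [AddCommGroup V'] [Module F V'] (f : V →ₗ[F] V')
    (p : Submodule F V) :
    finrank F ↥(p.map f) + finrank F ↥(p ⊓ LinearMap.ker f) = finrank F ↥p := by
  have h := LinearMap.finrank_range_add_finrank_ker (f ∘ₗ p.subtype)
  have h1 : LinearMap.range (f ∘ₗ p.subtype) = p.map f := by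
    rw [LinearMap.range_comp, Submodule.range_subtype]
  have h2 : (LinearMap.ker (f ∘ₗ p.subtype)).map p.subtype = p ⊓ LinearMap.ker f := by
    ext v
    simp only [Submodule.mem_map, LinearMap.mem_ker, LinearMap.comp_apply,
      Submodule.subtype_apply, Submodule.mem_inf]
    constructor
    · rintro ⟨w, hw, rfl⟩
      exact ⟨w.2, hw⟩
    · rintro ⟨hv, hfv⟩
      exact ⟨⟨v, hv⟩, hfv, rfl⟩
  have h3 : finrank F ↥((LinearMap.ker (f ∘ₗ p.subtype)).map p.subtype) =
      finrank F ↥(LinearMap.ker (f ∘ₗ p.subtype)) :=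
    Submodule.finrank_map_subtype_eq p _
  rw [h1] at h
  rw [← h2, h3]
  exact h

-- PIECE SIEGPLUS
theorem siegel_plus_type (d : ℕ) (S : Matrix (Fin d) (Fin d) F) (f₀ : Fin d → F)
    (hker : ∀ f : Fin d → F, S *ᵥ f = 0 → ∃ c : F, f = c • f₀)
    (W : Submodule F (Fin d ⊕ Fin d → F))
    (hW : Cfsg.Geo.IsNondegenerateOn (QuadraticMap.polar (Cfsg.quadFormPlus d F)) W)
    (hev : Even (finrank F W))
    (hWx : W.map (Matrix.toLin'
      (Matrix.fromBlocks 1 S 0 1 : Matrix (Fin d ⊕ Fin d) (Fin d ⊕ Fin d) F)) ≤ W) :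
    Cfsg.Geo.IsPlusTypeOn (Cfsg.quadFormPlus d F) W := by
  classical
  have hxv : ∀ v : Fin d ⊕ Fin d → F,
      Matrix.toLin' (Matrix.fromBlocks 1 S 0 1 : Matrix (Fin d ⊕ Fin d) (Fin d ⊕ Fin d) F) v =
        Sum.elim (v ∘ Sum.inl + S *ᵥ (v ∘ Sum.inr)) (v ∘ Sum.inr) := by
    intro v
    rw [Matrix.toLin'_apply]
    conv_lhs => rw [← Sum.elim_comp_inl_inr v]
    rw [Matrix.fromBlocks_mulVec]
    simp
  let N : (Fin d ⊕ Fin d → F) →ₗ[F] (Fin d ⊕ Fin d → F) :=
    Matrix.toLin' (Matrix.fromBlocks 1 S 0 1 : Matrix (Fin d ⊕ Fin d) (Fin d ⊕ Fin d) F) -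
      LinearMap.id
  let π : (Fin d ⊕ Fin d → F) →ₗ[F] (Fin d → F) := LinearMap.funLeft F F Sum.inr
  have hπ : ∀ v, π v = v ∘ Sum.inr := fun v => rfl
  have hN : ∀ v, N v =
      Matrix.toLin' (Matrix.fromBlocks 1 S 0 1 : Matrix (Fin d ⊕ Fin d) (Fin d ⊕ Fin d) F) v - v :=
    fun v => rfl
  -- (1) `N` maps `W` into `W ⊓ E`
  have hmapN : W.map N ≤ W ⊓ LinearMap.ker π := by
    rintro _ ⟨w, hw, rfl⟩
    refine ⟨?_, ?_⟩
    · rw [hN]
      exact W.sub_mem (hWx (Submodule.mem_map_of_mem hw)) hw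
    · show π (N w) = 0
      rw [hπ, hN, hxv]
      funext j
      simp
  -- (3) the kernel of `N` projects into the line of `f₀`
  have hmapπ : (W ⊓ LinearMap.ker N).map π ≤ Submodule.span F {f₀} := by
    rintro _ ⟨k, ⟨_, hk0⟩, rfl⟩
    have hk : N k = 0 := hk0
    rw [hN, hxv, sub_eq_zero] at hk
    have hS : S *ᵥ (k ∘ Sum.inr) = 0 := by
      funext a
      have h3 := congrFun hk (Sum.inl a)
      simpa using h3
    obtain ⟨c, hc⟩ := hker _ hS
    rw [hπ, hc]
    exact Submodule.smul_mem _ _ (Submodule.mem_span_singleton_self f₀)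
  have h1 := SIEGPLUS_rank_nullity N W
  have h2 := Submodule.finrank_mono hmapN
  have h3 := SIEGPLUS_rank_nullity π (W ⊓ LinearMap.ker N)
  have h4 : finrank F ↥((W ⊓ LinearMap.ker N).map π) ≤ 1 :=
    (Submodule.finrank_mono hmapπ).trans
      ((finrank_span_le_card ({f₀} : Set (Fin d → F))).trans (by simp))
  have h5 : finrank F ↥(W ⊓ LinearMap.ker N ⊓ LinearMap.ker π) ≤
      finrank F ↥(W ⊓ LinearMap.ker π) :=
    Submodule.finrank_mono (inf_le_inf_right _ inf_le_left)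
  -- (4) the half bound
  have hTS : Cfsg.Agent.Lib.Helper98.T73.TS (Cfsg.quadFormPlus d F) (W ⊓ LinearMap.ker π) := by
    intro w hw
    have hw2 : π w = 0 := hw.2
    rw [hπ] at hw2
    unfold Cfsg.quadFormPlus
    apply Finset.sum_eq_zero
    intro i _
    have h7 : w (Sum.inr i) = 0 := congrFun hw2 i
    rw [h7, mul_zero]
  have hQ := Cfsg.Agent.Lib.Helper66.QuadSTD.quadFormPlus_isQuad (F := F) d
  have hnd : Cfsg.Agent.Lib.Helper47.Nondeg
      (Cfsg.Agent.Lib.Helper47.resForm (Cfsg.Agent.Lib.Helper66.QuadSTD.plusB d F) W) := by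
    intro y hy
    by_contra hne
    have hne' : (y : Fin d ⊕ Fin d → F) ≠ 0 := fun h => hne (Subtype.ext h)
    obtain ⟨_, ⟨z, hz, hzne⟩⟩ := hW y y.2 hne'
    apply hzne
    have h6 : Cfsg.Agent.Lib.Helper66.QuadSTD.plusB d F (y : Fin d ⊕ Fin d → F) z = 0 :=
      hy ⟨z, hz⟩
    unfold QuadraticMap.polar
    rw [hQ.polar, h6]
    ring
  have h6 := Cfsg.Agent.Lib.Helper98.T73.half_bound hQ W (W ⊓ LinearMap.ker π) hnd
    inf_le_left hTS
  refine ⟨W ⊓ LinearMap.ker π, inf_le_left, hTS, ?_⟩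
  obtain ⟨k, hk⟩ := hev
  omega

end Cfsg.Agent.Lib.Helper13.Pe
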