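import Mathlib
import Cfsg.Agent.Lib.Helper52.SP8EBDefs

/-! SP8-EB (sub-project of S5823; architect helper52), piece QINV (proved by helper13):
the quaternion set `Q` has inverses (the adjugate). -/

set_option autoImplicit false

namespace Cfsg.Agent.Lib.Helper52.SP8EB

open Matrix Cfsg.Geo Cfsg.Agent.Lib.Helper71.Asch

variable {n : ℕ} {F : Type*} [Field F] [Fintype F]

/-- QINV [easy, any field]: inverse of x ∈ Q is 1, -1 or -x (= adjugate, trace 0). -/
theorem QINV : HQinv F := by
  intro x hx
  obtain ⟨hdet, h⟩ := hx
  refine ⟨x.adjugate, ⟨?_, ?_⟩, ?_, ?_⟩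
  · rw [Matrix.det_adjugate, hdet, one_pow]
  · rcases h with rfl | rfl | h
    · left
      exact Matrix.adjugate_one
    · right
      left
      rw [Matrix.adjugate_fin_two]
      ext i j
      fin_cases i <;> fin_cases j <;> simp
    · right
      right
      rw [Matrix.trace_fin_two] at h
      rw [Matrix.adjugate_fin_two, Matrix.trace_fin_two]
      simp only [Matrix.of_apply, Matrix.cons_val_zero, Matrix.cons_val_one]
      linear_combination h
  · rw [Matrix.mul_adjugate, hdet, one_smul]
  · rw [Matrix.adjugate_mul, hdet, one_smul]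

end Cfsg.Agent.Lib.Helper52.SP8EB
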