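import Mathlib
import Cfsg.Prelude.Def_GeometricClasses
import Cfsg.Agent.Lib.Helper71.Asch0

/-! Project SU8 (helper50; S5820): piece `AU4` (proved by helper13): the field with `q²` elements
is the minimal field containing the fourth roots of unity only if `q = p ≡ 3 (mod 4)`. -/

set_option autoImplicit false

namespace Cfsg.Agent.Lib.Helper13.SU8AU4

open Matrix Cfsg.Geo Cfsg.Agent.Lib.Helper71.Asch

variable {n : ℕ} {F : Type*} [Field F] [Fintype F] {q : ℕ}

/-- AU4: the field with `q²` elements is the minimal field containing the fourth roots of unity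
only if `q = p ≡ 3 (mod 4)`. -/
theorem AU4 (hF : Fintype.card F = q ^ 2) (p e : ℕ) (hmin : IsMinimalFieldFor 4 p e F) :
    q = p ∧ p % 4 = 3 := by
  obtain ⟨hp, -, hcard, hdvd, hmin'⟩ := hmin
  have hp0 := hp.pos
  have hqe : q ^ 2 = p ^ e := by rw [← hF, hcard]
  have he0 : 0 < e := by
    rcases Nat.eq_zero_or_pos e with h | h
    · exfalso
      rw [h, pow_zero] at hcard
      have := Fintype.one_lt_card (α := F)
      omega
    · exact h
  have hpodd : p % 2 = 1 := by
    rcases hp.eq_two_or_odd with h2 | h2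
    · exfalso
      subst h2
      have h2e : 2 ∣ 2 ^ e := dvd_pow_self 2 he0.ne'
      have h2d : 2 ∣ 2 ^ e - 1 := (by norm_num : (2 : ℕ) ∣ 4).trans hdvd
      have hpos : 0 < 2 ^ e := by positivity
      omega
    · exact h2
  have h4 : 4 ∣ p ^ 2 - 1 := by
    obtain ⟨m, hm⟩ : ∃ m, p = 2 * m + 1 := ⟨p / 2, by omega⟩
    subst hm
    refine ⟨m * (m + 1), ?_⟩
    have h5 : (2 * m + 1) ^ 2 = 4 * (m * (m + 1)) + 1 := by ring
    omega
  have he2 : e ≤ 2 := by
    by_contra hcon
    exact hmin' 2 (by norm_num) (by omega) h4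
  have he : e = 2 := by
    rcases (by omega : e = 1 ∨ e = 2) with h1 | h1
    · exfalso
      rw [h1, pow_one] at hqe
      have hq : q ∣ p := ⟨q, by rw [← hqe]; ring⟩
      rcases (Nat.dvd_prime hp).mp hq with hq1 | hq1
      · rw [hq1] at hqe
        norm_num at hqe
        exact hp.one_lt.ne' hqe.symm
      · rw [hq1] at hqe
        have h6 : p * p = p * 1 := by
          rw [mul_one, ← pow_two]
          exact hqe
        exact hp.one_lt.ne' (Nat.eq_of_mul_eq_mul_left hp0 h6)
    · exact h1
  subst he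
  have hqp : q = p := Nat.pow_left_injective (by norm_num : 2 ≠ 0) hqe
  refine ⟨hqp, ?_⟩
  have h1 := hmin' 1 (by norm_num) (by norm_num)
  rw [pow_one] at h1
  omega

end Cfsg.Agent.Lib.Helper13.SU8AU4
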