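import Cfsg.Agent.Lib.Helper96.SpBlock

/-!
Piece R2 of S5956: an isometry `T` of a nondegenerate alternating space (characteristic not 2)
with `T * T = 1` or `T * T = -1` has invariant nondegenerate subspaces of every even dimension.
-/

set_option autoImplicit false
set_option linter.unusedSectionVars false
set_option linter.unusedVariables false

namespace Cfsg.Agent.Lib.Helper13.SpR2

open Module Cfsg.Agent.Lib.Helper96.Sp

variable {F : Type*} [Field F] {V : Type*} [AddCommGroup V] [Module F V]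
  [FiniteDimensional F V] {B : LinearMap.BilinForm F V}

/-- The plane spanned by two vectors with nonzero product is nondegenerate of dimension 2. -/
theorem plane_nd (hA : B.IsAlt) (v w : V) (hvw : B v w ≠ 0) :
    ND B (Submodule.span F (Set.range ![v, w])) ∧
      finrank F (Submodule.span F (Set.range ![v, w])) = 2 := by
  have hli : LinearIndependent F ![v, w] := by
    rw [LinearIndependent.pair_iff]
    intro s t hst
    have h1 : B (s • v + t • w) w = 0 := by rw [hst, map_zero, LinearMap.zero_apply]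
    have h2 : B v (s • v + t • w) = 0 := by rw [hst, map_zero]
    rw [map_add, LinearMap.add_apply, map_smul, map_smul, LinearMap.smul_apply,
      LinearMap.smul_apply, hA w, smul_zero, add_zero, smul_eq_mul] at h1
    rw [map_add, map_smul, map_smul, hA v, smul_zero, zero_add, smul_eq_mul] at h2
    exact ⟨(mul_eq_zero.mp h1).resolve_right hvw, (mul_eq_zero.mp h2).resolve_right hvw⟩
  refine ⟨?_, ?_⟩
  · intro u hu h
    obtain ⟨cf, hcf⟩ := (Submodule.mem_span_range_iff_exists_fun F).mp hu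
    rw [Fin.sum_univ_two] at hcf
    obtain ⟨α, β, rfl⟩ : ∃ α β : F, α • v + β • w = u := ⟨cf 0, cf 1, hcf⟩
    have hvP : v ∈ Submodule.span F (Set.range ![v, w]) := Submodule.subset_span ⟨0, rfl⟩
    have hwP : w ∈ Submodule.span F (Set.range ![v, w]) := Submodule.subset_span ⟨1, rfl⟩
    have h1 := h v hvP
    have h2 := h w hwP
    rw [map_add, LinearMap.add_apply, map_smul, map_smul, LinearMap.smul_apply,
      LinearMap.smul_apply, hA v, smul_zero, zero_add, smul_eq_mul, alt_swap hA w v,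
      mul_neg, neg_eq_zero] at h1
    rw [map_add, LinearMap.add_apply, map_smul, map_smul, LinearMap.smul_apply,
      LinearMap.smul_apply, hA w, smul_zero, add_zero, smul_eq_mul] at h2
    rw [(mul_eq_zero.mp h1).resolve_right hvw, (mul_eq_zero.mp h2).resolve_right hvw, zero_smul,
      zero_smul, add_zero]
  · rw [finrank_span_eq_card hli]
    simp

/-- Case `T * T = 1`: eigenspace decomposition. -/
theorem exists_nd_inv_of_sq_one (hA : B.IsAlt) (hN : ND B ⊤)
    (h2 : (2 : F) ≠ 0) (T : Module.End F V) (hT : Isom B T) (hsq : T * T = 1)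
    (m : ℕ) (hme : Even m) (hm : m ≤ finrank F V) :
    ∃ W : Submodule F V, W.map T ≤ W ∧ ND B W ∧ finrank F W = m := by
  have hTT : ∀ v, T (T v) = v := by
    intro v
    have h := congrArg (fun f : Module.End F V => f v) hsq
    simpa using h
  have hp : ∀ x, x ∈ LinearMap.ker (T - 1) → T x = x := by
    intro x hx
    rw [LinearMap.mem_ker, LinearMap.sub_apply, Module.End.one_apply, sub_eq_zero] at hx
    exact hx
  have hmn : ∀ x, x ∈ LinearMap.ker (T + 1) → T x = -x := by
    intro x hx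
    rw [LinearMap.mem_ker, LinearMap.add_apply, Module.End.one_apply] at hx
    exact eq_neg_of_add_eq_zero_left hx
  have hsup : LinearMap.ker (T - 1) ⊔ LinearMap.ker (T + 1) = ⊤ := by
    rw [eq_top_iff]
    intro v _
    have hv : v = (2 : F)⁻¹ • (v + T v) + (2 : F)⁻¹ • (v - T v) := by
      rw [← smul_add]
      have h1 : v + T v + (v - T v) = (2 : F) • v := by
        rw [two_smul]
        abel
      rw [h1, smul_smul, inv_mul_cancel₀ h2, one_smul]
    rw [hv]
    apply Submodule.add_mem_sup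
    · apply Submodule.smul_mem
      rw [LinearMap.mem_ker, LinearMap.sub_apply, Module.End.one_apply, map_add, hTT]
      abel
    · apply Submodule.smul_mem
      rw [LinearMap.mem_ker, LinearMap.add_apply, Module.End.one_apply, map_sub, hTT]
      abel
  have horth : Orth B (LinearMap.ker (T - 1)) (LinearMap.ker (T + 1)) := by
    intro x hx y hy
    have h := hT x y
    rw [hp x hx, hmn y hy, map_neg] at h
    have h3 : (2 : F) * B x y = 0 := by
      rw [two_mul]
      nth_rewrite 1 [← h]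
      exact neg_add_cancel _
    exact (mul_eq_zero.mp h3).resolve_left h2
  have hVpnd : ND B (LinearMap.ker (T - 1)) := nd_of_orth_sup hN horth hsup
  have hVmnd : ND B (LinearMap.ker (T + 1)) :=
    nd_of_orth_sup hN (orth_symm hA horth) (by rw [sup_comm]; exact hsup)
  have hfin := (nd_sup hA hVpnd hVmnd horth).2
  rw [hsup, finrank_top] at hfin
  obtain ⟨a, ha⟩ := even_finrank_of_nd hA _ hVpnd
  obtain ⟨b, hb⟩ := even_finrank_of_nd hA _ hVmnd
  obtain ⟨k, hk⟩ := hme
  obtain ⟨Wp, hWp, hWpnd, hWpfin⟩ := exists_nd_sub hA _ hVpnd (min k a) (by omega)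
  obtain ⟨Wm, hWm, hWmnd, hWmfin⟩ := exists_nd_sub hA _ hVmnd (k - min k a) (by omega)
  have horth' : Orth B Wp Wm := orth_mono horth hWp hWm
  refine ⟨Wp ⊔ Wm, ?_, (nd_sup hA hWpnd hWmnd horth').1, ?_⟩
  · rw [Submodule.map_sup]
    apply sup_le_sup
    · rintro _ ⟨x, hx, rfl⟩
      rw [hp x (hWp hx)]
      exact hx
    · rintro _ ⟨x, hx, rfl⟩
      rw [hmn x (hWm hx)]
      exact Wm.neg_mem hx
  · rw [(nd_sup hA hWpnd hWmnd horth').2, hWpfin, hWmfin]
    omega

/-- Case `T * T = -1`: an invariant nondegenerate plane inside every nonzero invariant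
nondegenerate subspace. -/
theorem exists_plane_of_sq_neg (hA : B.IsAlt) (hN : ND B ⊤)
    (h2 : (2 : F) ≠ 0) (T : Module.End F V) (hT : Isom B T) (hsq : T * T = -1)
    (Z : Submodule F V) (hZ : Z.map T ≤ Z) (hZnd : ND B Z) (hZ0 : Z ≠ ⊥) :
    ∃ P : Submodule F V, P ≤ Z ∧ P.map T ≤ P ∧ ND B P ∧ finrank F P = 2 := by
  have hTT : ∀ v, T (T v) = -v := by
    intro v
    have h := congrArg (fun f : Module.End F V => f v) hsq
    simpa using h
  obtain ⟨v, hv, hvT⟩ : ∃ v ∈ Z, B v (T v) ≠ 0 := by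
    by_contra hcon
    push Not at hcon
    have hpol : ∀ v ∈ Z, ∀ w ∈ Z, B v (T w) = 0 := by
      intro v hv w hw
      have h1 := hcon (v + w) (Z.add_mem hv hw)
      rw [map_add, map_add, LinearMap.add_apply, map_add, map_add, hcon v hv, hcon w hw,
        zero_add, add_zero] at h1
      have h3 : B w (T v) = B v (T w) := by
        rw [alt_swap hA w (T v), ← hT (T v) w, hTT, map_neg, LinearMap.neg_apply, neg_neg]
      rw [h3] at h1
      have h4 : (2 : F) * B v (T w) = 0 := by
        rw [two_mul]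
        exact h1
      exact (mul_eq_zero.mp h4).resolve_left h2
    obtain ⟨w, hw, hw0⟩ := (Submodule.ne_bot_iff _).mp hZ0
    have hTw : T w ∈ Z := hZ ⟨w, hw, rfl⟩
    have hTw0 : T w = 0 := by
      apply hZnd (T w) hTw
      intro v hv
      rw [alt_swap hA, hpol v hv w hw, neg_zero]
    exact hw0 (isom_injective hN hT (by rw [hTw0, map_zero]))
  obtain ⟨hPnd, hPfin⟩ := plane_nd hA v (T v) hvT
  have hvP : v ∈ Submodule.span F (Set.range ![v, T v]) := Submodule.subset_span ⟨0, rfl⟩
  have hwP : T v ∈ Submodule.span F (Set.range ![v, T v]) := Submodule.subset_span ⟨1, rfl⟩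
  refine ⟨Submodule.span F (Set.range ![v, T v]), ?_, ?_, hPnd, hPfin⟩
  · rw [Submodule.span_le]
    rintro _ ⟨k, rfl⟩
    fin_cases k
    · exact hv
    · exact hZ ⟨v, hv, rfl⟩
  · rw [Submodule.map_span, Submodule.span_le]
    rintro _ ⟨_, ⟨k, rfl⟩, rfl⟩
    fin_cases k
    · exact hwP
    · change T (T v) ∈ _
      rw [hTT]
      exact Submodule.neg_mem _ hvP

/-- Case `T * T = -1`. -/
theorem exists_nd_inv_of_sq_neg (hA : B.IsAlt) (hN : ND B ⊤)
    (h2 : (2 : F) ≠ 0) (T : Module.End F V) (hT : Isom B T) (hsq : T * T = -1)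
    (m : ℕ) (hme : Even m) (hm : m ≤ finrank F V) :
    ∃ W : Submodule F V, W.map T ≤ W ∧ ND B W ∧ finrank F W = m := by
  obtain ⟨k, hk⟩ := hme
  have hinfinv : ∀ X Y : Submodule F V, X.map T ≤ X → Y.map T ≤ Y →
      (X ⊓ B.orthogonal Y).map T ≤ X ⊓ B.orthogonal Y := by
    rintro X Y hX hY _ ⟨x, hx, rfl⟩
    exact ⟨hX ⟨x, hx.1, rfl⟩, perp_invariant hN hT hY ⟨x, hx.2, rfl⟩⟩
  obtain ⟨Q, -, hQ, hQfin, -⟩ := exists_sub_atoms hA 2 (by norm_num)
    (fun X => ND B X ∧ X.map T ≤ X) (fun X hX => hX.1)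
    (fun X hX hX0 => by
      obtain ⟨P, hPX, hPinv, hP, hP2⟩ := exists_plane_of_sq_neg hA hN h2 T hT hsq X hX.2 hX.1 hX0
      exact ⟨P, hPX, ⟨hP, hPinv⟩, hP2, (nd_rel hA hP hX.1 hPX).1, hinfinv X P hX.2 hPinv⟩)
    (fun X Y hX hY hXY => ⟨(nd_sup hA hX.1 hY.1 hXY).1, by
      rw [Submodule.map_sup]
      exact sup_le_sup hX.2 hY.2⟩)
    ⟨nd_bot, by rw [Submodule.map_bot]⟩ ⊤ ⟨hN, le_top⟩ k (by rw [finrank_top]; omega)
  exact ⟨Q, hQ.2, hQ.1, by rw [hQfin]; omega⟩

/-- Piece R2 of S5956. -/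
theorem exists_nd_inv_of_sq {F : Type*} [Field F] {V : Type*} [AddCommGroup V] [Module F V]
    [FiniteDimensional F V] {B : LinearMap.BilinForm F V} (hA : B.IsAlt) (hN : ND B ⊤)
    (h2 : (2 : F) ≠ 0) (T : Module.End F V) (hT : Isom B T) (hsq : T * T = 1 ∨ T * T = -1)
    (m : ℕ) (hme : Even m) (hm : m ≤ finrank F V) :
    ∃ W : Submodule F V, W.map T ≤ W ∧ ND B W ∧ finrank F W = m := by
  rcases hsq with h | h
  · exact exists_nd_inv_of_sq_one hA hN h2 T hT h m hme hm
  · exact exists_nd_inv_of_sq_neg hA hN h2 T hT h m hme hm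

end Cfsg.Agent.Lib.Helper13.SpR2
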